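import Mathlib
import Cfsg.Agent.Lib.helper2.Transport
import Cfsg.Agent.Lib.helper2.SLGen
import Cfsg.Agent.Lib.helper2.SLCard
import Cfsg.Agent.Lib.helper2.A5
import Cfsg.Agent.Lib.helper2.PSL42Tbl

set_option autoImplicit false

namespace Cfsg.Agent.Lib.helper2.PSL42

open Matrix Matrix.SpecialLinearGroup

theorem withVal_eq (n : ℕ) (k : ℕ → Bool) : withVal n k = k n := by
  cases n <;> rfl

theorem all4_spec (p : ℕ → Bool) (h : all4 p = true) (i : ℕ) (hi : i < 4) : p i = true := by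
  simp only [all4, Bool.and_eq_true] at h
  interval_cases i
  · exact h.1
  · exact h.2.1
  · exact h.2.2.1
  · exact h.2.2.2

theorem loop16_spec (p : ℕ → Bool) (h : loop16 p = true) (c : ℕ) (hc : c < 16) : p c = true := by
  simp only [loop16, Bool.and_eq_true] at h
  interval_cases c <;> tauto

theorem compOK_spec (m' m s : ℕ) (h : compOK m' m s = true) (k : ℕ) (hk : k < 8) :
    dg m' k = dg m (dg s k) := by
  simp only [compOK, Bool.and_eq_true] at h
  interval_cases k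
  · exact Nat.eq_of_beq_eq_true h.1
  · exact Nat.eq_of_beq_eq_true h.2.1
  · exact Nat.eq_of_beq_eq_true h.2.2.1
  · exact Nat.eq_of_beq_eq_true h.2.2.2.1
  · exact Nat.eq_of_beq_eq_true h.2.2.2.2.1
  · exact Nat.eq_of_beq_eq_true h.2.2.2.2.2.1
  · exact Nat.eq_of_beq_eq_true h.2.2.2.2.2.2.1
  · exact Nat.eq_of_beq_eq_true h.2.2.2.2.2.2.2

theorem checkC_spec (c0 c1 c2 c3 : ℕ) (h : checkC c0 c1 c2 c3 = true) (hv : lk c0 c1 c2 c3 ≠ 0)
    (i j : ℕ) (hi : i < 4) (hj : j < 4) (hij : i ≠ j) :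
    updLk c0 c1 c2 c3 i j ≠ 0 ∧ ∀ k, k < 8 →
      dg (updLk c0 c1 c2 c3 i j) k = dg (lk c0 c1 c2 c3) (dg (sgN i j) k) := by
  rw [checkC, withVal_eq] at h
  simp only [Bool.or_eq_true] at h
  rcases h with h | h
  · exact absurd (Nat.eq_of_beq_eq_true h) hv
  have h1 := all4_spec _ h i hi
  have h2 := all4_spec _ h1 j hj
  simp only [Bool.or_eq_true, withVal_eq, Bool.and_eq_true] at h2
  rcases h2 with h2 | ⟨h2, h3⟩
  · exact absurd (Nat.eq_of_beq_eq_true h2) hij
  · refine ⟨?_, compOK_spec _ _ _ h3⟩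
    intro hx
    rw [hx] at h2
    exact absurd h2 (by decide)

theorem slice_all (c3 : ℕ) (h : c3 < 16) : checkSlice c3 = true := by
  interval_cases c3
  · exact slice0
  · exact slice1
  · exact slice2
  · exact slice3
  · exact slice4
  · exact slice5
  · exact slice6
  · exact slice7
  · exact slice8
  · exact slice9
  · exact slice10
  · exact slice11
  · exact slice12
  · exact slice13
  · exact slice14
  · exact slice15

theorem checkC_all (c0 c1 c2 c3 : ℕ) (h0 : c0 < 16) (h1 : c1 < 16) (h2 : c2 < 16) (h3 : c3 < 16) :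
    checkC c0 c1 c2 c3 = true := by
  have a := loop16_spec _ (slice_all c3 h3) c0 h0
  have b := loop16_spec _ a c1 h1
  exact loop16_spec _ b c2 h2

def colc (x0 x1 x2 x3 : ZMod 2) : ℕ := x0.val + 2 * x1.val + 4 * x2.val + 8 * x3.val

theorem colc_lt : ∀ x0 x1 x2 x3 : ZMod 2, colc x0 x1 x2 x3 < 16 := by decide

theorem colc_add : ∀ x0 x1 x2 x3 y0 y1 y2 y3 : ZMod 2,
    colc (x0 + y0) (x1 + y1) (x2 + y2) (x3 + y3)
      = Nat.xor (colc x0 x1 x2 x3) (colc y0 y1 y2 y3) := by decide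

def cc (g : SpecialLinearGroup (Fin 4) (ZMod 2)) (l : Fin 4) : ℕ :=
  colc (g 0 l) (g 1 l) (g 2 l) (g 3 l)

def Fg (g : SpecialLinearGroup (Fin 4) (ZMod 2)) : ℕ := lk (cc g 0) (cc g 1) (cc g 2) (cc g 3)

def f (g : SpecialLinearGroup (Fin 4) (ZMod 2)) : Function.End (Fin 8) :=
  fun k => Fin.ofNat 8 (dg (Fg g) k.val)

theorem mul_t_apply (g : SpecialLinearGroup (Fin 4) (ZMod 2)) {i j : Fin 4} (hij : i ≠ j)
    (k l : Fin 4) :
    (g * transvection hij (1 : ZMod 2)) k l = if l = j then g k l + g k i else g k l := by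
  have h1 : ((g * transvection hij (1 : ZMod 2) : SpecialLinearGroup (Fin 4) (ZMod 2)) :
      Matrix (Fin 4) (Fin 4) (ZMod 2)) = (g : Matrix (Fin 4) (Fin 4) (ZMod 2))
        + (g : Matrix (Fin 4) (Fin 4) (ZMod 2)) * Matrix.single i j 1 := by
    show (g : Matrix (Fin 4) (Fin 4) (ZMod 2)) * (Matrix.transvection i j 1) = _
    rw [Matrix.transvection, Matrix.mul_add, Matrix.mul_one]
  rw [h1, Matrix.add_apply, Matrix.mul_apply]
  split_ifs with h
  · subst h
    simp [Matrix.single_apply]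
  · simp [Matrix.single_apply, Ne.symm h]

theorem cc_mul_t (g : SpecialLinearGroup (Fin 4) (ZMod 2)) {i j : Fin 4} (hij : i ≠ j)
    (l : Fin 4) :
    cc (g * transvection hij (1 : ZMod 2)) l
      = if l = j then Nat.xor (cc g j) (cc g i) else cc g l := by
  unfold cc
  simp only [mul_t_apply]
  split_ifs with h
  · subst h
    exact colc_add _ _ _ _ _ _ _ _
  · rfl

theorem Fg_mul_t (g : SpecialLinearGroup (Fin 4) (ZMod 2)) {i j : Fin 4} (hij : i ≠ j) :
    Fg (g * transvection hij (1 : ZMod 2))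
      = updLk (cc g 0) (cc g 1) (cc g 2) (cc g 3) i.val j.val := by
  unfold Fg
  rw [cc_mul_t, cc_mul_t, cc_mul_t, cc_mul_t]
  fin_cases i <;> fin_cases j <;> first | exact absurd rfl hij | rfl

theorem cc_one : cc 1 0 = 1 ∧ cc 1 1 = 2 ∧ cc 1 2 = 4 ∧ cc 1 3 = 8 := by
  have h1 : ZMod.val (1 : ZMod 2) = 1 := rfl
  simp [cc, colc, h1]

theorem Fg_one : Fg 1 = 16434824 := by
  obtain ⟨h0, h1, h2, h3⟩ := cc_one
  rw [Fg, h0, h1, h2, h3]
  exact check_one

theorem dg_lt (m k : ℕ) : dg m k < 8 := Nat.mod_lt _ (by norm_num)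

theorem dg_id (x : ℕ) (hx : x < 8) : dg 16434824 x = x := by
  interval_cases x <;> rfl

theorem f_one : f 1 = 1 := by
  funext k
  show Fin.ofNat 8 (dg (Fg 1) k.val) = k
  rw [Fg_one, dg_id _ k.2]
  ext
  simp [Fin.ofNat, Nat.mod_eq_of_lt k.2]

theorem f_mul : ∀ g h : SpecialLinearGroup (Fin 4) (ZMod 2), f (g * h) = f g * f h := by
  apply Transport.hom_of_transvections f (fun g => Fg g ≠ 0)
  · show Fg 1 ≠ 0
    rw [Fg_one]
    norm_num
  · intro i j hij a g hg
    have ha : a = 0 ∨ a = 1 := by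
      fin_cases a
      · left; rfl
      · right; rfl
    rcases ha with rfl | rfl
    · rw [transvection_coeff_zero, mul_one, f_one, mul_one]
      exact ⟨hg, rfl⟩
    · have hc := checkC_all (cc g 0) (cc g 1) (cc g 2) (cc g 3) (colc_lt _ _ _ _)
        (colc_lt _ _ _ _) (colc_lt _ _ _ _) (colc_lt _ _ _ _)
      have key := checkC_spec _ _ _ _ hc hg i.val j.val i.2 j.2 (Fin.val_ne_of_ne hij)
      rw [← Fg_mul_t g hij] at key
      have hc1 := checkC_all (cc 1 0) (cc 1 1) (cc 1 2) (cc 1 3) (colc_lt _ _ _ _)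
        (colc_lt _ _ _ _) (colc_lt _ _ _ _) (colc_lt _ _ _ _)
      have hg1 : lk (cc 1 0) (cc 1 1) (cc 1 2) (cc 1 3) ≠ 0 := by
        show Fg 1 ≠ 0
        rw [Fg_one]
        norm_num
      have key1 := checkC_spec _ _ _ _ hc1 hg1 i.val j.val i.2 j.2 (Fin.val_ne_of_ne hij)
      rw [← Fg_mul_t 1 hij, one_mul] at key1
      refine ⟨key.1, ?_⟩
      funext k
      show Fin.ofNat 8 (dg (Fg (g * transvection hij 1)) k.val)
        = Fin.ofNat 8 (dg (Fg g) (Fin.ofNat 8 (dg (Fg (transvection hij 1)) k.val)).val)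
      have e1 := key.2 k.val k.2
      have e2 := key1.2 k.val k.2
      have e3 : lk (cc 1 0) (cc 1 1) (cc 1 2) (cc 1 3) = 16434824 := Fg_one
      rw [e3, dg_id _ (dg_lt _ _)] at e2
      have e4 : (Fin.ofNat 8 (dg (Fg (transvection hij 1)) k.val)).val = dg (sgN i.val j.val) k.val := by
        rw [e2]
        simp [Fin.ofNat, Nat.mod_eq_of_lt (dg_lt _ _)]
      rw [e4, e1]
      rfl

noncomputable def fHom : SpecialLinearGroup (Fin 4) (ZMod 2) →* Function.End (Fin 8) where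
  toFun := f
  map_one' := f_one
  map_mul' := f_mul

noncomputable def phi : SpecialLinearGroup (Fin 4) (ZMod 2) →* Equiv.Perm (Fin 8) :=
  fHom.toHomPerm

theorem phi_apply (g : SpecialLinearGroup (Fin 4) (ZMod 2)) (k : Fin 8) : phi g k = f g k := rfl

theorem center_eq_bot : Subgroup.center (SpecialLinearGroup (Fin 4) (ZMod 2)) = ⊥ := by
  have hc := SLCard.card_center_SL (ZMod 2) 4 (by norm_num)
  rw [ZMod.card] at hc
  exact Subgroup.eq_bot_of_card_eq _ (by rw [hc]; rfl)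

noncomputable def phiBar : ProjectiveSpecialLinearGroup (Fin 4) (ZMod 2) →* Equiv.Perm (Fin 8) :=
  QuotientGroup.lift _ phi (by rw [center_eq_bot]; exact bot_le)

theorem check_nontrivial : dg (sgN 0 1) 0 ≠ 0 := by decide +kernel

theorem phiBar_injective : Function.Injective phiBar := by
  have hs : IsSimpleGroup (ProjectiveSpecialLinearGroup (Fin 4) (ZMod 2)) :=
    SLGen.PSL_simple (by rw [Fintype.card_fin]; norm_num)
  rw [← MonoidHom.ker_eq_bot_iff]
  rcases (inferInstance : (phiBar.ker).Normal).eq_bot_or_eq_top with h | h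
  · exact h
  · exfalso
    have h01 : (0 : Fin 4) ≠ 1 := by decide
    have hmem : (QuotientGroup.mk (transvection h01 (1 : ZMod 2))
        : ProjectiveSpecialLinearGroup (Fin 4) (ZMod 2)) ∈ phiBar.ker := by
      rw [h]; trivial
    rw [MonoidHom.mem_ker] at hmem
    have h2 : phi (transvection h01 (1 : ZMod 2)) = 1 := hmem
    have h3 : phi (transvection h01 (1 : ZMod 2)) 0 = 0 := by
      rw [h2]; rfl
    rw [phi_apply] at h3
    have hc1 := checkC_all (cc 1 0) (cc 1 1) (cc 1 2) (cc 1 3) (colc_lt _ _ _ _)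
      (colc_lt _ _ _ _) (colc_lt _ _ _ _) (colc_lt _ _ _ _)
    have hg1 : lk (cc 1 0) (cc 1 1) (cc 1 2) (cc 1 3) ≠ 0 := by
      show Fg 1 ≠ 0
      rw [Fg_one]
      norm_num
    have key1 := checkC_spec _ _ _ _ hc1 hg1 (0 : Fin 4).val (1 : Fin 4).val (by decide) (by decide)
      (by decide)
    rw [← Fg_mul_t 1 h01, one_mul] at key1
    have e2 := key1.2 0 (by norm_num)
    have e3 : lk (cc 1 0) (cc 1 1) (cc 1 2) (cc 1 3) = 16434824 := Fg_one
    rw [e3, dg_id _ (dg_lt _ _)] at e2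
    have h4 : (f (transvection h01 (1 : ZMod 2)) 0).val = dg (sgN 0 1) 0 := by
      show (Fin.ofNat 8 (dg (Fg (transvection h01 1)) (0 : Fin 8).val)).val = _
      have e5 : ((0 : Fin 8).val) = 0 := rfl
      rw [e5, e2]
      simp [Fin.ofNat, Nat.mod_eq_of_lt (dg_lt _ _)]
    rw [h3] at h4
    exact check_nontrivial h4.symm

theorem iso {F : Type*} [Field F] [Fintype F] (hF : Fintype.card F = 2) :
    Nonempty (ProjectiveSpecialLinearGroup (Fin 4) F ≃* alternatingGroup (Fin 8)) := by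
  classical
  have eF : ZMod 2 ≃+* F := ZMod.ringEquivOfPrime F (by norm_num) hF
  have e1 : ProjectiveSpecialLinearGroup (Fin 4) F ≃* ProjectiveSpecialLinearGroup (Fin 4) (ZMod 2) :=
    Transport.pslCongr eF.symm
  have h := SLCard.card_PSL F 4 (by norm_num)
  rw [Fin.prod_univ_four, hF] at h
  have g1 : Nat.gcd 4 (2 - 1) = 1 := by decide
  have g2 : (2 ^ 4 - 2 ^ ((0 : Fin 4) : ℕ)) * (2 ^ 4 - 2 ^ ((1 : Fin 4) : ℕ))
      * (2 ^ 4 - 2 ^ ((2 : Fin 4) : ℕ)) * (2 ^ 4 - 2 ^ ((3 : Fin 4) : ℕ)) = 20160 := by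
    norm_num
  rw [g1, g2] at h
  have hcard : Nat.card (ProjectiveSpecialLinearGroup (Fin 4) F) = 20160 := by omega
  have hfin : Finite (ProjectiveSpecialLinearGroup (Fin 4) F) :=
    Nat.finite_of_card_ne_zero (by rw [hcard]; norm_num)
  have hinj : Function.Injective (phiBar.comp (e1 : ProjectiveSpecialLinearGroup (Fin 4) F →*
      ProjectiveSpecialLinearGroup (Fin 4) (ZMod 2))) :=
    phiBar_injective.comp e1.injective
  exact A5.iso_alt_of_injective 8 (by simp) _ hinj (by rw [hcard]; rfl)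

end Cfsg.Agent.Lib.helper2.PSL42
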