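import Mathlib
import Cfsg.Agent.Lib.helper2.BS5
import Cfsg.Agent.S0218

set_option autoImplicit false

namespace Cfsg.Agent.Lib.helper2.BS

universe u

variable {G : Type u} [Group G]

/-- the centre of a generalized quaternion group is `{1, a m}` -/
theorem quat_central (m : ℕ) (hm : 2 ≤ m) (x : QuaternionGroup m)
    (hx : ∀ q : QuaternionGroup m, q * x = x * q) :
    x = 1 ∨ x = QuaternionGroup.a (m : ZMod (2 * m)) := by
  have : NeZero m := ⟨by omega⟩
  cases x with
  | a i =>
    have h1 := hx (QuaternionGroup.xa 0)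
    rw [QuaternionGroup.xa_mul_a, QuaternionGroup.a_mul_xa] at h1
    have h2 : (0 : ZMod (2 * m)) + i = 0 - i := by injection h1
    have h3 : i + i = 0 := by linear_combination h2
    by_cases h0 : i = 0
    · left
      rw [h0, QuaternionGroup.a_zero]
    · right
      rw [Cfsg.Agent.S0218.zmod_aux m (by omega) i h3 h0]
  | xa i =>
    exfalso
    have h1 := hx (QuaternionGroup.a 1)
    rw [QuaternionGroup.a_mul_xa, QuaternionGroup.xa_mul_a] at h1
    have h2 : i - 1 = i + 1 := by injection h1
    have h3 : ((2 : ℕ) : ZMod (2 * m)) = 0 := by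
      push_cast
      linear_combination -h2
    rw [ZMod.natCast_eq_zero_iff] at h3
    have := Nat.le_of_dvd (by norm_num) h3
    omega

/-- a group with a generalized quaternion Sylow 2-subgroup has no Klein four-subgroup -/
theorem nk_of_quat [Finite G] (S : Sylow 2 G) (m : ℕ) (hm : 0 < m)
    (e : (S : Subgroup G) ≃* QuaternionGroup m) : NK G := by
  have : Fact (Nat.Prime 2) := ⟨Nat.prime_two⟩
  set t₀ : (S : Subgroup G) := e.symm (QuaternionGroup.a (m : ZMod (2 * m))) with ht₀
  have huniq : ∀ x : (S : Subgroup G), orderOf x = 2 → x = t₀ := by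
    intro x hx
    have h1 : orderOf (e x) = 2 := by rw [MulEquiv.orderOf_eq]; exact hx
    rw [Cfsg.Agent.S0218.invol_iff m hm] at h1
    rw [ht₀, ← h1, MulEquiv.symm_apply_apply]
  intro E hE
  have hp : IsPGroup 2 E := IsPGroup.of_card (n := 2) (by rw [hE.card_four]; norm_num)
  obtain ⟨Q, hQ⟩ := hp.exists_le_sylow
  obtain ⟨w, hw⟩ := MulAction.exists_smul_eq G S Q
  have key : ∀ x ∈ E, w⁻¹ * x * w⁻¹⁻¹ ∈ (S : Subgroup G) := by
    intro x hx
    have hxQ := hQ hx
    rw [← hw, Sylow.coe_subgroup_smul, Subgroup.mem_pointwise_smul_iff_inv_smul_mem] at hxQ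
    have e1 : (MulAut.conj w)⁻¹ • x = w⁻¹ * x * w⁻¹⁻¹ := by
      rw [← map_inv, MulAut.smul_def, MulAut.conj_apply]
    rw [e1] at hxQ
    exact hxQ
  have hall : ∀ x : E, x ≠ 1 → (x : G) = w * (t₀ : G) * w⁻¹ := by
    intro x hx1
    have hx2 : orderOf x = 2 := by
      apply order_two_of_sq hx1
      have h := Monoid.pow_exponent_eq_one x
      rw [hE.exponent_two, pow_two] at h
      exact h
    have hxo : orderOf (x : G) = 2 := by rw [Subgroup.orderOf_coe, hx2]
    have h1 := huniq ⟨_, key x x.2⟩ (by rw [Subgroup.orderOf_mk, orderOf_conj', hxo])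
    have h2 : w⁻¹ * (x : G) * w⁻¹⁻¹ = (t₀ : G) := congrArg Subtype.val h1
    rw [← h2]
    group
  have hcard : Nat.card E ≤ 2 := by
    classical
    have hinj : Function.Injective (fun x : E => decide (x = 1)) := by
      intro x y hxy
      simp only [decide_eq_decide] at hxy
      by_cases hx : x = 1
      · rw [hx]; exact (hxy.mp hx).symm
      · have hy : y ≠ 1 := fun h => hx (hxy.mpr h)
        apply Subtype.ext
        rw [hall x hx, hall y hy]
    have h := Nat.card_le_card_of_injective _ hinj
    simpa using h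
  rw [hE.card_four] at hcard
  omega

/-- **Brauer–Suzuki** for generalized quaternion Sylow 2-subgroups: if `O(G) = 1` then the
centre of `G` has order 2 -/
theorem quat_center_card [Finite G] (S : Sylow 2 G) (m : ℕ) (hm : 2 ≤ m)
    (e : (S : Subgroup G) ≃* QuaternionGroup m)
    (hO : ∀ N : Subgroup G, N.Normal → Odd (Nat.card N) → N = ⊥) :
    Nat.card (Subgroup.center G) = 2 := by
  have : Fact (Nat.Prime 2) := ⟨Nat.prime_two⟩
  have hm0 : 0 < m := by omega
  set t₀ : (S : Subgroup G) := e.symm (QuaternionGroup.a (m : ZMod (2 * m))) with ht₀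
  have ht₀o : orderOf t₀ = 2 := by
    rw [ht₀, MulEquiv.orderOf_eq]
    exact (Cfsg.Agent.S0218.invol_iff m hm0 _).mpr rfl
  have hconj : ∀ x : G, (∃ k, orderOf x = 2 ^ k) →
      ∃ w : G, w * x * w⁻¹ ∈ (S : Subgroup G) := by
    rintro x ⟨k, hk⟩
    have hp : IsPGroup 2 (Subgroup.zpowers x) := by
      apply IsPGroup.of_card (n := k)
      rw [Nat.card_zpowers, hk]
    obtain ⟨Q, hQ⟩ := hp.exists_le_sylow
    obtain ⟨w, hw⟩ := MulAction.exists_smul_eq G S Q
    have hxQ : x ∈ (Q : Subgroup G) := hQ (Subgroup.mem_zpowers x)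
    rw [← hw, Sylow.coe_subgroup_smul, Subgroup.mem_pointwise_smul_iff_inv_smul_mem] at hxQ
    have e1 : (MulAut.conj w)⁻¹ • x = w⁻¹ * x * w⁻¹⁻¹ := by
      rw [← map_inv, MulAut.smul_def, MulAut.conj_apply]
    rw [e1] at hxQ
    exact ⟨w⁻¹, hxQ⟩
  have hNK : NK G := nk_of_quat S m hm0 e
  have heven : Even (Nat.card G) := by
    have h1 : orderOf (t₀ : G) ∣ Nat.card G := orderOf_dvd_natCard _
    rw [Subgroup.orderOf_coe, ht₀o] at h1
    exact even_iff_two_dvd.mpr h1
  obtain ⟨z, hz, M, hMn, hModd, hM⟩ := main hNK heven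
  have hMbot := hO M hMn hModd
  have hzc : z ∈ Subgroup.center G := by
    rw [Subgroup.mem_center_iff]
    intro g
    have h1 := hM g
    rw [hMbot, Subgroup.mem_bot] at h1
    have h2 : z * g * z⁻¹ * g⁻¹ * (g * z) = g * z := by rw [h1, one_mul]
    rw [← h2]
    group
  have hsub : ∀ x ∈ Subgroup.center G, x = 1 ∨ x = (t₀ : G) := by
    intro x hx
    have hxc : ∀ g : G, g * x = x * g := fun g => Subgroup.mem_center_iff.mp hx g
    obtain ⟨k, r, hr, hkr⟩ := Nat.exists_eq_two_pow_mul_odd (orderOf_pos x).ne'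
    have hx2 : x ^ (2 ^ k) = 1 := by
      have hN : (Subgroup.zpowers (x ^ (2 ^ k))).Normal := by
        constructor
        intro y hy g
        have h1 : g * y * g⁻¹ = y := by
          obtain ⟨j, rfl⟩ := Subgroup.mem_zpowers_iff.mp hy
          have hc : Commute g ((x ^ (2 ^ k)) ^ j) :=
            ((show Commute g x from hxc g).pow_right _).zpow_right _
          rw [hc.eq]
          group
        rw [h1]
        exact hy
      have hodd : Odd (Nat.card (Subgroup.zpowers (x ^ (2 ^ k)))) := by
        rw [Nat.card_zpowers, orderOf_pow_of_dvd (by positivity)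
          (by rw [hkr]; exact dvd_mul_right _ _), hkr, Nat.mul_div_cancel_left _ (by positivity)]
        exact hr
      have h1 := hO _ hN hodd
      rw [Subgroup.zpowers_eq_bot] at h1
      exact h1
    have ho : ∃ j, orderOf x = 2 ^ j := by
      have h1 := orderOf_dvd_of_pow_eq_one hx2
      obtain ⟨j, -, hj⟩ := (Nat.dvd_prime_pow Nat.prime_two).mp h1
      exact ⟨j, hj⟩
    obtain ⟨w, hw⟩ := hconj x ho
    have hxS : x ∈ (S : Subgroup G) := by
      have h1 : w * x * w⁻¹ = x := by rw [hxc w]; group
      rw [h1] at hw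
      exact hw
    have hcen : ∀ q : QuaternionGroup m, q * e ⟨x, hxS⟩ = e ⟨x, hxS⟩ * q := by
      intro q
      obtain ⟨s, rfl⟩ := e.surjective q
      rw [← map_mul, ← map_mul]
      congr 1
      apply Subtype.ext
      exact hxc s
    rcases quat_central m hm _ hcen with h | h
    · left
      have h1 : (⟨x, hxS⟩ : (S : Subgroup G)) = 1 := by
        apply e.injective
        rw [h, map_one]
      exact congrArg Subtype.val h1
    · right
      have h1 : (⟨x, hxS⟩ : (S : Subgroup G)) = t₀ := by
        rw [ht₀, ← h, MulEquiv.symm_apply_apply]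
      exact congrArg Subtype.val h1
  have hle : Nat.card (Subgroup.center G) ≤ 2 := by
    classical
    have hinj : Function.Injective (fun x : Subgroup.center G => decide (x = 1)) := by
      intro x y hxy
      simp only [decide_eq_decide] at hxy
      by_cases hx : x = 1
      · rw [hx]; exact (hxy.mp hx).symm
      · have hy : y ≠ 1 := fun h => hx (hxy.mpr h)
        apply Subtype.ext
        rcases hsub x x.2 with h | h
        · exact absurd (Subtype.ext h) hx
        · rcases hsub y y.2 with h' | h'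
          · exact absurd (Subtype.ext h') hy
          · rw [h, h']
    have h := Nat.card_le_card_of_injective _ hinj
    simpa using h
  have hdvd : 2 ∣ Nat.card (Subgroup.center G) := by
    have h1 : orderOf (⟨z, hzc⟩ : Subgroup.center G) ∣ Nat.card (Subgroup.center G) :=
      orderOf_dvd_natCard _
    rw [Subgroup.orderOf_mk, hz] at h1
    exact h1
  have hpos : 0 < Nat.card (Subgroup.center G) := Nat.card_pos
  obtain ⟨k, hk⟩ := hdvd
  omega

end Cfsg.Agent.Lib.helper2.BS
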