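import Mathlib
import Cfsg.Agent.Lib.helper2.BS6

set_option autoImplicit false

namespace Cfsg.Agent.Lib.helper2.BS

open Cfsg Cfsg.Agent.Lib.helper24 Cfsg.Agent.Lib.helper23 Cfsg.Agent.Lib.helper8
open scoped ComplexConjugate

universe u

variable {G : Type u} [Group G]

theorem zpowers_normal_of_central {H : Type*} [Group H] (x : H) (hx : ∀ g : H, g * x = x * g) :
    (Subgroup.zpowers x).Normal := by
  constructor
  intro y hy g
  have h1 : g * y * g⁻¹ = y := by
    obtain ⟨j, rfl⟩ := Subgroup.mem_zpowers_iff.mp hy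
    have hc : Commute g (x ^ j) := (show Commute g x from hx g).zpow_right _
    rw [hc.eq]
    group
  rw [h1]
  exact hy

/-- the structure given by Brauer–Suzuki: a normal subgroup `M₀` of odd order and an involution
`z` central modulo `M₀`, packaged through the quotient map -/
theorem bs_quot [Finite G] (hNK : NK G) (heven : Even (Nat.card G)) :
    ∃ (z : G) (M₀ : Subgroup G) (_ : M₀.Normal), orderOf z = 2 ∧ Odd (Nat.card M₀) ∧
      (∀ q : G ⧸ M₀, q * (QuotientGroup.mk' M₀ z) = (QuotientGroup.mk' M₀ z) * q) ∧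
      ∀ u : G, orderOf u = 2 → QuotientGroup.mk' M₀ u = QuotientGroup.mk' M₀ z := by
  obtain ⟨z, hz, M₀, hMn, hModd, hM⟩ := main hNK heven
  refine ⟨z, M₀, hMn, hz, hModd, ?_, ?_⟩
  · intro q
    obtain ⟨g, rfl⟩ := QuotientGroup.mk'_surjective M₀ q
    have h1 : QuotientGroup.mk' M₀ (z * g * z⁻¹ * g⁻¹) = 1 :=
      (QuotientGroup.eq_one_iff _).mpr (hM g)
    rw [map_mul, map_mul, map_mul, map_inv, map_inv] at h1
    have h2 : QuotientGroup.mk' M₀ z * QuotientGroup.mk' M₀ g =
        (QuotientGroup.mk' M₀ z * QuotientGroup.mk' M₀ g * (QuotientGroup.mk' M₀ z)⁻¹ *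
          (QuotientGroup.mk' M₀ g)⁻¹) * (QuotientGroup.mk' M₀ g * QuotientGroup.mk' M₀ z) := by
      group
    rw [h1, one_mul] at h2
    exact h2.symm
  · intro u hu
    have hodd := odd_mul_invol hNK hu hz
    set π := QuotientGroup.mk' M₀ with hπ
    have hcomm : π u * π z = π z * π u := by
      have h1 : π (z * u * z⁻¹ * u⁻¹) = 1 := (QuotientGroup.eq_one_iff _).mpr (hM u)
      rw [map_mul, map_mul, map_mul, map_inv, map_inv] at h1
      have h2 : π z * π u = (π z * π u * (π z)⁻¹ * (π u)⁻¹) * (π u * π z) := by group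
      rw [h1, one_mul] at h2
      exact h2.symm
    have hu2 : π u * π u = 1 := by rw [← map_mul, sq_of_order_two hu, map_one]
    have hz2 : π z * π z = 1 := by rw [← map_mul, sq_of_order_two hz, map_one]
    have hsq : (π (u * z)) ^ 2 = 1 := by
      rw [map_mul, pow_two]
      calc π u * π z * (π u * π z) = π u * (π z * π u) * π z := by group
        _ = π u * (π u * π z) * π z := by rw [hcomm]
        _ = (π u * π u) * (π z * π z) := by group
        _ = 1 := by rw [hu2, hz2, one_mul]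
    have hk : (π (u * z)) ^ (orderOf (u * z)) = 1 := by
      rw [← map_pow, pow_orderOf_eq_one, map_one]
    have h1 : π (u * z) = 1 := by
      obtain ⟨j, hj⟩ := hodd
      rw [hj, pow_succ, pow_mul, hsq, one_pow, one_mul] at hk
      exact hk
    rw [map_mul] at h1
    have h2 : π u = (π z)⁻¹ := eq_inv_of_mul_eq_one_left h1
    rw [h2]
    exact inv_eq_of_mul_eq_one_left hz2

/-- squares of elements of the subgroup generated by the involutions lie in a normal subgroup
of odd order -/
theorem invol_closure [Finite G] (hNK : NK G) (heven : Even (Nat.card G)) :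
    ∃ M₀ : Subgroup G, M₀.Normal ∧ Odd (Nat.card M₀) ∧
      ∀ x ∈ Subgroup.closure {g : G | orderOf g = 2}, x ^ 2 ∈ M₀ := by
  obtain ⟨z, M₀, hMn, hz, hModd, hcen, hinv⟩ := bs_quot hNK heven
  refine ⟨M₀, hMn, hModd, ?_⟩
  set π := QuotientGroup.mk' M₀ with hπ
  have hle : Subgroup.closure {g : G | orderOf g = 2} ≤ (Subgroup.zpowers (π z)).comap π := by
    rw [Subgroup.closure_le]
    intro u hu
    show π u ∈ Subgroup.zpowers (π z)
    rw [hinv u hu]
    exact Subgroup.mem_zpowers _
  intro x hx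
  have h1 : π x ∈ Subgroup.zpowers (π z) := hle hx
  obtain ⟨j, hj⟩ := Subgroup.mem_zpowers_iff.mp h1
  have hz2 : π z ^ 2 = 1 := by rw [← map_pow, pow_two, sq_of_order_two hz, map_one]
  have h2 : π (x ^ 2) = 1 := by
    rw [map_pow, ← hj, ← zpow_natCast, ← zpow_mul, mul_comm, zpow_mul, zpow_natCast, hz2,
      one_zpow]
  exact (QuotientGroup.eq_one_iff _).mp h2

theorem cyclic_of_invols {H : Type*} [Group H] (h1 : ∀ q : H, q = 1 ∨ orderOf q = 2)
    (h2 : ∀ q q' : H, orderOf q = 2 → orderOf q' = 2 → q = q') : IsCyclic H := by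
  by_cases hex : ∃ t : H, orderOf t = 2
  · obtain ⟨t, hto⟩ := hex
    refine ⟨⟨t, ?_⟩⟩
    intro x
    rcases h1 x with h | h
    · exact ⟨0, by simp [h]⟩
    · exact ⟨1, by
        simp only [zpow_one]
        exact h2 t x hto h⟩
  · push Not at hex
    have : Subsingleton H := by
      constructor
      intro a b
      rcases h1 a with h | h
      · rcases h1 b with h' | h'
        · rw [h, h']
        · exact absurd h' (hex b)
      · exact absurd h (hex a)
    exact isCyclic_of_subsingleton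

theorem sylow_cyclic_of_sq [Finite G] (hNK : NK G) (K M₀ : Subgroup G)
    (hModd : Odd (Nat.card M₀)) (hsq : ∀ x ∈ K, x ^ 2 ∈ M₀) (Q : Sylow 2 K) : IsCyclic Q := by
  have hNKQ : NK (Q : Subgroup K) := (hNK.subgroup K).subgroup (Q : Subgroup K)
  have hx2 : ∀ q : (Q : Subgroup K), q ^ 2 = 1 := by
    intro q
    obtain ⟨k, hk⟩ := Q.isPGroup' q
    have h1 : ((q : K) : G) ^ 2 ∈ M₀ := hsq _ (q : K).2
    have h2 : orderOf (⟨((q : K) : G) ^ 2, h1⟩ : M₀) ∣ Nat.card M₀ := orderOf_dvd_natCard _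
    rw [Subgroup.orderOf_mk] at h2
    have h3 : orderOf (((q : K) : G) ^ 2) ∣ 2 ^ k := by
      apply orderOf_dvd_of_pow_eq_one
      rw [← pow_mul, mul_comm, pow_mul]
      have h4 := congrArg (fun x : (Q : Subgroup K) => ((x : K) : G)) hk
      simp only [Subgroup.coe_pow, Subgroup.coe_one] at h4
      rw [h4, one_pow]
    obtain ⟨j, -, hj⟩ := (Nat.dvd_prime_pow Nat.prime_two).mp h3
    have hj0 : j = 0 := by
      by_contra hj0
      have h5 : 2 ∣ Nat.card M₀ := (hj ▸ dvd_pow_self 2 hj0 : 2 ∣ orderOf (((q : K) : G) ^ 2)).trans h2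
      exact (Nat.not_even_iff_odd.mpr hModd) (even_iff_two_dvd.mpr h5)
    rw [hj0, pow_zero, orderOf_eq_one_iff] at hj
    apply Subtype.ext
    apply Subtype.ext
    simp only [Subgroup.coe_pow, Subgroup.coe_one]
    exact hj
  apply cyclic_of_invols
  · intro q
    by_cases hq : q = 1
    · exact Or.inl hq
    · right
      apply order_two_of_sq hq
      rw [← pow_two]
      exact hx2 q
  · intro q q' hq hq'
    have hodd := odd_mul_invol hNKQ hq hq'
    have h1 : orderOf (q * q') ∣ 2 := orderOf_dvd_of_pow_eq_one (hx2 _)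
    have h2 : orderOf (q * q') = 1 := by
      rcases (Nat.dvd_prime Nat.prime_two).mp h1 with h | h
      · exact h
      · rw [h] at hodd
        exact absurd hodd (by decide)
    rw [orderOf_eq_one_iff] at h2
    have h3 : q = q'⁻¹ := eq_inv_of_mul_eq_one_left h2
    rw [h3]
    exact inv_eq_of_mul_eq_one_left (sq_of_order_two hq')

/-- the Sylow 2-subgroups of the subgroup generated by the involutions are cyclic -/
theorem invol_sylow_cyclic [Finite G] (hNK : NK G) (heven : Even (Nat.card G))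
    (Q : Sylow 2 ↥(Subgroup.closure {g : G | orderOf g = 2})) : IsCyclic Q := by
  obtain ⟨M₀, hMn, hModd, hsq⟩ := invol_closure hNK heven
  exact sylow_cyclic_of_sq hNK _ M₀ hModd hsq Q

/-- a normal subgroup of even order with nonabelian quotient, given an element of order 4 in
the commutator subgroup -/
theorem exists_even_normal_nonab [Finite G] (hNK : NK G) (heven : Even (Nat.card G))
    (w : G) (hw : orderOf w = 4) (hwc : w ∈ commutator G) :
    ∃ M : Subgroup G, M.Normal ∧ Even (Nat.card M) ∧ ¬ commutator G ≤ M := by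
  obtain ⟨z, M₀, hMn, hz, hModd, hcen, hinv⟩ := bs_quot hNK heven
  set π := QuotientGroup.mk' M₀ with hπ
  have hZn : (Subgroup.zpowers (π z)).Normal := zpowers_normal_of_central (π z) hcen
  refine ⟨(Subgroup.zpowers (π z)).comap π, hZn.comap π, ?_, ?_⟩
  · have hzM : z ∈ (Subgroup.zpowers (π z)).comap π := Subgroup.mem_zpowers _
    have h1 : orderOf (⟨z, hzM⟩ : (Subgroup.zpowers (π z)).comap π) ∣
        Nat.card ((Subgroup.zpowers (π z)).comap π) := orderOf_dvd_natCard _
    rw [Subgroup.orderOf_mk, hz] at h1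
    exact even_iff_two_dvd.mpr h1
  · intro hle
    have h1 : π w ∈ Subgroup.zpowers (π z) := hle hwc
    obtain ⟨j, hj⟩ := Subgroup.mem_zpowers_iff.mp h1
    have hz2 : π z ^ 2 = 1 := by rw [← map_pow, pow_two, sq_of_order_two hz, map_one]
    have h2 : π (w ^ 2) = 1 := by
      rw [map_pow, ← hj, ← zpow_natCast, ← zpow_mul, mul_comm, zpow_mul, zpow_natCast, hz2,
        one_zpow]
    have h3 : w ^ 2 ∈ M₀ := (QuotientGroup.eq_one_iff _).mp h2
    have h4 : orderOf (⟨w ^ 2, h3⟩ : M₀) ∣ Nat.card M₀ := orderOf_dvd_natCard _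
    rw [Subgroup.orderOf_mk, orderOf_pow_of_dvd (by norm_num) (by rw [hw]; norm_num), hw] at h4
    exact (Nat.not_even_iff_odd.mpr hModd) (even_iff_two_dvd.mpr h4)

theorem quat_comm (m : ℕ) :
    (QuaternionGroup.a 1 : QuaternionGroup m) * QuaternionGroup.xa 0 *
      (QuaternionGroup.a 1)⁻¹ * (QuaternionGroup.xa 0)⁻¹ = (QuaternionGroup.a 1) ^ 2 := by
  have h : (QuaternionGroup.a 1 : QuaternionGroup m) * QuaternionGroup.xa 0 =
      (QuaternionGroup.a 1) ^ 2 * (QuaternionGroup.xa 0 * QuaternionGroup.a 1) := by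
    rw [pow_two, QuaternionGroup.a_mul_a, QuaternionGroup.xa_mul_a, QuaternionGroup.a_mul_xa,
      QuaternionGroup.a_mul_xa]
    congr 1
    ring
  rw [h]
  group

theorem quat_inv (m : ℕ) :
    (QuaternionGroup.xa 0 : QuaternionGroup m) * QuaternionGroup.a 1 *
      (QuaternionGroup.xa 0)⁻¹ = (QuaternionGroup.a 1)⁻¹ := by
  have h : (QuaternionGroup.xa 0 : QuaternionGroup m) * QuaternionGroup.a 1 =
      (QuaternionGroup.a 1)⁻¹ * QuaternionGroup.xa 0 := by
    have h1 : (QuaternionGroup.a 1 : QuaternionGroup m) * (QuaternionGroup.xa 0 *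
        QuaternionGroup.a 1) = QuaternionGroup.xa 0 := by
      rw [QuaternionGroup.xa_mul_a, QuaternionGroup.a_mul_xa]
      congr 1
      ring
    calc (QuaternionGroup.xa 0 : QuaternionGroup m) * QuaternionGroup.a 1
        = (QuaternionGroup.a 1)⁻¹ * ((QuaternionGroup.a 1) * (QuaternionGroup.xa 0 *
          QuaternionGroup.a 1)) := by group
      _ = (QuaternionGroup.a 1)⁻¹ * QuaternionGroup.xa 0 := by rw [h1]
  rw [h]
  group

theorem even_of_quat [Finite G] (S : Sylow 2 G) (m : ℕ) (hm : 0 < m)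
    (e : (S : Subgroup G) ≃* QuaternionGroup m) : Even (Nat.card G) := by
  have h0 : orderOf (e.symm (QuaternionGroup.a (m : ZMod (2 * m)))) = 2 := by
    rw [MulEquiv.orderOf_eq]
    exact (Cfsg.Agent.S0218.invol_iff m hm _).mpr rfl
  have h1 : orderOf ((e.symm (QuaternionGroup.a (m : ZMod (2 * m))) : (S : Subgroup G)) : G) ∣
      Nat.card G := orderOf_dvd_natCard _
  rw [Subgroup.orderOf_coe, h0] at h1
  exact even_iff_two_dvd.mpr h1

/-- a group with generalized quaternion Sylow 2-subgroups of order at least 16 has an element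
of order 8 inverted by some element, whose square is a commutator -/
theorem quat16_elts [Finite G] (S : Sylow 2 G) (n : ℕ)
    (e : (S : Subgroup G) ≃* QuaternionGroup (2 ^ (n + 2))) :
    ∃ a y : G, orderOf a = 8 ∧ y * a * y⁻¹ = a⁻¹ ∧ a ^ 2 ∈ commutator G := by
  set A : (S : Subgroup G) := e.symm (QuaternionGroup.a 1) with hA
  set X : (S : Subgroup G) := e.symm (QuaternionGroup.xa 0) with hX
  have hAo : orderOf (A : G) = 2 ^ n * 8 := by
    rw [Subgroup.orderOf_coe, hA, MulEquiv.orderOf_eq, QuaternionGroup.orderOf_a_one]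
    ring
  have hcomm : A * X * A⁻¹ * X⁻¹ = A ^ 2 := by
    apply e.injective
    rw [map_mul, map_mul, map_mul, map_inv, map_inv, map_pow, hA, hX, MulEquiv.apply_symm_apply,
      MulEquiv.apply_symm_apply]
    exact quat_comm _
  have hinv : X * A * X⁻¹ = A⁻¹ := by
    apply e.injective
    rw [map_mul, map_mul, map_inv, map_inv, hA, hX, MulEquiv.apply_symm_apply,
      MulEquiv.apply_symm_apply]
    exact quat_inv _
  have hcommG : (A : G) * (X : G) * (A : G)⁻¹ * (X : G)⁻¹ = (A : G) ^ 2 :=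
    congrArg Subtype.val hcomm
  have hinvG : (X : G) * (A : G) * (X : G)⁻¹ = (A : G)⁻¹ := congrArg Subtype.val hinv
  have hA2 : (A : G) ^ 2 ∈ commutator G := by
    rw [← hcommG, commutator_def]
    exact Subgroup.commutator_mem_commutator (Subgroup.mem_top _) (Subgroup.mem_top _)
  refine ⟨(A : G) ^ (2 ^ n), (X : G), ?_, ?_, ?_⟩
  · rw [orderOf_pow_of_dvd (by positivity) (by rw [hAo]; exact dvd_mul_right _ _), hAo,
      Nat.mul_div_cancel_left _ (by positivity)]
  · have h1 : (X : G) * (A : G) ^ (2 ^ n) * (X : G)⁻¹ = ((X : G) * (A : G) * (X : G)⁻¹) ^ (2 ^ n) :=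
      (conj_pow (a := (X : G)) (b := (A : G)) (i := 2 ^ n)).symm
    rw [h1, hinvG, inv_pow]
  · have h1 : ((A : G) ^ (2 ^ n)) ^ 2 = ((A : G) ^ 2) ^ (2 ^ n) := by
      rw [← pow_mul, ← pow_mul, mul_comm]
    rw [h1]
    exact Subgroup.pow_mem _ hA2 _

end Cfsg.Agent.Lib.helper2.BS
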