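import Mathlib
import Cfsg.Agent.Lib.helper2.BS7

set_option autoImplicit false

namespace Cfsg.Agent.Lib.helper2.BS

open Cfsg Cfsg.Agent.Lib.helper24 Cfsg.Agent.Lib.helper23 Cfsg.Agent.Lib.helper8
open scoped ComplexConjugate

universe u

variable {G : Type u} [Group G]

/-- a generalized character of norm 3 vanishing at 1 and containing the principal character
once is `1 + χ₂ - χ₁` -/
theorem norm3_struct [Fintype G] {τ : G → ℂ} (hgen : IsGeneralizedCharacter G τ)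
    (h1 : classInner τ (fun _ => (1 : ℂ)) = 1) (hτ1 : τ 1 = 0) (hnorm : classInner τ τ = 3) :
    ∃ χ₁ χ₂ : IrrCharacter G, χ₁ ≠ trivIrr G ∧ χ₂ ≠ trivIrr G ∧
      ∀ g, τ g = 1 + χ₂.1 g - χ₁.1 g := by
  classical
  have := Fintype.ofFinite (IrrCharacter G)
  obtain ⟨a, ha⟩ := exists_coeff hgen
  have ha0 : a (trivIrr G) = 1 := by
    have : ((a (trivIrr G) : ℤ) : ℂ) = 1 := by rw [← ha]; exact h1
    exact_mod_cast this
  have hN := genchar_norm_eq_sum_sq hgen a ha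
  rw [hnorm] at hN
  have hsum : ∑ χ : IrrCharacter G, a χ ^ 2 = ((2 : ℕ) : ℤ) + 1 := by
    have h2 : ((∑ χ : IrrCharacter G, a χ ^ 2 : ℤ) : ℂ) = ((3 : ℤ) : ℂ) := by
      rw [← hN]; norm_num
    have h3 := Int.cast_injective h2
    rw [h3]; norm_num
  obtain ⟨s, hcard, hnot, hpm, hF⟩ := support_lemma a (trivIrr G) ha0 2 (by norm_num) hsum
  obtain ⟨χa, χb, hne, rfl⟩ := Finset.card_eq_two.mp hcard
  have hexp : ∀ g, τ g = 1 + ((a χa : ℂ) * χa.1 g + (a χb : ℂ) * χb.1 g) := by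
    intro g
    rw [expand hgen a ha g, hF (fun χ => χ.1 g), Finset.sum_pair hne, trivIrr_apply]
  have h10 := hexp 1
  rw [hτ1] at h10
  obtain ⟨n₁, hn₁0, hn₁⟩ := isIrrCharacter_one χa.2
  obtain ⟨n₂, hn₂0, hn₂⟩ := isIrrCharacter_one χb.2
  have hm1 : χa ∈ ({χa, χb} : Finset (IrrCharacter G)) := by simp
  have hm2 : χb ∈ ({χa, χb} : Finset (IrrCharacter G)) := by simp
  have hne1 : χa ≠ trivIrr G := fun h => hnot (by rw [← h]; exact hm1)
  have hne2 : χb ≠ trivIrr G := fun h => hnot (by rw [← h]; exact hm2)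
  rcases hpm χa hm1 with h | h <;> rcases hpm χb hm2 with h' | h'
  · exfalso
    rw [h, h', hn₁, hn₂] at h10
    push_cast at h10
    have h2 : ((1 + n₁ + n₂ : ℕ) : ℂ) = 0 := by push_cast; linear_combination -h10
    have h3 := Nat.cast_eq_zero.mp h2
    omega
  · refine ⟨χb, χa, hne2, hne1, fun g => ?_⟩
    rw [hexp g, h, h']
    push_cast
    ring
  · refine ⟨χa, χb, hne1, hne2, fun g => ?_⟩
    rw [hexp g, h, h']
    push_cast
    ring
  · exfalso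
    rw [h, h', hn₁, hn₂] at h10
    push_cast at h10
    have h2 : ((n₁ + n₂ : ℕ) : ℂ) = ((1 : ℕ) : ℂ) := by push_cast; linear_combination h10
    have h3 := Nat.cast_injective h2
    omega

theorem beta_sq_ne_comp [Finite G] {a : G} (ha : orderOf a = 8) {β : Cc (a ^ 2) →* ℂˣ}
    (hβ : ∀ h, β h = 1 ↔ Odd (orderOf h)) {y : G} (hy : y * a ^ 2 * y⁻¹ = (a ^ 2)⁻¹) :
    β ^ 2 ≠ (β ^ 2).comp (conjHom hy) := by
  intro heq
  have hc : orderOf (a ^ 2) = 4 := by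
    rw [orderOf_pow_of_dvd (by norm_num) (by rw [ha]; norm_num), ha]
  have ht : orderOf ((a ^ 2) ^ 2) = 2 := by
    rw [orderOf_pow_of_dvd (by norm_num) (by rw [hc]; norm_num), hc]
  have haC : a ∈ Cc (a ^ 2) := mem_Cc.mpr (by group)
  have hcC : a ^ 2 ∈ Cc (a ^ 2) := mem_Cc.mpr rfl
  have h2 := congrArg (fun f : Cc (a ^ 2) →* ℂˣ => f ⟨a, haC⟩) heq
  simp only [MonoidHom.pow_apply, MonoidHom.comp_apply] at h2
  rw [← map_pow, ← map_pow, ← map_pow] at h2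
  have e1 : (⟨a, haC⟩ : Cc (a ^ 2)) ^ 2 = ⟨a ^ 2, hcC⟩ := Subtype.ext (by
    rw [Subgroup.coe_pow])
  have e2 : conjHom hy ⟨a ^ 2, hcC⟩ = (⟨a ^ 2, hcC⟩ : Cc (a ^ 2))⁻¹ := Subtype.ext (by
    show y⁻¹ * a ^ 2 * y = (a ^ 2)⁻¹
    exact inv_conj_of_conj_inv hy)
  rw [e1, e2, map_inv] at h2
  have h3 : β ((⟨a ^ 2, hcC⟩ : Cc (a ^ 2)) ^ 2) = 1 := by
    rw [map_pow, pow_two]
    nth_rewrite 1 [h2]
    exact inv_mul_cancel _
  rw [hβ] at h3
  have h4 : orderOf ((⟨a ^ 2, hcC⟩ : Cc (a ^ 2)) ^ 2) = 2 := by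
    rw [← Subgroup.orderOf_coe, Subgroup.coe_pow]
    exact ht
  rw [h4] at h3
  exact absurd h3 (by decide)

/-- the two exceptional characters attached to an inverted element of order 8 -/
theorem quat16_chars [Fintype G] (hNK : NK G) (a y : G) (ha : orderOf a = 8)
    (hy : y * a * y⁻¹ = a⁻¹) :
    ∃ χ₁ χ₂ : IrrCharacter G, χ₁ ≠ trivIrr G ∧ χ₂ ≠ trivIrr G ∧ χ₁.1 1 = χ₂.1 1 + 1 ∧
      ∀ g, ¬ 4 ∣ orderOf g → χ₁.1 g - χ₂.1 g = 1 := by
  have hc : orderOf (a ^ 2) = 4 := by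
    rw [orderOf_pow_of_dvd (by norm_num) (by rw [ha]; norm_num), ha]
  have hyc : y * a ^ 2 * y⁻¹ = (a ^ 2)⁻¹ := by
    have h1 := conj_pow (a := y) (b := a) (i := 2)
    rw [← h1, hy, inv_pow]
  obtain ⟨β, hβ⟩ := exists_beta hNK (a ^ 2) hc
  have hnorm := (del_norm_y hNK hc hβ hyc).1 (beta_sq_ne_comp ha hβ hyc)
  have hv1 : Del (a ^ 2) β 1 = 0 := del_vanish hβ 1 (by rw [orderOf_one]; norm_num)
  obtain ⟨χ₁, χ₂, h1, h2, hτ⟩ := norm3_struct (del_genchar (a ^ 2) β) (del_inner_one hc hβ)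
    hv1 hnorm
  refine ⟨χ₁, χ₂, h1, h2, ?_, ?_⟩
  · have h3 := hτ 1
    rw [hv1] at h3
    linear_combination h3
  · intro g hg
    have h3 := hτ g
    rw [del_vanish hβ g hg] at h3
    linear_combination h3

end Cfsg.Agent.Lib.helper2.BS
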