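import Mathlib
import Cfsg.Agent.Lib.helper2.BS8

set_option autoImplicit false

namespace Cfsg.Agent.Lib.helper2.BS

open Cfsg Cfsg.Agent.Lib.helper24 Cfsg.Agent.Lib.helper23 Cfsg.Agent.Lib.helper8
open scoped ComplexConjugate

universe u

variable {G : Type u} [Group G]

/-- a group of order dividing 4 without Klein four-subgroups is cyclic -/
theorem cyclic_of_card_dvd_four {R : Type u} [Group R] [Finite R] (hNK : NK R)
    (hcard : Nat.card R ∣ 4) : IsCyclic R := by
  by_cases h4 : ∃ x : R, orderOf x = 4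
  · obtain ⟨x, hx⟩ := h4
    apply isCyclic_of_orderOf_eq_card x
    have h1 : orderOf x ∣ Nat.card R := orderOf_dvd_natCard x
    rw [hx] at h1 ⊢
    exact Nat.dvd_antisymm h1 hcard
  · push Not at h4
    have h1 : ∀ q : R, q = 1 ∨ orderOf q = 2 := by
      intro q
      have hd : orderOf q ∣ 4 := (orderOf_dvd_natCard q).trans hcard
      rcases order_cases_of_dvd_four hd with h | h | h
      · exact Or.inl h
      · exact Or.inr h
      · exact absurd h (h4 q)
    apply cyclic_of_invols h1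
    intro q q' hq hq'
    apply invol_eq_of_comm hNK hq hq'
    have e : (q * q') * (q * q') = 1 := by
      rcases h1 (q * q') with h | h
      · rw [h, one_mul]
      · exact sq_of_order_two h
    have i : q⁻¹ = q := inv_eq_of_mul_eq_one_left (sq_of_order_two hq)
    have i' : q'⁻¹ = q' := inv_eq_of_mul_eq_one_left (sq_of_order_two hq')
    have h2 : (q * q')⁻¹ = q * q' := inv_eq_of_mul_eq_one_left e
    rw [mul_inv_rev, i, i'] at h2
    exact h2.symm

/-- fusion of elements of order 4 in a group with quaternion Sylow 2-subgroups of order 8: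
either all elements of order 4 are conjugate, or there is a normal subgroup of odd order
with quotient a 2-group -/
theorem q8_fusion_or [Finite G] (hNK : NK G) (S : Sylow 2 G) (hS8 : Nat.card S = 8)
    (h8 : ∀ g : G, orderOf g ≠ 8) {c : G} (hc : orderOf c = 4) (hcS : c ∈ (S : Subgroup G))
    (hne : ∃ y ∈ (S : Subgroup G), y ∉ Subgroup.zpowers c)
    {z : G} (hz : orderOf z = 4) (hzc : ¬ IsConj z c) :
    ∃ K : Subgroup G, K.Normal ∧ Odd (Nat.card K) ∧ ∀ g : G, ∃ j : ℕ, g ^ (2 ^ j) ∈ K := by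
  have : Fact (Nat.Prime 2) := ⟨Nat.prime_two⟩
  -- conjugate z into S
  have hp : IsPGroup 2 (Subgroup.zpowers z) := by
    apply IsPGroup.of_card (n := 2)
    rw [Nat.card_zpowers, hz]
    norm_num
  obtain ⟨Q₀, hQ₀⟩ := hp.exists_le_sylow
  obtain ⟨w₀, hw₀⟩ := MulAction.exists_smul_eq G S Q₀
  have hzQ : z ∈ (Q₀ : Subgroup G) := hQ₀ (Subgroup.mem_zpowers z)
  have hz'S : w₀⁻¹ * z * w₀⁻¹⁻¹ ∈ (S : Subgroup G) := by
    rw [← hw₀, Sylow.coe_subgroup_smul, Subgroup.mem_pointwise_smul_iff_inv_smul_mem] at hzQ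
    have e : (MulAut.conj w₀)⁻¹ • z = w₀⁻¹ * z * w₀⁻¹⁻¹ := by
      rw [← map_inv, MulAut.smul_def, MulAut.conj_apply]
    rw [e] at hzQ
    exact hzQ
  set z' := w₀⁻¹ * z * w₀⁻¹⁻¹ with hz'
  have hz'o : orderOf z' = 4 := by rw [hz', orderOf_conj', hz]
  have hz'c : ¬ IsConj z' c :=
    fun h => hzc ((isConj_iff.mpr ⟨w₀⁻¹, rfl⟩ : IsConj z (w₀⁻¹ * z * w₀⁻¹⁻¹)).trans h)
  have hz'comm : z' ∉ commutator G := q8_caseB hNK S h8 hc hcS hne hz'o hz'c hz'S
  -- a linear character nontrivial on z'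
  have hz1 : Abelianization.of z' ≠ 1 := by
    intro h
    apply hz'comm
    rw [← Abelianization.ker_of]
    exact h
  have : NeZero (Monoid.exponent (Abelianization G)) := ⟨Monoid.exponent_ne_zero_of_finite⟩
  obtain ⟨φ, hφ⟩ := CommGroup.exists_apply_ne_one_of_hasEnoughRootsOfUnity (Abelianization G) ℂ hz1
  set r := (S : Subgroup G).index with hr
  have hrodd : Odd r := by
    rw [← Nat.not_even_iff_odd, even_iff_two_dvd]
    exact S.not_dvd_index
  have hcardG : Nat.card G = 8 * r := by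
    rw [← hS8, hr]
    exact ((S : Subgroup G).card_mul_index).symm
  set ψ : G →* ℂˣ := (φ.comp Abelianization.of) ^ r with hψ
  have hψ8 : ∀ g : G, ψ g ^ 8 = 1 := by
    intro g
    rw [hψ, MonoidHom.pow_apply, ← pow_mul, ← map_pow, mul_comm, ← hcardG, pow_card_eq_one',
      map_one]
  have hψz : ψ z' ≠ 1 := by
    intro h
    rw [hψ, MonoidHom.pow_apply] at h
    have h4 : (φ.comp Abelianization.of) z' ^ 4 = 1 := by
      rw [← map_pow, ← hz'o, pow_orderOf_eq_one, map_one]
    have hd1 : orderOf ((φ.comp Abelianization.of) z') ∣ r := orderOf_dvd_of_pow_eq_one h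
    have hd2 : orderOf ((φ.comp Abelianization.of) z') ∣ 4 := orderOf_dvd_of_pow_eq_one h4
    have hd3 : orderOf ((φ.comp Abelianization.of) z') ∣ Nat.gcd r 4 := Nat.dvd_gcd hd1 hd2
    have hg : Nat.gcd r 4 = 1 := by
      have h2 : Nat.Coprime r 2 := Nat.coprime_two_right.mpr hrodd
      exact Nat.Coprime.pow_right 2 h2
    rw [hg, Nat.dvd_one, orderOf_eq_one_iff] at hd3
    exact hφ hd3
  have hψconj : ∀ g x : G, ψ (g * x * g⁻¹) = ψ x := by
    intro g x
    rw [map_mul, map_mul, map_inv, mul_comm, ← mul_assoc, inv_mul_cancel, one_mul]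
  set N := ψ.ker with hN
  have hNn : N.Normal := MonoidHom.normal_ker ψ
  have hNKN : NK N := hNK.subgroup N
  -- Sylow 2-subgroups of N are cyclic
  let R : Sylow 2 N := default
  have hRcyc : IsCyclic R := by
    apply cyclic_of_card_dvd_four (hNKN.subgroup (R : Subgroup N))
    have hR' : IsPGroup 2 ((R : Subgroup N).map N.subtype) := R.isPGroup'.map _
    obtain ⟨Q, hQ⟩ := hR'.exists_le_sylow
    have hQ8 : Nat.card Q = 8 := by
      rw [Sylow.card_eq_multiplicity, ← Sylow.card_eq_multiplicity S, hS8]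
    obtain ⟨w, hw⟩ := MulAction.exists_smul_eq G S Q
    have hzQ' : w * z' * w⁻¹ ∈ (Q : Subgroup G) := by
      rw [← hw, Sylow.coe_subgroup_smul]
      have h1 := Subgroup.smul_mem_pointwise_smul z' (MulAut.conj w) (S : Subgroup G) hz'S
      rw [MulAut.smul_def, MulAut.conj_apply] at h1
      exact h1
    have hzR : w * z' * w⁻¹ ∉ (R : Subgroup N).map N.subtype := by
      intro h
      obtain ⟨x, -, hx⟩ := Subgroup.mem_map.mp h
      have h1 : ψ (w * z' * w⁻¹) = 1 := by
        rw [← hx]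
        exact x.2
      rw [hψconj] at h1
      exact hψz h1
    have hcard1 : Nat.card ((R : Subgroup N).map N.subtype) ∣ 8 := by
      rw [← hQ8]
      exact Subgroup.card_dvd_of_le hQ
    have hcard2 : Nat.card ((R : Subgroup N).map N.subtype) ≠ 8 := by
      intro h
      have h1 : (R : Subgroup N).map N.subtype = (Q : Subgroup G) :=
        Subgroup.eq_of_le_of_card_ge hQ (by rw [h, hQ8])
      rw [h1] at hzR
      exact hzR hzQ'
    have hcard3 : Nat.card (R : Subgroup N) = Nat.card ((R : Subgroup N).map N.subtype) :=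
      (Subgroup.card_map_of_injective N.subtype_injective).symm
    rw [hcard3]
    have hle : Nat.card ((R : Subgroup N).map N.subtype) ≤ 8 := Nat.le_of_dvd (by norm_num) hcard1
    have hpos : 0 < Nat.card ((R : Subgroup N).map N.subtype) := Nat.card_pos
    generalize Nat.card ((R : Subgroup N).map N.subtype) = d at hcard1 hcard2 hle hpos ⊢
    interval_cases d <;> omega
  obtain ⟨βN, hβN⟩ := beta_of_cyclic hNKN R hRcyc
  refine ⟨(βN.ker).map N.subtype, ?_, ?_, ?_⟩
  · constructor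
    intro k hk g
    obtain ⟨x, hx, rfl⟩ := Subgroup.mem_map.mp hk
    have hmem : g * (x : G) * g⁻¹ ∈ N := hNn.conj_mem _ x.2 g
    refine Subgroup.mem_map.mpr ⟨⟨g * (x : G) * g⁻¹, hmem⟩, ?_, rfl⟩
    show βN ⟨g * (x : G) * g⁻¹, hmem⟩ = 1
    rw [hβN, Subgroup.orderOf_mk, orderOf_conj', Subgroup.orderOf_coe]
    exact (hβN x).mp hx
  · rw [Subgroup.card_map_of_injective N.subtype_injective]
    by_contra hnodd
    rw [Nat.not_odd_iff_even] at hnodd
    obtain ⟨t, ht⟩ := exists_prime_orderOf_dvd_card' 2 hnodd.two_dvd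
    have h1 : βN (t : N) = 1 := t.2
    rw [hβN, Subgroup.orderOf_coe, ht] at h1
    exact absurd h1 (by decide)
  · intro g
    have hgN : g ^ 8 ∈ N := by
      show ψ (g ^ 8) = 1
      rw [map_pow, hψ8]
    obtain ⟨k, m, hm, hkm⟩ := Nat.exists_eq_two_pow_mul_odd (orderOf_pos (g ^ 8)).ne'
    refine ⟨3 + k, ?_⟩
    have e : g ^ (2 ^ (3 + k)) = (g ^ 8) ^ (2 ^ k) := by
      rw [← pow_mul, pow_add]
      norm_num
    rw [e]
    refine Subgroup.mem_map.mpr ⟨⟨g ^ 8, hgN⟩ ^ (2 ^ k), ?_, by simp⟩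
    show βN (⟨g ^ 8, hgN⟩ ^ (2 ^ k)) = 1
    rw [hβN, ← Subgroup.orderOf_coe, Subgroup.coe_pow]
    show Odd (orderOf ((g ^ 8) ^ (2 ^ k)))
    rw [orderOf_pow_of_dvd (by positivity) (by rw [hkm]; exact dvd_mul_right _ _), hkm,
      Nat.mul_div_cancel_left _ (by positivity)]
    exact hm

/-- without elements of order 8, the square of `β` is invariant under an inverting element -/
theorem beta_sq_comp_eq [Finite G] {c : G} {β : Cc c →* ℂˣ}
    (hβ : ∀ h, β h = 1 ↔ Odd (orderOf h)) (h8 : ∀ g : G, orderOf g ≠ 8) {y : G}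
    (hy : y * c * y⁻¹ = c⁻¹) : β ^ 2 = (β ^ 2).comp (conjHom hy) := by
  ext h
  rw [MonoidHom.comp_apply, MonoidHom.pow_apply, MonoidHom.pow_apply, Units.val_pow_eq_pow_val,
    Units.val_pow_eq_pow_val]
  have ho : orderOf ((conjHom hy h : Cc c) : G) = orderOf (h : G) := by
    show orderOf (y⁻¹ * (h : G) * y) = orderOf (h : G)
    have h1 := orderOf_conj' y⁻¹ (h : G)
    rw [inv_inv] at h1
    exact h1
  by_cases h4 : 4 ∣ orderOf (h : G)
  · have e1 := theta_eq_two hβ h h4 (no_eight_dvd h8 _)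
    have e2 := theta_eq_two hβ (conjHom hy h) (by rw [ho]; exact h4) (no_eight_dvd h8 _)
    unfold theta at e1 e2
    linear_combination e2 - e1
  · have e1 := (beta_sq hβ h).mpr h4
    have e2 := (beta_sq hβ (conjHom hy h)).mpr (by rw [ho]; exact h4)
    rw [e1, e2]

theorem four_dvd_central_mul {t g : G} (ht : t * t = 1) (hcen : ∀ x : G, x * t = t * x)
    (h4 : 4 ∣ orderOf g) : 4 ∣ orderOf (t * g) := by
  have hcomm : Commute t g := (hcen g).symm
  have hpow : ∀ n : ℕ, (t * g) ^ n = t ^ n * g ^ n := fun n => hcomm.mul_pow n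
  set n := orderOf (t * g) with hn
  have h1 : (t * g) ^ n = 1 := pow_orderOf_eq_one _
  have ht2 : t ^ 2 = 1 := by rw [pow_two]; exact ht
  have h2 : g ^ (2 * n) = 1 := by
    have h3 : (t * g) ^ (2 * n) = 1 := by rw [mul_comm, pow_mul, h1, one_pow]
    rw [hpow, pow_mul, ht2, one_pow, one_mul] at h3
    exact h3
  have h3 : 4 ∣ 2 * n := h4.trans (orderOf_dvd_of_pow_eq_one h2)
  have h5 : 2 ∣ n := by omega
  obtain ⟨m, hm⟩ := h5
  have h6 : g ^ n = 1 := by
    rw [hpow, hm, pow_mul, ht2, one_pow, one_mul, ← hm] at h1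
    exact h1
  exact h4.trans (orderOf_dvd_of_pow_eq_one h6)

end Cfsg.Agent.Lib.helper2.BS
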