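import Mathlib

set_option autoImplicit false
open Pointwise

/-!
# Transfer of a central involution of a self-normalizing Sylow 2-subgroup

If `P` is a Sylow 2-subgroup with `N_G(P) = P`, `Q'` a subgroup of index 2 of `P` and `c` an
involution in the centre of `P` outside `Q'`, then the transfer `G → P/Q'` maps `c` to the
non-trivial element, so `G` has a normal subgroup of index 2 not containing `c`.
-/

namespace Cfsg.Agent.Lib.helper2.CentTransfer

open scoped IsMulCommutative in
theorem central_transfer {G : Type*} [Group G] [Finite G] (P : Sylow 2 G)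
    (hN : ∀ g : G, (∀ x ∈ (P : Subgroup G), g * x * g⁻¹ ∈ (P : Subgroup G)) → g ∈ (P : Subgroup G))
    (Q' : Subgroup (P : Subgroup G)) (hidx : Q'.index = 2)
    (c : G) (hc : orderOf c = 2) (hcP : c ∈ (P : Subgroup G))
    (hcZ : ∀ x ∈ (P : Subgroup G), x * c = c * x)
    (hcQ : (⟨c, hcP⟩ : (P : Subgroup G)) ∉ Q') :
    ∃ M : Subgroup G, M.Normal ∧ M.index = 2 ∧ c ∉ M := by
  classical
  haveI : Fact (Nat.Prime 2) := ⟨Nat.prime_two⟩
  haveI hQn : Q'.Normal := Subgroup.normal_of_index_eq_two hidx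
  have hcard : Nat.card ((P : Subgroup G) ⧸ Q') = 2 := by
    rw [← Subgroup.index_eq_card]; exact hidx
  haveI : IsMulCommutative ((P : Subgroup G) ⧸ Q') := by
    haveI : IsCyclic ((P : Subgroup G) ⧸ Q') := isCyclic_of_prime_card hcard
    exact ⟨⟨fun a b => IsCyclic.commGroup.mul_comm a b⟩⟩
  let ϕ : (P : Subgroup G) →* (P : Subgroup G) ⧸ Q' := QuotientGroup.mk' Q'
  have hϕ1 : ∀ y : (P : Subgroup G), ϕ y = 1 ↔ y ∈ Q' := by
    intro y
    show (QuotientGroup.mk' Q') y = 1 ↔ _
    rw [QuotientGroup.mk'_apply, QuotientGroup.eq_one_iff]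
  have huniq : ∀ b c : (P : Subgroup G) ⧸ Q', b ≠ 1 → c ≠ 1 → b = c := by
    intro b c hb hc
    obtain ⟨y, -, hy⟩ := (Nat.card_eq_two_iff' (1 : (P : Subgroup G) ⧸ Q')).mp hcard
    rw [hy b hb, hy c hc]
  set a := ϕ ⟨c, hcP⟩ with ha
  have ha1 : a ≠ 1 := by rw [ha, Ne, hϕ1]; exact hcQ
  have ha2 : a ^ 2 = 1 := by
    have h := pow_card_eq_one' (G := (P : Subgroup G) ⧸ Q') (x := a)
    rwa [hcard] at h
  have hc2 : c ^ 2 = 1 := by rw [← hc]; exact pow_orderOf_eq_one c
  -- image of Q' in G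
  set Qg : Subgroup G := Q'.map (P : Subgroup G).subtype with hQg
  have hQg_mem : ∀ (w : G) (hw : w ∈ (P : Subgroup G)),
      (⟨w, hw⟩ : (P : Subgroup G)) ∈ Q' ↔ w ∈ Qg := by
    intro w hw
    rw [hQg, Subgroup.mem_map]
    constructor
    · intro h; exact ⟨⟨w, hw⟩, h, rfl⟩
    · rintro ⟨u, hu, huw⟩
      have : u = ⟨w, hw⟩ := Subtype.ext huw
      rwa [this] at hu
  have hQg_le : Qg ≤ (P : Subgroup G) := by
    rw [hQg]; rintro w ⟨u, -, rfl⟩; exact u.2
  have hQg_conj : ∀ r ∈ (P : Subgroup G), ∀ w ∈ Qg, r⁻¹ * w * r ∈ Qg := by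
    intro r hr w hw
    have hwP := hQg_le hw
    have h1 := (hQg_mem w hwP).2 hw
    have h2 := hQn.conj_mem _ h1 (⟨r, hr⟩ : (P : Subgroup G))⁻¹
    have h3 : r⁻¹ * w * r ∈ (P : Subgroup G) := mul_mem (mul_mem (inv_mem hr) hwP) hr
    refine (hQg_mem _ h3).1 ?_
    convert h2 using 1
    apply Subtype.ext
    simp
  let good : G → Prop := fun x => x⁻¹ * c * x ∈ (P : Subgroup G) ∧ x⁻¹ * c * x ∉ Qg
  have good_right : ∀ (x r : G), r ∈ (P : Subgroup G) → good x → good (x * r) := by
    intro x r hr ⟨h1, h2⟩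
    have e : (x * r)⁻¹ * c * (x * r) = r⁻¹ * (x⁻¹ * c * x) * r := by group
    refine ⟨by rw [e]; exact mul_mem (mul_mem (inv_mem hr) h1) hr, ?_⟩
    intro h3
    rw [e] at h3
    apply h2
    have h4 := hQg_conj r⁻¹ (inv_mem hr) _ h3
    have e2 : r⁻¹⁻¹ * (r⁻¹ * (x⁻¹ * c * x) * r) * r⁻¹ = x⁻¹ * c * x := by group
    rwa [e2] at h4
  have good_left : ∀ (x r : G), r ∈ (P : Subgroup G) → good x → good (r * x) := by
    intro x r hr h
    have e : (r * x)⁻¹ * c * (r * x) = x⁻¹ * c * x := by
      have h1 : r⁻¹ * c * r = c := by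
        rw [mul_assoc, ← hcZ r hr, ← mul_assoc, inv_mul_cancel, one_mul]
      calc (r * x)⁻¹ * c * (r * x) = x⁻¹ * (r⁻¹ * c * r) * x := by group
        _ = x⁻¹ * c * x := by rw [h1]
    show (r * x)⁻¹ * c * (r * x) ∈ (P : Subgroup G) ∧ (r * x)⁻¹ * c * (r * x) ∉ Qg
    rw [e]; exact h
  have good_coset : ∀ (x x' : G),
      (x : G ⧸ (P : Subgroup G)) = (x' : G ⧸ (P : Subgroup G)) → good x → good x' := by
    intro x x' hxx' h
    have h1 : x⁻¹ * x' ∈ (P : Subgroup G) := QuotientGroup.eq.mp hxx'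
    have h2 := good_right x (x⁻¹ * x') h1 h
    have e : x * (x⁻¹ * x') = x' := by group
    rwa [e] at h2
  have good_one : good 1 := by
    have e : (1 : G)⁻¹ * c * 1 = c := by group
    show (1 : G)⁻¹ * c * 1 ∈ (P : Subgroup G) ∧ (1 : G)⁻¹ * c * 1 ∉ Qg
    rw [e]
    exact ⟨hcP, fun h => hcQ ((hQg_mem c hcP).2 h)⟩
  have hfix : ∀ x : G, c • (x : G ⧸ (P : Subgroup G)) = (x : G ⧸ (P : Subgroup G)) ↔
      x⁻¹ * c * x ∈ (P : Subgroup G) := by
    intro x
    rw [eq_comm]
    show (x : G ⧸ (P : Subgroup G)) = ((c * x : G) : G ⧸ (P : Subgroup G)) ↔ _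
    rw [QuotientGroup.eq, ← mul_assoc]
  haveI : Fintype (Quotient (MulAction.orbitRel (Subgroup.zpowers c) (G ⧸ (P : Subgroup G)))) :=
    Fintype.ofFinite _
  haveI : Fintype (G ⧸ (P : Subgroup G)) := Fintype.ofFinite _
  have hV := MonoidHom.transfer_eq_prod_quotient_orbitRel_zpowers_quot ϕ c
  have hmp : ∀ q : G ⧸ (P : Subgroup G), Function.minimalPeriod (c • ·) q = 1 ∨
      Function.minimalPeriod (c • ·) q = 2 := by
    intro q
    have hper : Function.IsPeriodicPt (c • ·) 2 q := by
      show (c • ·)^[2] q = q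
      rw [smul_iterate, hc2]; simp
    exact (Nat.dvd_prime Nat.prime_two).mp hper.minimalPeriod_dvd
  set t : Quotient (MulAction.orbitRel (Subgroup.zpowers c) (G ⧸ (P : Subgroup G))) →
      (P : Subgroup G) ⧸ Q' :=
    fun q => ϕ ⟨q.out.out⁻¹ * c ^ Function.minimalPeriod (c • ·) q.out * q.out.out,
            QuotientGroup.out_conj_pow_minimalPeriod_mem (P : Subgroup G) c q.out⟩ with ht
  have hV' : MonoidHom.transfer ϕ c = ∏ q, t q := hV
  have hprod : ∏ q, t q = a ^ (Finset.univ.filter (fun q => t q ≠ 1)).card := by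
    calc ∏ q, t q = ∏ q, (if t q ≠ 1 then a else 1) := by
          apply Finset.prod_congr rfl
          intro q _
          by_cases h : t q = 1
          · simp [h]
          · rw [if_pos h]; exact huniq _ _ h ha1
      _ = a ^ (Finset.univ.filter (fun q => t q ≠ 1)).card := by
          rw [Finset.prod_ite, Finset.prod_const_one, mul_one, Finset.prod_const]
  have ht_ne : ∀ q, t q ≠ 1 ↔ good q.out.out := by
    intro q
    have hq := hmp q.out
    have hout : ((q.out.out : G) : G ⧸ (P : Subgroup G)) = q.out := QuotientGroup.out_eq' q.out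
    show ϕ ⟨q.out.out⁻¹ * c ^ Function.minimalPeriod (c • ·) q.out * q.out.out, _⟩ ≠ 1 ↔ _
    rw [Ne, hϕ1, hQg_mem]
    rcases hq with h | h
    · have hfx : c • q.out = q.out := Function.minimalPeriod_eq_one_iff_isFixedPt.mp h
      have hfx' : q.out.out⁻¹ * c * q.out.out ∈ (P : Subgroup G) :=
        (hfix q.out.out).mp (by rw [hout]; exact hfx)
      rw [h, pow_one]
      exact ⟨fun h' => ⟨hfx', h'⟩, fun h' => h'.2⟩
    · rw [h, hc2]
      constructor
      · intro h'; exfalso; apply h'; simp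
      · intro ⟨h1, _⟩
        exfalso
        have hfx : c • q.out = q.out := by
          have := (hfix q.out.out).mpr h1
          rwa [hout] at this
        have h5 : Function.minimalPeriod (c • ·) q.out = 1 :=
          Function.minimalPeriod_eq_one_iff_isFixedPt.mpr hfx
        rw [h] at h5
        exact absurd h5 (by norm_num)
  -- the set of good cosets, with the action of P
  let S : SubMulAction (P : Subgroup G) (G ⧸ (P : Subgroup G)) :=
    { carrier := {y | good y.out}
      smul_mem' := by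
        intro r y hy
        have h1 : good ((r : G) * y.out) := good_left y.out r r.2 hy
        refine good_coset ((r : G) * y.out) (r • y).out ?_ h1
        rw [QuotientGroup.out_eq']
        conv_rhs => rw [← QuotientGroup.out_eq' y]
        rfl }
  have hcardN : (Finset.univ.filter (fun q => t q ≠ 1)).card =
      (Finset.univ.filter (fun y : G ⧸ (P : Subgroup G) => good y.out)).card := by
    apply Finset.card_bij (fun q _ => q.out)
    · intro q hq
      rw [Finset.mem_filter] at hq ⊢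
      exact ⟨Finset.mem_univ _, (ht_ne q).mp hq.2⟩
    · intro q1 _ q2 _ h
      exact Quotient.out_injective h
    · intro y hy
      rw [Finset.mem_filter] at hy
      have hgy := hy.2
      have hcy : c • y = y := by
        have := (hfix y.out).mpr hgy.1
        rwa [QuotientGroup.out_eq'] at this
      have hout : (Quotient.mk (MulAction.orbitRel (Subgroup.zpowers c) (G ⧸ (P : Subgroup G))) y).out = y := by
        have h1 := Quotient.mk_out (s := MulAction.orbitRel (Subgroup.zpowers c) (G ⧸ (P : Subgroup G))) y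
        have h2 : (Quotient.mk (MulAction.orbitRel (Subgroup.zpowers c) (G ⧸ (P : Subgroup G))) y).out ∈
            MulAction.orbit (Subgroup.zpowers c) y := h1
        obtain ⟨k, hk⟩ := h2
        rw [← hk]
        have hstab : c ∈ MulAction.stabilizer G y := MulAction.mem_stabilizer_iff.mpr hcy
        have hk' : (k : G) ∈ MulAction.stabilizer G y := (Subgroup.zpowers_le.mpr hstab) k.2
        exact MulAction.mem_stabilizer_iff.mp hk'
      refine ⟨Quotient.mk _ y, ?_, hout⟩
      rw [Finset.mem_filter]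
      refine ⟨Finset.mem_univ _, ?_⟩
      rw [ht_ne, hout]
      exact hgy
  have hcardS : (Finset.univ.filter (fun y : G ⧸ (P : Subgroup G) => good y.out)).card = Nat.card S := by
    have h1 : Nat.card S = Nat.card {y : G ⧸ (P : Subgroup G) // good y.out} := rfl
    rw [h1, Nat.card_eq_fintype_card, Fintype.card_subtype]
  have hPp : IsPGroup 2 (P : Subgroup G) := P.isPGroup'
  have hmod := hPp.card_modEq_card_fixedPoints (α := S)
  have key : ∀ (y : G ⧸ (P : Subgroup G)), (∀ r : (P : Subgroup G), r • y = y) →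
      y = ((1 : G) : G ⧸ (P : Subgroup G)) := by
    intro y hy
    obtain ⟨x, rfl⟩ := QuotientGroup.mk_surjective y
    have hx : x⁻¹ ∈ (P : Subgroup G) := by
      apply hN
      intro r hr
      have h1 := hy ⟨r⁻¹, inv_mem hr⟩
      have h2 : ((r⁻¹ * x : G) : G ⧸ (P : Subgroup G)) = (x : G ⧸ (P : Subgroup G)) := h1
      have h3 := QuotientGroup.eq.mp h2
      have e : (r⁻¹ * x)⁻¹ * x = x⁻¹ * r * x⁻¹⁻¹ := by group
      rwa [e] at h3
    apply QuotientGroup.eq.mpr
    simpa using hx
  have hfixed : Nat.card (MulAction.fixedPoints (P : Subgroup G) S) = 1 := by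
    rw [Nat.card_eq_one_iff_unique]
    constructor
    · constructor
      rintro ⟨⟨y1, hy1S⟩, hy1⟩ ⟨⟨y2, hy2S⟩, hy2⟩
      have e1 : y1 = ((1 : G) : G ⧸ (P : Subgroup G)) :=
        key y1 (fun r => congrArg Subtype.val (hy1 r))
      have e2 : y2 = ((1 : G) : G ⧸ (P : Subgroup G)) :=
        key y2 (fun r => congrArg Subtype.val (hy2 r))
      apply Subtype.ext
      apply Subtype.ext
      show y1 = y2
      rw [e1, e2]
    · have hmem : ((1 : G) : G ⧸ (P : Subgroup G)) ∈ S :=
        good_coset 1 _ (QuotientGroup.out_eq' _).symm good_one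
      refine ⟨⟨⟨_, hmem⟩, ?_⟩⟩
      intro r
      apply Subtype.ext
      show r • ((1 : G) : G ⧸ (P : Subgroup G)) = ((1 : G) : G ⧸ (P : Subgroup G))
      show (((r : G) * 1 : G) : G ⧸ (P : Subgroup G)) = ((1 : G) : G ⧸ (P : Subgroup G))
      apply QuotientGroup.eq.mpr
      simpa using inv_mem r.2
  have hodd : Odd (Nat.card S) := by
    rw [hfixed] at hmod
    rw [Nat.odd_iff]
    exact hmod
  have hVa : MonoidHom.transfer ϕ c = a := by
    rw [hV', hprod, hcardN, hcardS]
    obtain ⟨k, hk⟩ := hodd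
    rw [hk, pow_succ, pow_mul, ha2, one_pow, one_mul]
  refine ⟨(MonoidHom.transfer ϕ).ker, inferInstance, ?_, ?_⟩
  · rw [Subgroup.index_ker]
    have : (MonoidHom.transfer ϕ).range = ⊤ := by
      rw [Subgroup.eq_top_iff']
      intro b
      by_cases hb : b = 1
      · rw [hb]; exact one_mem _
      · rw [huniq b a hb ha1, ← hVa]
        exact ⟨c, rfl⟩
    rw [this, Subgroup.card_top, hcard]
  · rw [MonoidHom.mem_ker, hVa]; exact ha1

end Cfsg.Agent.Lib.helper2.CentTransfer
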