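import Mathlib

set_option autoImplicit false

namespace Cfsg.Agent.Lib.helper2.DihEmb

/-- generalized dihedral group of `(ZMod p)^3` -/
inductive GD (p : ℕ) : Type
  | r : (Fin 3 → ZMod p) → GD p
  | sr : (Fin 3 → ZMod p) → GD p

namespace GD
variable {p : ℕ}

def mul' : GD p → GD p → GD p
  | r i, r j => r (i + j)
  | r i, sr j => sr (j - i)
  | sr i, r j => sr (i + j)
  | sr i, sr j => r (j - i)

def inv' : GD p → GD p
  | r i => r (-i)
  | sr i => sr i

instance : Group (GD p) where
  mul := mul'
  mul_assoc := by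
    rintro (a | a) (b | b) (c | c) <;> simp only [(· * ·), mul'] <;> congr 1 <;> abel
  one := r 0
  one_mul := by
    rintro (a | a)
    · exact congr_arg r (zero_add a)
    · exact congr_arg sr (sub_zero a)
  mul_one := by
    rintro (a | a)
    · exact congr_arg r (add_zero a)
    · exact congr_arg sr (add_zero a)
  inv := inv'
  inv_mul_cancel := by
    rintro (a | a)
    · exact congr_arg r (neg_add_cancel a)
    · exact congr_arg r (sub_self a)

theorem r_mul_r (a b : Fin 3 → ZMod p) : (r a * r b : GD p) = r (a + b) := rfl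
theorem r_mul_sr (a b : Fin 3 → ZMod p) : (r a * sr b : GD p) = sr (b - a) := rfl
theorem sr_mul_r (a b : Fin 3 → ZMod p) : (sr a * r b : GD p) = sr (a + b) := rfl
theorem sr_mul_sr (a b : Fin 3 → ZMod p) : (sr a * sr b : GD p) = r (b - a) := rfl
theorem one_def : (1 : GD p) = r 0 := rfl

def equivSum : GD p ≃ (Fin 3 → ZMod p) ⊕ (Fin 3 → ZMod p) where
  toFun := fun x => match x with
    | r a => Sum.inl a
    | sr a => Sum.inr a
  invFun := fun x => match x with
    | Sum.inl a => r a
    | Sum.inr a => sr a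
  left_inv := by rintro (a | a) <;> rfl
  right_inv := by rintro (a | a) <;> rfl

instance [NeZero p] : Finite (GD p) := Finite.of_equiv _ equivSum.symm

theorem card [NeZero p] : Nat.card (GD p) = 2 * p ^ 3 := by
  rw [Nat.card_congr equivSum, Nat.card_sum, Nat.card_fun]
  simp
  ring

end GD

section Mat
variable (p : ℕ) [Fact p.Prime] (k : ℕ)

abbrev Mat := Matrix (Fin (2 * k + 1)) (Fin (2 * k + 1)) (ZMod p)

def UR (X : Mat p k) : Prop := ∀ i j : Fin (2 * k + 1), ¬ (i.val < k ∧ k ≤ j.val) → X i j = 0

def T0 : Mat p k := Matrix.diagonal (fun i => if i.val < k then 1 else -1)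

def A1 : Mat p k := Matrix.of fun i j => if i.val < k ∧ j.val = i.val + k then 1 else 0
def A2 : Mat p k := Matrix.of fun i j => if i.val < k ∧ j.val = i.val + k + 1 then 1 else 0
def A3 : Mat p k := Matrix.of fun i j => if i.val = 0 ∧ 0 < k ∧ j.val = k + 2 then 1 else 0

theorem ur_mul {X Y : Mat p k} (hX : UR p k X) (hY : UR p k Y) : X * Y = 0 := by
  ext i j
  rw [Matrix.mul_apply, Matrix.zero_apply]
  apply Finset.sum_eq_zero
  intro m _
  by_cases hm : m.val < k
  · rw [hX i m (by omega), zero_mul]
  · rw [hY m j (by omega), mul_zero]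

theorem ur_T_mul {X : Mat p k} (hX : UR p k X) : T0 p k * X = X := by
  ext i j
  rw [T0, Matrix.diagonal_mul]
  by_cases hi : i.val < k
  · simp [hi]
  · rw [hX i j (by omega)]; simp

theorem ur_mul_T {X : Mat p k} (hX : UR p k X) : X * T0 p k = -X := by
  ext i j
  rw [T0, Matrix.mul_diagonal, Matrix.neg_apply]
  by_cases hj : k ≤ j.val
  · have : ¬ j.val < k := by omega
    simp [this]
  · rw [hX i j (by omega)]; simp

theorem T_mul_T : T0 p k * T0 p k = 1 := by
  rw [T0, Matrix.diagonal_mul_diagonal, ← Matrix.diagonal_one]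
  congr 1
  funext i
  split_ifs <;> simp

theorem ur_A1 : UR p k (A1 p k) := by
  intro i j h
  simp only [A1, Matrix.of_apply]
  rw [if_neg]; omega

theorem ur_A2 : UR p k (A2 p k) := by
  intro i j h
  simp only [A2, Matrix.of_apply]
  rw [if_neg]; omega

theorem ur_A3 : UR p k (A3 p k) := by
  intro i j h
  simp only [A3, Matrix.of_apply]
  rw [if_neg]; omega

def L (a : Fin 3 → ZMod p) : Mat p k := a 0 • A1 p k + a 1 • A2 p k + a 2 • A3 p k

theorem ur_L (a : Fin 3 → ZMod p) : UR p k (L p k a) := by
  intro i j h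
  simp [L, ur_A1 p k i j h, ur_A2 p k i j h, ur_A3 p k i j h]

theorem L_add (a b : Fin 3 → ZMod p) : L p k (a + b) = L p k a + L p k b := by
  simp only [L, Pi.add_apply, add_smul]; abel

theorem L_zero : L p k 0 = 0 := by simp [L]

theorem L_neg (a : Fin 3 → ZMod p) : L p k (-a) = - L p k a := by
  simp only [L, Pi.neg_apply, neg_smul]; abel

def M (a : Fin 3 → ZMod p) : Mat p k := 1 + L p k a

theorem M_mul (a b : Fin 3 → ZMod p) : M p k a * M p k b = M p k (a + b) := by
  simp only [M, L_add]
  rw [add_mul, mul_add, mul_add, ur_mul p k (ur_L p k a) (ur_L p k b)]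
  simp only [mul_one, one_mul, add_zero]; abel

theorem M_zero : M p k 0 = 1 := by simp [M, L_zero]

theorem T_mul_M (a : Fin 3 → ZMod p) : T0 p k * M p k a = M p k (-a) * T0 p k := by
  simp only [M, L_neg, mul_add, add_mul, mul_one, one_mul, neg_mul]
  rw [ur_T_mul p k (ur_L p k a), ur_mul_T p k (ur_L p k a)]; simp

theorem det_M (a : Fin 3 → ZMod p) : (M p k a).det = 1 := by
  have h : (M p k a).BlockTriangular id := by
    intro i j hij
    have hij' : j.val < i.val := hij
    simp only [M, Matrix.add_apply]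
    have hne : i ≠ j := by
      intro h; subst h; exact lt_irrefl _ hij'
    rw [ur_L p k a i j (by omega), Matrix.one_apply_ne hne]
    simp
  rw [Matrix.det_of_upperTriangular h]
  apply Finset.prod_eq_one
  intro i _
  simp only [M, Matrix.add_apply, Matrix.one_apply_eq]
  rw [ur_L p k a i i (by omega)]; simp

def T1 : Mat p k := (T0 p k).det • T0 p k

theorem det_T_sq : (T0 p k).det * (T0 p k).det = 1 := by
  rw [← Matrix.det_mul, T_mul_T, Matrix.det_one]

theorem det_T1 : (T1 p k).det = 1 := by
  rw [T1, Matrix.det_smul, Fintype.card_fin]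
  have h := det_T_sq p k
  calc (T0 p k).det ^ (2 * k + 1) * (T0 p k).det
      = ((T0 p k).det * (T0 p k).det) ^ (k + 1) := by ring
    _ = 1 := by rw [h, one_pow]

theorem T1_mul_T1 : T1 p k * T1 p k = 1 := by
  rw [T1, Matrix.smul_mul, Matrix.mul_smul, smul_smul, T_mul_T, det_T_sq, one_smul]

theorem T1_mul_M (a : Fin 3 → ZMod p) : T1 p k * M p k a = M p k (-a) * T1 p k := by
  rw [T1, Matrix.smul_mul, Matrix.mul_smul, T_mul_M]

theorem M_mul_T1 (a : Fin 3 → ZMod p) : M p k a * T1 p k = T1 p k * M p k (-a) := by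
  rw [T1_mul_M, neg_neg]

theorem rel2 (a b : Fin 3 → ZMod p) :
    T1 p k * M p k (b - a) = M p k a * (T1 p k * M p k b) := by
  rw [← mul_assoc, M_mul_T1, mul_assoc, M_mul]
  congr 2; abel

theorem rel4 (a b : Fin 3 → ZMod p) :
    M p k (b - a) = (T1 p k * M p k a) * (T1 p k * M p k b) := by
  rw [mul_assoc, ← mul_assoc (M p k a), M_mul_T1, mul_assoc, M_mul, ← mul_assoc, T1_mul_T1,
    one_mul]
  congr 1; abel

def Ms (a : Fin 3 → ZMod p) : Matrix.SpecialLinearGroup (Fin (2 * k + 1)) (ZMod p) :=
  ⟨M p k a, det_M p k a⟩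

def Ts : Matrix.SpecialLinearGroup (Fin (2 * k + 1)) (ZMod p) := ⟨T1 p k, det_T1 p k⟩

def rho : GD p →* Matrix.SpecialLinearGroup (Fin (2 * k + 1)) (ZMod p) where
  toFun := fun x => match x with
    | GD.r a => Ms p k a
    | GD.sr a => Ts p k * Ms p k a
  map_one' := by
    show Ms p k 0 = 1
    apply Subtype.ext
    simp [Ms, M_zero]
  map_mul' := by
    rintro (a | a) (b | b)
    · show Ms p k (a + b) = Ms p k a * Ms p k b
      apply Subtype.ext
      rw [Matrix.SpecialLinearGroup.coe_mul]
      exact (M_mul p k a b).symm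
    · show Ts p k * Ms p k (b - a) = Ms p k a * (Ts p k * Ms p k b)
      apply Subtype.ext
      rw [Matrix.SpecialLinearGroup.coe_mul, Matrix.SpecialLinearGroup.coe_mul,
        Matrix.SpecialLinearGroup.coe_mul]
      exact rel2 p k a b
    · show Ts p k * Ms p k (a + b) = (Ts p k * Ms p k a) * Ms p k b
      apply Subtype.ext
      rw [Matrix.SpecialLinearGroup.coe_mul, Matrix.SpecialLinearGroup.coe_mul,
        Matrix.SpecialLinearGroup.coe_mul, mul_assoc]
      exact congrArg (fun X => T1 p k * X) (M_mul p k a b).symm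
    · show Ms p k (b - a) = (Ts p k * Ms p k a) * (Ts p k * Ms p k b)
      apply Subtype.ext
      rw [Matrix.SpecialLinearGroup.coe_mul, Matrix.SpecialLinearGroup.coe_mul,
        Matrix.SpecialLinearGroup.coe_mul]
      exact rel4 p k a b

theorem rho_r (a : Fin 3 → ZMod p) : rho p k (GD.r a) = Ms p k a := rfl
theorem rho_sr (a : Fin 3 → ZMod p) : rho p k (GD.sr a) = Ts p k * Ms p k a := rfl
theorem Ms_val (a : Fin 3 → ZMod p) : (Ms p k a).val = M p k a := rfl
theorem Ts_val : (Ts p k).val = T1 p k := rfl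

theorem L_apply (a : Fin 3 → ZMod p) (i j : Fin (2 * k + 1)) :
    L p k a i j = a 0 * (if i.val < k ∧ j.val = i.val + k then 1 else 0)
      + a 1 * (if i.val < k ∧ j.val = i.val + k + 1 then 1 else 0)
      + a 2 * (if i.val = 0 ∧ 0 < k ∧ j.val = k + 2 then 1 else 0) := by
  simp [L, A1, A2, A3]

theorem M_diag (a : Fin 3 → ZMod p) (i : Fin (2 * k + 1)) : M p k a i i = 1 := by
  simp only [M, Matrix.add_apply, Matrix.one_apply_eq]
  rw [ur_L p k a i i (by omega)]; simp

theorem M_entry (hk : 2 ≤ k) (a : Fin 3 → ZMod p) (c : ℕ) (hc : c < 3) :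
    M p k a ⟨0, by omega⟩ ⟨k + c, by omega⟩
      = if c = 0 then a 0 else if c = 1 then a 1 else a 2 := by
  have hne : (⟨0, by omega⟩ : Fin (2 * k + 1)) ≠ ⟨k + c, by omega⟩ := by
    intro h
    have := congrArg Fin.val h
    simp only [Fin.val_mk] at this
    omega
  rw [M, Matrix.add_apply, L_apply, Matrix.one_apply_ne hne]
  simp only [Fin.val_mk]
  interval_cases c
  · rw [if_pos (by omega), if_neg (by omega), if_neg (by omega)]; simp
  · rw [if_neg (by omega), if_pos (by omega), if_neg (by omega)]; simp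
  · rw [if_neg (by omega), if_neg (by omega), if_pos (by simp; omega)]; simp

theorem two_ne_zero' (hp2 : p ≠ 2) : (2 : ZMod p) ≠ 0 := by
  intro h
  have h2 : ((2 : ℕ) : ZMod p) = 0 := by exact_mod_cast h
  rw [ZMod.natCast_eq_zero_iff] at h2
  have hp : p.Prime := Fact.out
  have := (Nat.prime_dvd_prime_iff_eq hp Nat.prime_two).mp h2
  exact hp2 this

theorem rho_center (hp2 : p ≠ 2) (hk : 2 ≤ k) (x : GD p)
    (hx : rho p k x ∈ Subgroup.center (Matrix.SpecialLinearGroup (Fin (2 * k + 1)) (ZMod p))) :
    x = 1 := by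
  obtain ⟨ζ, -, hζ⟩ := Matrix.SpecialLinearGroup.mem_center_iff.mp hx
  rcases x with a | a
  · have key : ∀ c : ℕ, ∀ hc : c < 3,
        (if c = 0 then a 0 else if c = 1 then a 1 else a 2) = 0 := by
      intro c hc
      have h0 := congr_fun (congr_fun hζ ⟨0, by omega⟩) ⟨k + c, by omega⟩
      have hne : (⟨0, by omega⟩ : Fin (2 * k + 1)) ≠ ⟨k + c, by omega⟩ := by
        intro h
        have := congrArg Fin.val h
        simp only [Fin.val_mk] at this
        omega
      rw [Matrix.scalar_apply, Matrix.diagonal_apply_ne _ hne] at h0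
      rw [← M_entry p k hk a c hc]
      exact h0.symm
    have h0 := key 0 (by omega)
    have h1 := key 1 (by omega)
    have h2 := key 2 (by omega)
    simp only [if_true] at h0
    norm_num at h1 h2
    have : a = 0 := by
      funext i
      fin_cases i
      · exact h0
      · exact h1
      · exact h2
    rw [this]; rfl
  · exfalso
    have h0 := congr_fun (congr_fun hζ ⟨0, by omega⟩) ⟨0, by omega⟩
    have h1 := congr_fun (congr_fun hζ ⟨2 * k, by omega⟩) ⟨2 * k, by omega⟩
    rw [Matrix.scalar_apply, Matrix.diagonal_apply_eq] at h0 h1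
    have e0 : (rho p k (GD.sr a)).val ⟨0, by omega⟩ ⟨0, by omega⟩ = (T0 p k).det := by
      rw [rho_sr, Matrix.SpecialLinearGroup.coe_mul, Ts_val, Ms_val, T1, Matrix.smul_mul,
        Matrix.smul_apply, T0, Matrix.diagonal_mul, M_diag]
      simp only [Fin.val_mk]
      rw [if_pos (by omega)]; simp
    have e1 : (rho p k (GD.sr a)).val ⟨2 * k, by omega⟩ ⟨2 * k, by omega⟩ = -(T0 p k).det := by
      rw [rho_sr, Matrix.SpecialLinearGroup.coe_mul, Ts_val, Ms_val, T1, Matrix.smul_mul,
        Matrix.smul_apply, T0, Matrix.diagonal_mul, M_diag]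
      simp only [Fin.val_mk]
      rw [if_neg (by omega)]; simp
    rw [e0] at h0
    rw [e1] at h1
    have hd : (T0 p k).det = -(T0 p k).det := h0.symm.trans h1
    have h2 : (2 : ZMod p) * (T0 p k).det = 0 := by
      have : (T0 p k).det + (T0 p k).det = 0 := by
        nth_rewrite 1 [hd]; ring
      rw [two_mul]; exact this
    have hdz : (T0 p k).det = 0 := by
      rcases mul_eq_zero.mp h2 with h | h
      · exact absurd h (two_ne_zero' p hp2)
      · exact h
    have := det_T_sq p k
    rw [hdz] at this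
    simp at this

theorem key_pow {n : Type*} [Fintype n] [DecidableEq n] [Nonempty n] {R : Type*} [CommRing R]
    (G Ginv Y : Matrix n n R) (ζ : R) (hG : G * Ginv = 1) (h : G * Y = ζ • (Y * G)) (j : ℕ)
    (hY : Y ^ j = 1) : ζ ^ j = 1 := by
  have hi : ∀ i : ℕ, G * Y ^ i = ζ ^ i • (Y ^ i * G) := by
    intro i
    induction i with
    | zero => simp
    | succ i ih =>
      rw [pow_succ, ← mul_assoc, ih, Matrix.smul_mul, mul_assoc, h, Matrix.mul_smul, smul_smul,
        ← mul_assoc, pow_succ ζ]
  have h1 := hi j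
  rw [hY, mul_one, one_mul] at h1
  have h2 : (1 : Matrix n n R) = ζ ^ j • (1 : Matrix n n R) := by
    rw [← hG]
    nth_rewrite 1 [h1]
    rw [Matrix.smul_mul]
  obtain ⟨i⟩ := ‹Nonempty n›
  have h3 := congr_fun (congr_fun h2 i) i
  rw [Matrix.smul_apply, Matrix.one_apply_eq, smul_eq_mul, mul_one] at h3
  exact h3.symm

theorem M_pow (a : Fin 3 → ZMod p) (j : ℕ) : M p k a ^ j = M p k (j • a) := by
  induction j with
  | zero => rw [pow_zero, zero_smul, M_zero]
  | succ j ih => rw [pow_succ, ih, M_mul, succ_nsmul]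

theorem M_pow_p (a : Fin 3 → ZMod p) : M p k a ^ p = 1 := by
  rw [M_pow]
  have : p • a = 0 := by
    funext i
    simp
  rw [this, M_zero]

def gn (G : Mat p k) (a b : ℕ) : ZMod p :=
  if h : a < 2 * k + 1 ∧ b < 2 * k + 1 then G ⟨a, h.1⟩ ⟨b, h.2⟩ else 0

theorem gn_eq (G : Mat p k) (i j : Fin (2 * k + 1)) : gn p k G i.val j.val = G i j := by
  rw [gn, dif_pos ⟨i.2, j.2⟩]

theorem mul_A1 (G : Mat p k) (i j : Fin (2 * k + 1)) :
    (G * A1 p k) i j = if k ≤ j.val ∧ j.val < 2 * k then gn p k G i.val (j.val - k) else 0 := by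
  rw [Matrix.mul_apply]
  split_ifs with h
  · have hlt : j.val - k < 2 * k + 1 := by omega
    rw [Finset.sum_eq_single (⟨j.val - k, hlt⟩ : Fin (2 * k + 1))]
    · rw [← gn_eq p k G i ⟨j.val - k, hlt⟩]
      have : A1 p k ⟨j.val - k, hlt⟩ j = 1 := by
        simp only [A1, Matrix.of_apply]
        rw [if_pos]
        constructor
        · show j.val - k < k
          omega
        · show j.val = j.val - k + k
          omega
      rw [this, mul_one]
    · intro m _ hm
      have : A1 p k m j = 0 := by
        simp only [A1, Matrix.of_apply]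
        rw [if_neg]
        rintro ⟨h1, h2⟩
        apply hm
        apply Fin.ext
        show m.val = j.val - k
        omega
      rw [this, mul_zero]
    · intro h'; exact absurd (Finset.mem_univ _) h'
  · apply Finset.sum_eq_zero
    intro m _
    have : A1 p k m j = 0 := by
      simp only [A1, Matrix.of_apply]
      rw [if_neg]
      rintro ⟨h1, h2⟩
      apply h; omega
    rw [this, mul_zero]

theorem A1_mul (G : Mat p k) (i j : Fin (2 * k + 1)) :
    (A1 p k * G) i j = if i.val < k then gn p k G (i.val + k) j.val else 0 := by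
  rw [Matrix.mul_apply]
  split_ifs with h
  · have hlt : i.val + k < 2 * k + 1 := by omega
    rw [Finset.sum_eq_single (⟨i.val + k, hlt⟩ : Fin (2 * k + 1))]
    · rw [← gn_eq p k G ⟨i.val + k, hlt⟩ j]
      have : A1 p k i ⟨i.val + k, hlt⟩ = 1 := by
        simp only [A1, Matrix.of_apply]
        rw [if_pos]
        exact ⟨h, trivial⟩
      rw [this, one_mul]
    · intro m _ hm
      have : A1 p k i m = 0 := by
        simp only [A1, Matrix.of_apply]
        rw [if_neg]
        rintro ⟨h1, h2⟩
        apply hm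
        apply Fin.ext
        show m.val = i.val + k
        omega
      rw [this, zero_mul]
    · intro h'; exact absurd (Finset.mem_univ _) h'
  · apply Finset.sum_eq_zero
    intro m _
    have : A1 p k i m = 0 := by
      simp only [A1, Matrix.of_apply]
      rw [if_neg]
      rintro ⟨h1, h2⟩
      exact h h1
    rw [this, zero_mul]

theorem mul_A2 (G : Mat p k) (i j : Fin (2 * k + 1)) :
    (G * A2 p k) i j = if k + 1 ≤ j.val then gn p k G i.val (j.val - (k + 1)) else 0 := by
  rw [Matrix.mul_apply]
  split_ifs with h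
  · have hj := j.2
    have hlt : j.val - (k + 1) < 2 * k + 1 := by omega
    rw [Finset.sum_eq_single (⟨j.val - (k + 1), hlt⟩ : Fin (2 * k + 1))]
    · rw [← gn_eq p k G i ⟨j.val - (k + 1), hlt⟩]
      have : A2 p k ⟨j.val - (k + 1), hlt⟩ j = 1 := by
        simp only [A2, Matrix.of_apply]
        rw [if_pos]
        constructor
        · show j.val - (k + 1) < k
          omega
        · show j.val = j.val - (k + 1) + k + 1
          omega
      rw [this, mul_one]
    · intro m _ hm
      have : A2 p k m j = 0 := by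
        simp only [A2, Matrix.of_apply]
        rw [if_neg]
        rintro ⟨h1, h2⟩
        apply hm
        apply Fin.ext
        show m.val = j.val - (k + 1)
        omega
      rw [this, mul_zero]
    · intro h'; exact absurd (Finset.mem_univ _) h'
  · apply Finset.sum_eq_zero
    intro m _
    have : A2 p k m j = 0 := by
      simp only [A2, Matrix.of_apply]
      rw [if_neg]
      rintro ⟨h1, h2⟩
      apply h; omega
    rw [this, mul_zero]

theorem A2_mul (G : Mat p k) (i j : Fin (2 * k + 1)) :
    (A2 p k * G) i j = if i.val < k then gn p k G (i.val + k + 1) j.val else 0 := by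
  rw [Matrix.mul_apply]
  split_ifs with h
  · have hlt : i.val + k + 1 < 2 * k + 1 := by omega
    rw [Finset.sum_eq_single (⟨i.val + k + 1, hlt⟩ : Fin (2 * k + 1))]
    · rw [← gn_eq p k G ⟨i.val + k + 1, hlt⟩ j]
      have : A2 p k i ⟨i.val + k + 1, hlt⟩ = 1 := by
        simp only [A2, Matrix.of_apply]
        rw [if_pos]
        exact ⟨h, trivial⟩
      rw [this, one_mul]
    · intro m _ hm
      have : A2 p k i m = 0 := by
        simp only [A2, Matrix.of_apply]
        rw [if_neg]
        rintro ⟨h1, h2⟩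
        apply hm
        apply Fin.ext
        show m.val = i.val + k + 1
        omega
      rw [this, zero_mul]
    · intro h'; exact absurd (Finset.mem_univ _) h'
  · apply Finset.sum_eq_zero
    intro m _
    have : A2 p k i m = 0 := by
      simp only [A2, Matrix.of_apply]
      rw [if_neg]
      rintro ⟨h1, h2⟩
      exact h h1
    rw [this, zero_mul]

theorem central_aux (hp2 : p ≠ 2) (G : Mat p k)
    (hA1 : G * A1 p k = A1 p k * G) (hA2 : G * A2 p k = A2 p k * G)
    (hT : G * T0 p k = T0 p k * G) :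
    G = Matrix.diagonal (fun _ => gn p k G k k) := by
  have E1 : ∀ i u, i < k → u < k → gn p k G i u = gn p k G (i + k) (u + k) := by
    intro i u hi hu
    have := congr_fun (congr_fun hA1 ⟨i, by omega⟩) ⟨u + k, by omega⟩
    rw [mul_A1, A1_mul] at this
    simp only [Fin.val_mk] at this
    rw [if_pos (by omega), if_pos hi, Nat.add_sub_cancel] at this
    exact this
  have E1' : ∀ i, i < k → gn p k G (i + k) (2 * k) = 0 := by
    intro i hi
    have := congr_fun (congr_fun hA1 ⟨i, by omega⟩) ⟨2 * k, by omega⟩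
    rw [mul_A1, A1_mul] at this
    simp only [Fin.val_mk] at this
    rw [if_neg (by omega), if_pos hi] at this
    exact this.symm
  have E1'' : ∀ a u, a < 2 * k + 1 → k ≤ a → u < k → gn p k G a u = 0 := by
    intro a u ha hka hu
    have := congr_fun (congr_fun hA1 ⟨a, ha⟩) ⟨u + k, by omega⟩
    rw [mul_A1, A1_mul] at this
    simp only [Fin.val_mk] at this
    rw [if_pos (by omega), if_neg (by omega), Nat.add_sub_cancel] at this
    exact this
  have E2 : ∀ i u, i < k → u < k → gn p k G i u = gn p k G (i + k + 1) (u + k + 1) := by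
    intro i u hi hu
    have := congr_fun (congr_fun hA2 ⟨i, by omega⟩) ⟨u + k + 1, by omega⟩
    rw [mul_A2, A2_mul] at this
    simp only [Fin.val_mk] at this
    have e : u + k + 1 - (k + 1) = u := by omega
    rw [if_pos (by omega), if_pos hi, e] at this
    exact this
  have E2' : ∀ i, i < k → gn p k G (i + k + 1) k = 0 := by
    intro i hi
    have := congr_fun (congr_fun hA2 ⟨i, by omega⟩) ⟨k, by omega⟩
    rw [mul_A2, A2_mul] at this
    simp only [Fin.val_mk] at this
    rw [if_neg (by omega), if_pos hi] at this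
    exact this.symm
  have E3 : ∀ i b, i < k → k ≤ b → b < 2 * k + 1 → gn p k G i b = 0 := by
    intro i b hi hkb hb
    have := congr_fun (congr_fun hT ⟨i, by omega⟩) ⟨b, hb⟩
    rw [T0, Matrix.mul_diagonal, Matrix.diagonal_mul] at this
    simp only [Fin.val_mk] at this
    rw [if_neg (by omega), if_pos hi, one_mul, mul_neg, mul_one] at this
    rw [gn, dif_pos ⟨by omega, hb⟩]
    have h2 : (2 : ZMod p) * G ⟨i, by omega⟩ ⟨b, hb⟩ = 0 := by
      linear_combination (-1 : ZMod p) * this
    rcases mul_eq_zero.mp h2 with h | h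
    · exact absurd h (two_ne_zero' p hp2)
    · exact h
  have shift : ∀ a b, a < k → b < k →
      gn p k G (a + 1 + k) (b + 1 + k) = gn p k G (a + k) (b + k) := by
    intro a b ha hb
    have e1 : a + 1 + k = a + k + 1 := by omega
    have e2 : b + 1 + k = b + k + 1 := by omega
    rw [e1, e2, ← E2 a b ha hb, E1 a b ha hb]
  have CA : ∀ b a, b < a → a ≤ k → gn p k G (a + k) (b + k) = 0 := by
    intro b
    induction b with
    | zero =>
      intro a hba hak
      obtain ⟨a', rfl⟩ : ∃ a', a = a' + 1 := ⟨a - 1, by omega⟩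
      have e1 : a' + 1 + k = a' + k + 1 := by omega
      rw [e1, Nat.zero_add]
      exact E2' a' (by omega)
    | succ b ih =>
      intro a hba hak
      obtain ⟨a', rfl⟩ : ∃ a', a = a' + 1 := ⟨a - 1, by omega⟩
      rw [shift a' b (by omega) (by omega)]
      exact ih a' (by omega) (by omega)
  have CB : ∀ d a b, k - b = d → a < b → b ≤ k → gn p k G (a + k) (b + k) = 0 := by
    intro d
    induction d with
    | zero =>
      intro a b hd hab hbk
      have hb : b = k := by omega
      subst hb
      have e : b + b = 2 * b := by omega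
      rw [e]
      exact E1' a hab
    | succ d ih =>
      intro a b hd hab hbk
      rw [← shift a b (by omega) (by omega)]
      exact ih (a + 1) (b + 1) (by omega) (by omega) (by omega)
  have CC : ∀ a, a ≤ k → gn p k G (a + k) (a + k) = gn p k G k k := by
    intro a
    induction a with
    | zero => intro _; rw [Nat.zero_add]
    | succ a ih =>
      intro ha
      rw [shift a a (by omega) (by omega)]
      exact ih (by omega)
  have W : ∀ a b, a ≤ k → b ≤ k →
      gn p k G (a + k) (b + k) = if a = b then gn p k G k k else 0 := by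
    intro a b ha hb
    rcases lt_trichotomy a b with h | h | h
    · rw [if_neg (by omega)]; exact CB (k - b) a b rfl h hb
    · subst h; rw [if_pos rfl]; exact CC a ha
    · rw [if_neg (by omega)]; exact CA b a h ha
  ext i j
  rw [Matrix.diagonal_apply, ← gn_eq p k G i j]
  have hi2 := i.2
  have hj2 := j.2
  by_cases hi : i.val < k
  · by_cases hj : j.val < k
    · rw [E1 _ _ hi hj, W _ _ (by omega) (by omega)]
      by_cases hij : i = j
      · rw [if_pos hij, if_pos (by rw [hij])]
      · rw [if_neg hij, if_neg]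
        intro h; apply hij; exact Fin.ext h
    · rw [E3 _ _ hi (by omega) j.2, if_neg]
      intro h; rw [h] at hi; exact hj hi
  · by_cases hj : j.val < k
    · rw [E1'' _ _ i.2 (by omega) hj, if_neg]
      intro h; rw [h] at hi; exact hi hj
    · obtain ⟨a, ha⟩ : ∃ a, i.val = a + k := ⟨i.val - k, by omega⟩
      obtain ⟨b, hb⟩ : ∃ b, j.val = b + k := ⟨j.val - k, by omega⟩
      have hak : a ≤ k := by omega
      have hbk : b ≤ k := by omega
      rw [ha, hb, W a b hak hbk]
      by_cases hij : i = j
      · have hab : a = b := by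
          have := congrArg Fin.val hij
          omega
        rw [if_pos hab, if_pos hij]
      · have hab : a ≠ b := by
          intro h; apply hij; apply Fin.ext; omega
        rw [if_neg hab, if_neg hij]

theorem central (hp2 : p ≠ 2) (g : Matrix.SpecialLinearGroup (Fin (2 * k + 1)) (ZMod p))
    (hg : ∀ y : GD p, ∃ ζ : ZMod p, ζ ^ (2 * k + 1) = 1 ∧
      g.val * (rho p k y).val = ζ • ((rho p k y).val * g.val)) :
    g ∈ Subgroup.center (Matrix.SpecialLinearGroup (Fin (2 * k + 1)) (ZMod p)) := by
  have hginv : g.val * (g⁻¹).val = 1 := by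
    rw [← Matrix.SpecialLinearGroup.coe_mul, mul_inv_cancel]; rfl
  have hM : ∀ a, g.val * M p k a = M p k a * g.val := by
    intro a
    obtain ⟨ζ, -, h⟩ := hg (GD.r a)
    rw [rho_r, Ms_val] at h
    have h1 := key_pow g.val (g⁻¹).val (M p k a) ζ hginv h p (M_pow_p p k a)
    have : ζ = 1 := by rw [← ZMod.pow_card ζ]; exact h1
    rw [this, one_smul] at h
    exact h
  have hT1 : g.val * T1 p k = T1 p k * g.val := by
    obtain ⟨ζ, hζ, h⟩ := hg (GD.sr 0)
    rw [rho_sr, Matrix.SpecialLinearGroup.coe_mul, Ts_val, Ms_val, M_zero, mul_one] at h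
    have h1 := key_pow g.val (g⁻¹).val (T1 p k) ζ hginv h 2 (by rw [pow_two, T1_mul_T1])
    have : ζ = 1 := by
      have e : ζ ^ (2 * k + 1) = (ζ ^ 2) ^ k * ζ := by ring
      rw [e, h1, one_pow, one_mul] at hζ
      exact hζ
    rw [this, one_smul] at h
    exact h
  have hT : g.val * T0 p k = T0 p k * g.val := by
    have h := hT1
    rw [T1, Matrix.mul_smul, Matrix.smul_mul] at h
    have h' := congrArg (fun X => (T0 p k).det • X) h
    simp only [smul_smul, det_T_sq, one_smul] at h'
    exact h'
  have hL : ∀ a, g.val * L p k a = L p k a * g.val := by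
    intro a
    have h := hM a
    rw [M, mul_add, add_mul, mul_one, one_mul] at h
    exact add_left_cancel h
  have hA1 : g.val * A1 p k = A1 p k * g.val := by
    have h := hL (fun i => if i = 0 then 1 else 0)
    have e : L p k (fun i => if i = 0 then 1 else 0) = A1 p k := by
      simp [L]
    rw [e] at h; exact h
  have hA2 : g.val * A2 p k = A2 p k * g.val := by
    have h := hL (fun i => if i = 1 then 1 else 0)
    have e : L p k (fun i => if i = 1 then 1 else 0) = A2 p k := by
      simp [L]
    rw [e] at h; exact h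
  have hdiag := central_aux p k hp2 g.val hA1 hA2 hT
  rw [Matrix.SpecialLinearGroup.mem_center_iff]
  refine ⟨gn p k g.val k k, ?_, ?_⟩
  · have hdet := g.2
    rw [hdiag, Matrix.det_diagonal, Finset.prod_const, Finset.card_univ] at hdet
    exact hdet
  · rw [Matrix.scalar_apply]; exact hdiag.symm

def phi : GD p →* Matrix.ProjectiveSpecialLinearGroup (Fin (2 * k + 1)) (ZMod p) :=
  (QuotientGroup.mk' _).comp (rho p k)

theorem phi_inj (hp2 : p ≠ 2) (hk : 2 ≤ k) : Function.Injective (phi p k) := by
  rw [injective_iff_map_eq_one]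
  intro x hx
  apply rho_center p k hp2 hk x
  exact (QuotientGroup.eq_one_iff _).mp hx

theorem phi_cent (hp2 : p ≠ 2) :
    Subgroup.centralizer ((phi p k).range :
      Set (Matrix.ProjectiveSpecialLinearGroup (Fin (2 * k + 1)) (ZMod p))) = ⊥ := by
  rw [Subgroup.eq_bot_iff_forall]
  intro x hx
  obtain ⟨g, rfl⟩ := QuotientGroup.mk_surjective x
  rw [QuotientGroup.eq_one_iff]
  apply central p k hp2 g
  intro y
  have h := Subgroup.mem_centralizer_iff.mp hx (phi p k y)
    (SetLike.mem_coe.mpr (MonoidHom.mem_range.mpr ⟨y, rfl⟩))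
  have h' : ((rho p k y * g : Matrix.SpecialLinearGroup (Fin (2 * k + 1)) (ZMod p)) :
      Matrix.ProjectiveSpecialLinearGroup (Fin (2 * k + 1)) (ZMod p))
      = ((g * rho p k y : Matrix.SpecialLinearGroup (Fin (2 * k + 1)) (ZMod p)) :
      Matrix.ProjectiveSpecialLinearGroup (Fin (2 * k + 1)) (ZMod p)) := h
  rw [QuotientGroup.eq] at h'
  obtain ⟨ζ, hζ, hz⟩ := Matrix.SpecialLinearGroup.mem_center_iff.mp h'
  refine ⟨ζ, by simpa using hζ, ?_⟩
  have e : g * rho p k y = (rho p k y * g) * ((rho p k y * g)⁻¹ * (g * rho p k y)) := by group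
  have e' := congrArg Subtype.val e
  rw [Matrix.SpecialLinearGroup.coe_mul, Matrix.SpecialLinearGroup.coe_mul (rho p k y * g), ← hz,
    Matrix.SpecialLinearGroup.coe_mul] at e'
  rw [e', Matrix.scalar_apply, ← Matrix.smul_one_eq_diagonal, Matrix.mul_smul, mul_one]

end Mat

end Cfsg.Agent.Lib.helper2.DihEmb
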