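import Cfsg.Agent.Lib.helper24.CharOps
import Cfsg.Agent.Lib.helper24.CharDet

set_option autoImplicit false

namespace Cfsg.Agent.Lib.helper2.IndLin

open Cfsg Cfsg.Agent.Lib.helper24
open scoped ComplexConjugate

universe u

variable {G : Type u} [Group G] [Fintype G]

omit [Fintype G] in
theorem hom_conj [Finite G] (M : Subgroup G) (ϕ : M →* ℂˣ) (m : M) :
    conj ((ϕ m : ℂˣ) : ℂ) = (((ϕ m)⁻¹ : ℂˣ) : ℂ) := by
  have h1 : ((ϕ m : ℂˣ) : ℂ) ^ (Nat.card M) = 1 := by
    rw [← Units.val_pow_eq_pow_val, ← map_pow, pow_card_eq_one', map_one, Units.val_one]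
  have h2 : ‖((ϕ m : ℂˣ) : ℂ)‖ = 1 := Complex.norm_eq_one_of_pow_eq_one h1 (Nat.card_pos.ne')
  have h3 : ((ϕ m : ℂˣ) : ℂ) * conj ((ϕ m : ℂˣ) : ℂ) = 1 := by
    rw [Complex.mul_conj, Complex.normSq_eq_norm_sq, h2]
    simp
  rw [Units.val_inv_eq_inv_val]
  exact eq_inv_of_mul_eq_one_right h3

/-- Mackey's irreducibility criterion for a linear character. -/
theorem ind_linear_inner (M : Subgroup G) (ϕ : M →* ℂˣ) (μ : M → ℂ)
    (hμ : ∀ m, μ m = ((ϕ m : ℂˣ) : ℂ))
    (hne : ∀ x : G, x ∉ M → ∃ (m₀ : G) (h1 : m₀ ∈ M) (h2 : x⁻¹ * m₀ * x ∈ M),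
      ϕ ⟨m₀, h1⟩ ≠ ϕ ⟨x⁻¹ * m₀ * x, h2⟩) :
    classInner (indFun M μ) (indFun M μ) = 1 := by
  classical
  haveI : Fintype M := Fintype.ofFinite M
  rw [frobenius_reciprocity M μ (indFun_isClassFunction M μ)]
  unfold classInner indFun
  beta_reduce
  have hT : ∀ x : G, ∑ m : M, μ m * conj (extendByZero M μ (x⁻¹ * (m : G) * x))
      = if x ∈ M then (Nat.card M : ℂ) else 0 := by
    intro x
    by_cases hx : x ∈ M
    · rw [if_pos hx]
      have : ∀ m : M, μ m * conj (extendByZero M μ (x⁻¹ * (m : G) * x)) = 1 := by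
        intro m
        have hmem : x⁻¹ * (m : G) * x ∈ M := M.mul_mem (M.mul_mem (M.inv_mem hx) m.2) hx
        rw [extendByZero_apply_mem M μ hmem, hμ, hμ]
        have e : (⟨x⁻¹ * (m : G) * x, hmem⟩ : M) = (⟨x, hx⟩ : M)⁻¹ * m * ⟨x, hx⟩ := by
          apply Subtype.ext
          simp
        have e2 : ϕ ((⟨x, hx⟩ : M)⁻¹ * m * ⟨x, hx⟩) = ϕ m := by
          rw [map_mul, map_mul, map_inv, mul_comm _ (ϕ m), inv_mul_cancel_right]
        rw [e, e2, hom_conj, ← Units.val_mul, mul_inv_cancel, Units.val_one]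
      rw [Finset.sum_congr rfl (fun m _ => this m), Finset.sum_const, Finset.card_univ,
        nsmul_eq_mul, mul_one, Nat.card_eq_fintype_card]
    · rw [if_neg hx]
      obtain ⟨m₀, h1, h2, hne'⟩ := hne x hx
      set T := ∑ m : M, μ m * conj (extendByZero M μ (x⁻¹ * (m : G) * x)) with hTdef
      set ψ : ℂ := ((ϕ ⟨m₀, h1⟩ * (ϕ ⟨x⁻¹ * m₀ * x, h2⟩)⁻¹ : ℂˣ) : ℂ) with hψ
      have hF : ∀ m : M, μ (⟨m₀, h1⟩ * m)
          * conj (extendByZero M μ (x⁻¹ * ((⟨m₀, h1⟩ * m : M) : G) * x))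
          = ψ * (μ m * conj (extendByZero M μ (x⁻¹ * (m : G) * x))) := by
        intro m
        by_cases hm : x⁻¹ * (m : G) * x ∈ M
        · have hm' : x⁻¹ * ((⟨m₀, h1⟩ * m : M) : G) * x ∈ M := by
            have : x⁻¹ * ((⟨m₀, h1⟩ * m : M) : G) * x
                = (x⁻¹ * m₀ * x) * (x⁻¹ * (m : G) * x) := by
              simp only [Subgroup.coe_mul]
              group
            rw [this]
            exact M.mul_mem h2 hm
          rw [extendByZero_apply_mem M μ hm', extendByZero_apply_mem M μ hm]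
          simp only [hμ]
          have e : (⟨x⁻¹ * ((⟨m₀, h1⟩ * m : M) : G) * x, hm'⟩ : M)
              = ⟨x⁻¹ * m₀ * x, h2⟩ * ⟨x⁻¹ * (m : G) * x, hm⟩ := by
            apply Subtype.ext
            simp only [Subgroup.coe_mul]
            group
          rw [e, hψ]
          simp only [map_mul, Units.val_mul, hom_conj, mul_inv]
          ring
        · have hm' : x⁻¹ * ((⟨m₀, h1⟩ * m : M) : G) * x ∉ M := by
            intro hcon
            apply hm
            have : x⁻¹ * (m : G) * x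
                = (x⁻¹ * m₀ * x)⁻¹ * (x⁻¹ * ((⟨m₀, h1⟩ * m : M) : G) * x) := by
              simp only [Subgroup.coe_mul]
              group
            rw [this]
            exact M.mul_mem (M.inv_mem h2) hcon
          rw [extendByZero_apply_not_mem M μ hm', extendByZero_apply_not_mem M μ hm]
          simp
      have hstep : T = ψ * T := by
        calc T = ∑ m : M, μ (⟨m₀, h1⟩ * m)
              * conj (extendByZero M μ (x⁻¹ * ((⟨m₀, h1⟩ * m : M) : G) * x)) := by
              rw [hTdef]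
              exact (Equiv.sum_comp (Equiv.mulLeft (⟨m₀, h1⟩ : M))
                (fun m : M => μ m * conj (extendByZero M μ (x⁻¹ * (m : G) * x)))).symm
          _ = ψ * T := by rw [Finset.sum_congr rfl (fun m _ => hF m), ← Finset.mul_sum]
      have hψ1 : ψ ≠ 1 := by
        intro h
        apply hne'
        have : ϕ ⟨m₀, h1⟩ * (ϕ ⟨x⁻¹ * m₀ * x, h2⟩)⁻¹ = 1 := Units.ext (by rw [← hψ, h]; rfl)
        exact mul_inv_eq_one.mp this
      have : (1 - ψ) * T = 0 := by rw [sub_mul, one_mul, ← hstep, sub_self]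
      rcases mul_eq_zero.mp this with h | h
      · exact absurd (sub_eq_zero.mp h).symm hψ1
      · exact h
  have hcM : (Nat.card M : ℂ) ≠ 0 := Nat.cast_ne_zero.mpr Nat.card_pos.ne'
  have h1 : ∀ g : M, μ g * conj ((Nat.card M : ℂ)⁻¹
        * ∑ x : G, extendByZero M μ (x⁻¹ * (g : G) * x))
      = (Nat.card M : ℂ)⁻¹ * ∑ x : G, μ g * conj (extendByZero M μ (x⁻¹ * (g : G) * x)) := by
    intro g
    rw [map_mul, map_inv₀, Complex.conj_natCast, map_sum, Finset.mul_sum, Finset.mul_sum,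
      Finset.mul_sum]
    apply Finset.sum_congr rfl
    intro x _
    ring
  rw [Finset.sum_congr rfl (fun g _ => h1 g), ← Finset.mul_sum, Finset.sum_comm,
    Finset.sum_congr rfl (fun x _ => hT x), Finset.sum_ite, Finset.sum_const,
    Finset.sum_const_zero, add_zero, nsmul_eq_mul]
  have hc : ((Finset.univ.filter (fun x : G => x ∈ M)).card : ℂ) = (Nat.card M : ℂ) := by
    rw [Nat.card_eq_fintype_card, ← Fintype.card_subtype]
  rw [hc]
  field_simp

end Cfsg.Agent.Lib.helper2.IndLin
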