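import Mathlib
import Cfsg.Agent.Lib.helper2.Transport
import Cfsg.Agent.Lib.helper2.SLCard
import Cfsg.Agent.Lib.helper2.PSL27Tbl

set_option autoImplicit false

namespace Cfsg.Agent.Lib.helper2.PSL27

open Matrix Matrix.SpecialLinearGroup

def f (g : SpecialLinearGroup (Fin 2) (ZMod 7)) : Matrix (Fin 3) (Fin 3) (ZMod 2) :=
  decM (tbl7 (g 0 0) (g 0 1) (g 1 0) (g 1 1))

theorem f_one : f 1 = 1 := by
  have h : f 1 = decM (tbl7 1 0 0 1) := by
    simp [f]
  rw [h]
  exact check_one.2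

theorem f_mul : ∀ g h : SpecialLinearGroup (Fin 2) (ZMod 7), f (g * h) = f g * f h := by
  have h01 : ∀ (hij : (0 : Fin 2) ≠ 1) (a : ZMod 7) (g : SpecialLinearGroup (Fin 2) (ZMod 7)),
      tbl7 (g 0 0) (g 0 1) (g 1 0) (g 1 1) ≠ 0 →
      tbl7 ((g * transvection hij a) 0 0) ((g * transvection hij a) 0 1)
        ((g * transvection hij a) 1 0) ((g * transvection hij a) 1 1) ≠ 0
      ∧ f (g * transvection hij a) = f g * f (transvection hij a) := by
    intro hij a g hg
    obtain ⟨e1, e2, e3, e4⟩ := Transport.mul_t01 g hij a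
    obtain ⟨t1, t2, t3, t4⟩ := Transport.t01_entries hij a
    simp only [f]
    rw [e1, e2, e3, e4, t1, t2, t3, t4]
    exact check_up _ _ _ _ a hg
  have h10 : ∀ (hij : (1 : Fin 2) ≠ 0) (a : ZMod 7) (g : SpecialLinearGroup (Fin 2) (ZMod 7)),
      tbl7 (g 0 0) (g 0 1) (g 1 0) (g 1 1) ≠ 0 →
      tbl7 ((g * transvection hij a) 0 0) ((g * transvection hij a) 0 1)
        ((g * transvection hij a) 1 0) ((g * transvection hij a) 1 1) ≠ 0
      ∧ f (g * transvection hij a) = f g * f (transvection hij a) := by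
    intro hij a g hg
    obtain ⟨e1, e2, e3, e4⟩ := Transport.mul_t10 g hij a
    obtain ⟨t1, t2, t3, t4⟩ := Transport.t10_entries hij a
    simp only [f]
    rw [e1, e2, e3, e4, t1, t2, t3, t4]
    exact check_lo _ _ _ _ a hg
  apply Transport.hom_of_transvections f
    (fun g => tbl7 (g 0 0) (g 0 1) (g 1 0) (g 1 1) ≠ 0)
  · have h : tbl7 ((1 : SpecialLinearGroup (Fin 2) (ZMod 7)) 0 0)
        ((1 : SpecialLinearGroup (Fin 2) (ZMod 7)) 0 1)
        ((1 : SpecialLinearGroup (Fin 2) (ZMod 7)) 1 0)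
        ((1 : SpecialLinearGroup (Fin 2) (ZMod 7)) 1 1) = tbl7 1 0 0 1 := by
      simp
    show tbl7 _ _ _ _ ≠ 0
    rw [h]
    exact check_one.1
  · intro i j hij a g hg
    fin_cases i <;> fin_cases j
    · exact absurd rfl hij
    · exact h01 hij a g hg
    · exact h10 hij a g hg
    · exact absurd rfl hij

noncomputable def fHom : SpecialLinearGroup (Fin 2) (ZMod 7) →* Matrix (Fin 3) (Fin 3) (ZMod 2) where
  toFun := f
  map_one' := f_one
  map_mul' := f_mul

noncomputable def phi : SpecialLinearGroup (Fin 2) (ZMod 7) →* GL (Fin 3) (ZMod 2) := fHom.toHomUnits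

theorem center_le_ker : Subgroup.center (SpecialLinearGroup (Fin 2) (ZMod 7)) ≤ phi.ker := by
  intro z hz
  rw [Matrix.SpecialLinearGroup.mem_center_iff] at hz
  obtain ⟨r, hr, hz⟩ := hz
  rw [MonoidHom.mem_ker]
  apply Units.ext
  show f z = 1
  have e00 : z 0 0 = r := by rw [← hz]; simp
  have e01 : z 0 1 = 0 := by rw [← hz]; simp
  have e10 : z 1 0 = 0 := by rw [← hz]; simp
  have e11 : z 1 1 = r := by rw [← hz]; simp
  rw [f, e00, e01, e10, e11]
  exact check_center r (by simpa using hr)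

noncomputable def phiBar : ProjectiveSpecialLinearGroup (Fin 2) (ZMod 7) →* GL (Fin 3) (ZMod 2) :=
  QuotientGroup.lift _ phi center_le_ker

theorem card_PSL27 : Nat.card (ProjectiveSpecialLinearGroup (Fin 2) (ZMod 7)) = 168 := by
  have h := SLCard.card_PSL (ZMod 7) 2 (by norm_num)
  rw [Fin.prod_univ_two, ZMod.card] at h
  have e1 : Nat.gcd 2 (7 - 1) = 2 := by decide
  have e2 : (7 ^ 2 - 7 ^ ((0 : Fin 2) : ℕ)) * (7 ^ 2 - 7 ^ ((1 : Fin 2) : ℕ)) = 2016 := by
    norm_num
  rw [e1, e2] at h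
  omega

theorem card_GL32 : Nat.card (GL (Fin 3) (ZMod 2)) = 168 := by
  rw [Matrix.card_GL_field, Fin.prod_univ_three, ZMod.card]
  norm_num

theorem phiBar_bijective : Function.Bijective phiBar := by
  have hfin : Finite (ProjectiveSpecialLinearGroup (Fin 2) (ZMod 7)) :=
    Nat.finite_of_card_ne_zero (by rw [card_PSL27]; norm_num)
  have hs : IsSimpleGroup (ProjectiveSpecialLinearGroup (Fin 2) (ZMod 7)) :=
    Matrix.ProjectiveSpecialLinearGroup.rank_two_simple
      (by rw [Nat.card_eq_fintype_card, ZMod.card]; norm_num)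
  have hinj : Function.Injective phiBar := by
    rw [← MonoidHom.ker_eq_bot_iff]
    rcases (inferInstance : (phiBar.ker).Normal).eq_bot_or_eq_top with h | h
    · exact h
    · exfalso
      have hmem : (QuotientGroup.mk (transvection (show (0 : Fin 2) ≠ 1 by decide) (1 : ZMod 7))
          : ProjectiveSpecialLinearGroup (Fin 2) (ZMod 7)) ∈ phiBar.ker := by
        rw [h]; trivial
      rw [MonoidHom.mem_ker] at hmem
      have h2 : phi (transvection (show (0 : Fin 2) ≠ 1 by decide) (1 : ZMod 7)) = 1 := hmem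
      have h3 := congrArg Units.val h2
      obtain ⟨t1, t2, t3, t4⟩ := Transport.t01_entries (show (0 : Fin 2) ≠ 1 by decide) (1 : ZMod 7)
      have h4 : f (transvection (show (0 : Fin 2) ≠ 1 by decide) (1 : ZMod 7)) = 1 := h3
      rw [f, t1, t2, t3, t4] at h4
      exact check_nontrivial h4
  rw [Nat.bijective_iff_injective_and_card]
  exact ⟨hinj, by rw [card_PSL27, card_GL32]⟩

theorem card_SL32 : Nat.card (SpecialLinearGroup (Fin 3) (ZMod 2)) = 168 := by
  have h := SLCard.card_SL (ZMod 2) 3 (by norm_num)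
  rw [Fin.prod_univ_three, ZMod.card] at h
  have e2 : (2 ^ 3 - 2 ^ ((0 : Fin 3) : ℕ)) * (2 ^ 3 - 2 ^ ((1 : Fin 3) : ℕ))
      * (2 ^ 3 - 2 ^ ((2 : Fin 3) : ℕ)) = 168 := by
    norm_num
  rw [e2] at h
  omega

theorem iso {F K : Type*} [Field F] [Fintype F] [Field K] [Fintype K]
    (hF : Fintype.card F = 7) (hK : Fintype.card K = 2) :
    Nonempty (ProjectiveSpecialLinearGroup (Fin 2) F ≃* ProjectiveSpecialLinearGroup (Fin 3) K) := by
  have eF : ZMod 7 ≃+* F := ZMod.ringEquivOfPrime F (by norm_num) hF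
  have eK : ZMod 2 ≃+* K := ZMod.ringEquivOfPrime K (by norm_num) hK
  have e1 : ProjectiveSpecialLinearGroup (Fin 2) F ≃* ProjectiveSpecialLinearGroup (Fin 2) (ZMod 7) :=
    Transport.pslCongr eF.symm
  have e2 : ProjectiveSpecialLinearGroup (Fin 2) (ZMod 7) ≃* GL (Fin 3) (ZMod 2) :=
    MulEquiv.ofBijective phiBar phiBar_bijective
  have e5 : ProjectiveSpecialLinearGroup (Fin 3) K ≃* ProjectiveSpecialLinearGroup (Fin 3) (ZMod 2) :=
    Transport.pslCongr eK.symm
  have hc := SLCard.card_center_SL (ZMod 2) 3 (by norm_num)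
  rw [ZMod.card] at hc
  have hbot : Subgroup.center (SpecialLinearGroup (Fin 3) (ZMod 2)) = ⊥ :=
    Subgroup.eq_bot_of_card_eq _ (by rw [hc]; rfl)
  have e4 : ProjectiveSpecialLinearGroup (Fin 3) (ZMod 2) ≃* SpecialLinearGroup (Fin 3) (ZMod 2) :=
    (QuotientGroup.quotientMulEquivOfEq hbot).trans QuotientGroup.quotientBot
  have hfin : Finite (SpecialLinearGroup (Fin 3) (ZMod 2)) :=
    Nat.finite_of_card_ne_zero (by rw [card_SL32]; norm_num)
  have hbij : Function.Bijective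
      (Matrix.SpecialLinearGroup.toGL : SpecialLinearGroup (Fin 3) (ZMod 2) →* GL (Fin 3) (ZMod 2)) := by
    rw [Nat.bijective_iff_injective_and_card]
    exact ⟨Matrix.SpecialLinearGroup.toGL_injective, by rw [card_SL32, card_GL32]⟩
  have e3 : SpecialLinearGroup (Fin 3) (ZMod 2) ≃* GL (Fin 3) (ZMod 2) :=
    MulEquiv.ofBijective _ hbij
  exact ⟨(e1.trans e2).trans ((e5.trans e4).trans e3).symm⟩

end Cfsg.Agent.Lib.helper2.PSL27
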