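import Mathlib
import Cfsg.Agent.Lib.helper2.Transport
import Cfsg.Agent.Lib.helper2.SLCard
import Cfsg.Agent.Lib.helper2.A5
import Cfsg.Agent.Lib.helper2.PSL29Tbl

set_option autoImplicit false

namespace Cfsg.Agent.Lib.helper2.PSL29

open Matrix Matrix.SpecialLinearGroup

instance fintypeK9 : Fintype K9 :=
  Fintype.ofEquiv (ZMod 3 × ZMod 3) (QuadraticAlgebra.equivProd (-1 : ZMod 3) 0).symm

theorem card_K9 : Fintype.card K9 = 9 := by
  rw [Fintype.card_congr (QuadraticAlgebra.equivProd (-1 : ZMod 3) 0), Fintype.card_prod,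
    ZMod.card]

theorem check_up' (a b c d x : K9) : tbl9 a b c d ≠ 0 →
    tbl9 a (a * x + b) c (c * x + d) ≠ 0 ∧
      ∀ k : Fin 6, dig (tbl9 a (a * x + b) c (c * x + d)) k
        = dig (tbl9 a b c d) (dig (tbl9 1 x 0 1) k) := by
  obtain ⟨a1, a2⟩ := a
  obtain ⟨b1, b2⟩ := b
  obtain ⟨c1, c2⟩ := c
  obtain ⟨d1, d2⟩ := d
  obtain ⟨x1, x2⟩ := x
  exact check_up a1 a2 b1 b2 c1 c2 d1 d2 x1 x2

theorem check_lo' (a b c d x : K9) : tbl9 a b c d ≠ 0 →
    tbl9 (a + b * x) b (c + d * x) d ≠ 0 ∧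
      ∀ k : Fin 6, dig (tbl9 (a + b * x) b (c + d * x) d) k
        = dig (tbl9 a b c d) (dig (tbl9 1 0 x 1) k) := by
  obtain ⟨a1, a2⟩ := a
  obtain ⟨b1, b2⟩ := b
  obtain ⟨c1, c2⟩ := c
  obtain ⟨d1, d2⟩ := d
  obtain ⟨x1, x2⟩ := x
  exact check_lo a1 a2 b1 b2 c1 c2 d1 d2 x1 x2

def f (g : SpecialLinearGroup (Fin 2) K9) : Function.End (Fin 6) :=
  fun k => dig (tbl9 (g 0 0) (g 0 1) (g 1 0) (g 1 1)) k

theorem f_one : f 1 = 1 := by
  funext k
  have h : f 1 k = dig (tbl9 1 0 0 1) k := by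
    simp [f]
  rw [h]
  exact check_one.2 k

theorem f_mul : ∀ g h : SpecialLinearGroup (Fin 2) K9, f (g * h) = f g * f h := by
  have h01 : ∀ (hij : (0 : Fin 2) ≠ 1) (a : K9) (g : SpecialLinearGroup (Fin 2) K9),
      tbl9 (g 0 0) (g 0 1) (g 1 0) (g 1 1) ≠ 0 →
      tbl9 ((g * transvection hij a) 0 0) ((g * transvection hij a) 0 1)
        ((g * transvection hij a) 1 0) ((g * transvection hij a) 1 1) ≠ 0
      ∧ f (g * transvection hij a) = f g * f (transvection hij a) := by
    intro hij a g hg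
    obtain ⟨e1, e2, e3, e4⟩ := Transport.mul_t01 g hij a
    obtain ⟨t1, t2, t3, t4⟩ := Transport.t01_entries hij a
    have key := check_up' (g 0 0) (g 0 1) (g 1 0) (g 1 1) a hg
    rw [e1, e2, e3, e4]
    refine ⟨key.1, ?_⟩
    funext k
    show dig (tbl9 ((g * transvection hij a) 0 0) ((g * transvection hij a) 0 1)
        ((g * transvection hij a) 1 0) ((g * transvection hij a) 1 1)) k
      = dig (tbl9 (g 0 0) (g 0 1) (g 1 0) (g 1 1))
        (dig (tbl9 ((transvection hij a : SpecialLinearGroup (Fin 2) K9) 0 0)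
          ((transvection hij a : SpecialLinearGroup (Fin 2) K9) 0 1)
          ((transvection hij a : SpecialLinearGroup (Fin 2) K9) 1 0)
          ((transvection hij a : SpecialLinearGroup (Fin 2) K9) 1 1)) k)
    rw [e1, e2, e3, e4, t1, t2, t3, t4]
    exact key.2 k
  have h10 : ∀ (hij : (1 : Fin 2) ≠ 0) (a : K9) (g : SpecialLinearGroup (Fin 2) K9),
      tbl9 (g 0 0) (g 0 1) (g 1 0) (g 1 1) ≠ 0 →
      tbl9 ((g * transvection hij a) 0 0) ((g * transvection hij a) 0 1)
        ((g * transvection hij a) 1 0) ((g * transvection hij a) 1 1) ≠ 0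
      ∧ f (g * transvection hij a) = f g * f (transvection hij a) := by
    intro hij a g hg
    obtain ⟨e1, e2, e3, e4⟩ := Transport.mul_t10 g hij a
    obtain ⟨t1, t2, t3, t4⟩ := Transport.t10_entries hij a
    have key := check_lo' (g 0 0) (g 0 1) (g 1 0) (g 1 1) a hg
    rw [e1, e2, e3, e4]
    refine ⟨key.1, ?_⟩
    funext k
    show dig (tbl9 ((g * transvection hij a) 0 0) ((g * transvection hij a) 0 1)
        ((g * transvection hij a) 1 0) ((g * transvection hij a) 1 1)) k
      = dig (tbl9 (g 0 0) (g 0 1) (g 1 0) (g 1 1))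
        (dig (tbl9 ((transvection hij a : SpecialLinearGroup (Fin 2) K9) 0 0)
          ((transvection hij a : SpecialLinearGroup (Fin 2) K9) 0 1)
          ((transvection hij a : SpecialLinearGroup (Fin 2) K9) 1 0)
          ((transvection hij a : SpecialLinearGroup (Fin 2) K9) 1 1)) k)
    rw [e1, e2, e3, e4, t1, t2, t3, t4]
    exact key.2 k
  apply Transport.hom_of_transvections f
    (fun g => tbl9 (g 0 0) (g 0 1) (g 1 0) (g 1 1) ≠ 0)
  · have h : tbl9 ((1 : SpecialLinearGroup (Fin 2) K9) 0 0)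
        ((1 : SpecialLinearGroup (Fin 2) K9) 0 1)
        ((1 : SpecialLinearGroup (Fin 2) K9) 1 0)
        ((1 : SpecialLinearGroup (Fin 2) K9) 1 1) = tbl9 1 0 0 1 := by
      simp
    show tbl9 _ _ _ _ ≠ 0
    rw [h]
    exact check_one.1
  · intro i j hij a g hg
    fin_cases i <;> fin_cases j
    · exact absurd rfl hij
    · exact h01 hij a g hg
    · exact h10 hij a g hg
    · exact absurd rfl hij

noncomputable def fHom : SpecialLinearGroup (Fin 2) K9 →* Function.End (Fin 6) where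
  toFun := f
  map_one' := f_one
  map_mul' := f_mul

noncomputable def phi : SpecialLinearGroup (Fin 2) K9 →* Equiv.Perm (Fin 6) := fHom.toHomPerm

theorem phi_apply (g : SpecialLinearGroup (Fin 2) K9) (k : Fin 6) : phi g k = f g k := rfl

theorem center_le_ker : Subgroup.center (SpecialLinearGroup (Fin 2) K9) ≤ phi.ker := by
  intro z hz
  rw [Matrix.SpecialLinearGroup.mem_center_iff] at hz
  obtain ⟨r, hr, hz⟩ := hz
  rw [MonoidHom.mem_ker]
  ext k
  rw [phi_apply]
  have e00 : z 0 0 = r := by rw [← hz]; simp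
  have e01 : z 0 1 = 0 := by rw [← hz]; simp
  have e10 : z 1 0 = 0 := by rw [← hz]; simp
  have e11 : z 1 1 = r := by rw [← hz]; simp
  rw [f, e00, e01, e10, e11]
  obtain ⟨r1, r2⟩ := r
  rw [check_center r1 r2 (by simpa using hr) k]
  rfl

noncomputable def phiBar : ProjectiveSpecialLinearGroup (Fin 2) K9 →* Equiv.Perm (Fin 6) :=
  QuotientGroup.lift _ phi center_le_ker

theorem phiBar_injective : Function.Injective phiBar := by
  have hs : IsSimpleGroup (ProjectiveSpecialLinearGroup (Fin 2) K9) :=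
    Matrix.ProjectiveSpecialLinearGroup.rank_two_simple
      (by rw [Nat.card_eq_fintype_card, card_K9]; norm_num)
  rw [← MonoidHom.ker_eq_bot_iff]
  rcases (inferInstance : (phiBar.ker).Normal).eq_bot_or_eq_top with h | h
  · exact h
  · exfalso
    have hmem : (QuotientGroup.mk (transvection (show (0 : Fin 2) ≠ 1 by decide) (1 : K9))
        : ProjectiveSpecialLinearGroup (Fin 2) K9) ∈ phiBar.ker := by
      rw [h]; trivial
    rw [MonoidHom.mem_ker] at hmem
    have h2 : phi (transvection (show (0 : Fin 2) ≠ 1 by decide) (1 : K9)) = 1 := hmem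
    have h3 : phi (transvection (show (0 : Fin 2) ≠ 1 by decide) (1 : K9)) 3 = 3 := by
      rw [h2]; rfl
    obtain ⟨t1, t2, t3, t4⟩ := Transport.t01_entries (show (0 : Fin 2) ≠ 1 by decide) (1 : K9)
    rw [phi_apply, f, t1, t2, t3, t4] at h3
    exact check_nontrivial h3

theorem iso {F : Type*} [Field F] [Fintype F] (hF : Fintype.card F = 9) :
    Nonempty (ProjectiveSpecialLinearGroup (Fin 2) F ≃* alternatingGroup (Fin 6)) := by
  classical
  have eF : F ≃+* K9 := FiniteField.ringEquivOfCardEq (by rw [hF, card_K9])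
  have e1 : ProjectiveSpecialLinearGroup (Fin 2) F ≃* ProjectiveSpecialLinearGroup (Fin 2) K9 :=
    Transport.pslCongr eF
  have h := SLCard.card_PSL F 2 (by norm_num)
  rw [Fin.prod_univ_two, hF] at h
  have g1 : Nat.gcd 2 (9 - 1) = 2 := by decide
  have g2 : (9 ^ 2 - 9 ^ ((0 : Fin 2) : ℕ)) * (9 ^ 2 - 9 ^ ((1 : Fin 2) : ℕ)) = 5760 := by
    norm_num
  rw [g1, g2] at h
  have h360 : Nat.card (ProjectiveSpecialLinearGroup (Fin 2) F) = 360 := by omega
  have hfin : Finite (ProjectiveSpecialLinearGroup (Fin 2) F) :=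
    Nat.finite_of_card_ne_zero (by rw [h360]; norm_num)
  have hinj : Function.Injective (phiBar.comp (e1 : ProjectiveSpecialLinearGroup (Fin 2) F →*
      ProjectiveSpecialLinearGroup (Fin 2) K9)) :=
    phiBar_injective.comp e1.injective
  exact A5.iso_alt_of_injective 6 (by simp) _ hinj (by rw [h360]; rfl)

end Cfsg.Agent.Lib.helper2.PSL29
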