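import Mathlib
import Cfsg.Agent.Lib.helper2.SLCard

set_option autoImplicit false

/-!
Elements of `PSL_n(q)` commuting with an element of order `p`: prime divisors of their orders.
-/

namespace Cfsg.Agent.Lib.helper2.PSLComm

open Module

section core

variable {F V : Type*} [Field F] [Fintype F] [AddCommGroup V] [Module F V]
  [FiniteDimensional F V]

/-- An operator of prime order `r` without nonzero fixed vectors on an invariant subspace. -/
theorem dvd_of_fixed_free (T : Module.End F V) (r : ℕ) (hr : r.Prime) (hT : T ^ r = 1)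
    (X : Submodule F V) (hX : ∀ x ∈ X, T x ∈ X) (hfix : ∀ x ∈ X, T x = x → x = 0) :
    r ∣ Fintype.card F ^ finrank F X - 1 := by
  classical
  have hrf : Fact r.Prime := ⟨hr⟩
  have hfinV : Finite V := Module.finite_of_finite F
  let _ : Fintype ↥X := Fintype.ofFinite _
  let f : Function.End ↥X := fun x => ⟨T x, hX x x.2⟩
  have key : ∀ k : ℕ, ∀ x : ↥X, ((f ^ k) x : V) = (T ^ k) x := by
    intro k
    induction k with
    | zero => intro x; rfl
    | succ k ih =>
      intro x
      rw [pow_succ, pow_succ, Module.End.mul_apply]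
      exact ih (f x)
  have hf : f ^ r ^ 1 = 1 := by
    rw [pow_one]
    funext x
    apply Subtype.ext
    rw [key, hT]
    rfl
  have h1 := Equiv.Perm.card_fixedPoints_modEq (p := r) (n := 1) hf
  have h2 : Fintype.card (Function.fixedPoints f) = 1 := by
    rw [Fintype.card_eq_one_iff]
    refine ⟨⟨0, ?_⟩, ?_⟩
    · apply Subtype.ext
      change T (0 : V) = 0
      exact map_zero T
    · rintro ⟨x, hx⟩
      apply Subtype.ext
      apply Subtype.ext
      have h3 : T (x : V) = x := congrArg Subtype.val hx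
      exact hfix x x.2 h3
  rw [h2] at h1
  have h3 : Fintype.card ↥X = Fintype.card F ^ finrank F X := Module.card_eq_pow_finrank
  rw [h3] at h1
  exact (Nat.modEq_iff_dvd' (Nat.one_le_pow _ _ Fintype.card_pos)).mp h1.symm

theorem ker_inf_range (T : Module.End F V) (r : ℕ) (hrF : (r : F) ≠ 0) (hT : T ^ r = 1) (x : V)
    (hx1 : T x = x) (hx2 : ∃ y, x = T y - y) : x = 0 := by
  obtain ⟨y, rfl⟩ := hx2
  have hpow : ∀ i : ℕ, (T ^ i) (T y - y) = T y - y := by
    intro i
    induction i with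
    | zero => rfl
    | succ i ih => rw [pow_succ, Module.End.mul_apply, hx1, ih]
  have h1 : (∑ i ∈ Finset.range r, T ^ i) (T y - y) = (r : F) • (T y - y) := by
    rw [LinearMap.sum_apply, Finset.sum_congr rfl (fun i _ => hpow i), Finset.sum_const,
      Finset.card_range]
    exact (Nat.cast_smul_eq_nsmul F r _).symm
  have h2 : (∑ i ∈ Finset.range r, T ^ i) (T y - y) = 0 := by
    have h3 : ((∑ i ∈ Finset.range r, T ^ i) * (T - 1)) y = 0 := by
      rw [geom_sum_mul T r, hT, sub_self]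
      rfl
    rw [Module.End.mul_apply] at h3
    exact h3
  rw [h2] at h1
  exact (smul_eq_zero.mp h1.symm).resolve_left hrF

/-- The core linear-algebra fact. -/
theorem core (N T : Module.End F V) (r : ℕ) (hr : r.Prime) (hrF : (r : F) ≠ 0)
    (hT : T ^ r = 1) (hT1 : T ≠ 1) (hN0 : N ≠ 0) (hNnil : IsNilpotent N)
    (hcomm : N * T = T * N) (hn : 4 ≤ finrank F V) :
    ∃ j : ℕ, 1 ≤ j ∧ j + 2 ≤ finrank F V ∧ r ∣ Fintype.card F ^ j - 1 := by
  obtain ⟨S, hS⟩ : ∃ S : Module.End F V, S = T - 1 := ⟨_, rfl⟩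
  have hSa : ∀ x, S x = T x - x := fun x => by rw [hS]; rfl
  have hNT' : ∀ x, N (T x) = T (N x) := fun x => by
    have := congrArg (fun f : Module.End F V => f x) hcomm
    simpa [Module.End.mul_apply] using this
  have hST' : ∀ x, S (T x) = T (S x) := fun x => by rw [hSa, hSa, map_sub]
  have hSN' : ∀ x, S (N x) = N (S x) := fun x => by rw [hSa, hSa, map_sub, hNT']
  have hfixS : ∀ x, S x = 0 → T x = x := fun x hx => by
    rw [hSa] at hx
    exact sub_eq_zero.mp hx
  have hzero : ∀ x, S (S x) = 0 → S x = 0 := fun x hx =>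
    ker_inf_range T r hrF hT (S x) (hfixS _ hx) ⟨x, hSa x⟩
  have key : ∀ X : Submodule F V, X ≠ ⊥ → X ≤ LinearMap.range S → (∀ x ∈ X, T x ∈ X) →
      finrank F X + 2 ≤ finrank F V →
      ∃ j : ℕ, 1 ≤ j ∧ j + 2 ≤ finrank F V ∧ r ∣ Fintype.card F ^ j - 1 := by
    intro X hX0 hXS hXT hdim
    refine ⟨finrank F X, ?_, hdim, ?_⟩
    · exact Nat.one_le_iff_ne_zero.mpr (fun h => hX0 (Submodule.finrank_eq_zero.mp h))
    · apply dvd_of_fixed_free T r hr hT X hXT
      intro x hx hfix
      obtain ⟨y, hy⟩ := hXS hx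
      exact ker_inf_range T r hrF hT x hfix ⟨y, by rw [← hy, hSa]⟩
  have hKT : ∀ x ∈ LinearMap.ker N, T x ∈ LinearMap.ker N := by
    intro x hx
    rw [LinearMap.mem_ker] at hx ⊢
    rw [hNT', hx, map_zero]
  have hIT : ∀ x ∈ LinearMap.range N, T x ∈ LinearMap.range N := by
    rintro x ⟨z, rfl⟩
    exact ⟨T z, hNT' z⟩
  have hmapT : ∀ Y : Submodule F V, (∀ x ∈ Y, T x ∈ Y) → ∀ x ∈ Y.map S, T x ∈ Y.map S := by
    rintro Y hY x ⟨y, hy, rfl⟩
    exact ⟨T y, hY y hy, hST' y⟩
  have hmapS : ∀ Y : Submodule F V, Y.map S ≤ LinearMap.range S := by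
    rintro Y x ⟨y, -, rfl⟩
    exact ⟨y, rfl⟩
  have hdimKI : finrank F (LinearMap.ker N) + finrank F (LinearMap.range N) = finrank F V := by
    rw [add_comm]
    exact LinearMap.finrank_range_add_finrank_ker N
  obtain ⟨w, hw0, hwI, hwK⟩ : ∃ w : V, w ≠ 0 ∧ w ∈ LinearMap.range N ∧ w ∈ LinearMap.ker N := by
    by_contra hcon
    push Not at hcon
    apply hN0
    obtain ⟨k, hk⟩ := hNnil
    have hind : ∀ k : ℕ, ∀ x ∈ LinearMap.range N, (N ^ k) x = 0 → x = 0 := by
      intro k
      induction k with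
      | zero => intro x _ hx; exact hx
      | succ k ih =>
        intro x hxI hx
        rw [pow_succ, Module.End.mul_apply] at hx
        have h1 : N x = 0 := ih (N x) ⟨x, rfl⟩ hx
        by_contra hx0
        exact hcon x hx0 hxI (LinearMap.mem_ker.mpr h1)
    ext v
    have h2 : N v = 0 := hind k (N v) ⟨v, rfl⟩ (by rw [hk]; rfl)
    rw [h2]
    rfl
  have hK1 : 1 ≤ finrank F (LinearMap.ker N) :=
    Nat.one_le_iff_ne_zero.mpr (fun h => hw0 (by
      have := Submodule.finrank_eq_zero.mp h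
      rw [this] at hwK
      exact (Submodule.mem_bot F).mp hwK))
  have hI1 : 1 ≤ finrank F (LinearMap.range N) :=
    Nat.one_le_iff_ne_zero.mpr (fun h => hw0 (by
      have := Submodule.finrank_eq_zero.mp h
      rw [this] at hwI
      exact (Submodule.mem_bot F).mp hwI))
  have hJ1 : 1 ≤ finrank F ↥(LinearMap.ker N ⊓ LinearMap.range N) :=
    Nat.one_le_iff_ne_zero.mpr (fun h => hw0 (by
      have := Submodule.finrank_eq_zero.mp h
      have hwJ : w ∈ LinearMap.ker N ⊓ LinearMap.range N := ⟨hwK, hwI⟩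
      rw [this] at hwJ
      exact (Submodule.mem_bot F).mp hwJ))
  by_cases hSJ : (LinearMap.ker N ⊓ LinearMap.range N).map S = ⊥
  · have hJfix : ∀ x ∈ LinearMap.ker N ⊓ LinearMap.range N, S x = 0 := by
      intro x hx
      have : S x ∈ (LinearMap.ker N ⊓ LinearMap.range N).map S := ⟨x, hx, rfl⟩
      rw [hSJ] at this
      exact (Submodule.mem_bot F).mp this
    have hex : (LinearMap.ker N).map S ≠ ⊥ ∨ (LinearMap.range N).map S ≠ ⊥ := by
      by_contra hcon
      push Not at hcon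
      apply hT1
      have hSK : ∀ x ∈ LinearMap.ker N, S x = 0 := by
        intro x hx
        have : S x ∈ (LinearMap.ker N).map S := ⟨x, hx, rfl⟩
        rw [hcon.1] at this
        exact (Submodule.mem_bot F).mp this
      have hSI : ∀ x ∈ LinearMap.range N, S x = 0 := by
        intro x hx
        have : S x ∈ (LinearMap.range N).map S := ⟨x, hx, rfl⟩
        rw [hcon.2] at this
        exact (Submodule.mem_bot F).mp this
      have hS0 : ∀ v, S v = 0 := by
        intro v
        apply hzero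
        apply hSK
        rw [LinearMap.mem_ker, ← hSN']
        exact hSI _ ⟨v, rfl⟩
      ext v
      exact hfixS v (hS0 v)
    have gen : ∀ Y : Submodule F V, (∀ x ∈ Y, T x ∈ Y) →
        LinearMap.ker N ⊓ LinearMap.range N ≤ Y → finrank F Y + 1 ≤ finrank F V →
        Y.map S ≠ ⊥ →
        ∃ j : ℕ, 1 ≤ j ∧ j + 2 ≤ finrank F V ∧ r ∣ Fintype.card F ^ j - 1 := by
      intro Y hYT hJY hYdim hY0
      apply key (Y.map S) hY0 (hmapS Y) (hmapT Y hYT)
      have hle : Y.map S ≤ Y := by
        rintro x ⟨y, hy, rfl⟩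
        rw [hSa]
        exact Y.sub_mem (hYT y hy) hy
      have hdisj : Y.map S ⊓ (LinearMap.ker N ⊓ LinearMap.range N) = ⊥ := by
        rw [eq_bot_iff]
        rintro x ⟨hx1, hx2⟩
        obtain ⟨y, -, rfl⟩ := hx1
        exact (Submodule.mem_bot F).mpr (hzero y (hJfix _ hx2))
      have h1 := Submodule.finrank_sup_add_finrank_inf_eq (Y.map S)
        (LinearMap.ker N ⊓ LinearMap.range N)
      rw [hdisj, finrank_bot, add_zero] at h1
      have h2 : finrank F ↥(Y.map S ⊔ (LinearMap.ker N ⊓ LinearMap.range N)) ≤ finrank F Y :=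
        Submodule.finrank_mono (sup_le hle hJY)
      omega
    rcases hex with h | h
    · exact gen _ hKT inf_le_left (by omega) h
    · exact gen _ hIT inf_le_right (by omega) h
  · apply key _ hSJ (hmapS _) (hmapT _ (fun x hx => ⟨hKT x hx.1, hIT x hx.2⟩))
    have h1 := Submodule.finrank_map_le S (LinearMap.ker N ⊓ LinearMap.range N)
    have h2 : finrank F ↥(LinearMap.ker N ⊓ LinearMap.range N) ≤ finrank F (LinearMap.ker N) :=
      Submodule.finrank_mono inf_le_left
    have h3 : finrank F ↥(LinearMap.ker N ⊓ LinearMap.range N) ≤ finrank F (LinearMap.range N) :=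
      Submodule.finrank_mono inf_le_right
    omega

end core

section card

variable (F : Type*) [Field F] [Fintype F]

theorem sub_one_dvd_card_SL (m : ℕ) (hm : 2 ≤ m) :
    Fintype.card F - 1 ∣ Nat.card (Matrix.SpecialLinearGroup (Fin m) F) := by
  have hq : 2 ≤ Fintype.card F := Fintype.one_lt_card
  have h1 := SLCard.card_SL F m (by omega)
  have h2 : (Fintype.card F - 1) ^ m
      ∣ ∏ i : Fin m, (Fintype.card F ^ m - Fintype.card F ^ (i : ℕ)) := by
    have e : (Fintype.card F - 1) ^ m = ∏ _i : Fin m, (Fintype.card F - 1) := by simp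
    rw [e]
    apply Finset.prod_dvd_prod_of_dvd
    intro i _
    have hi : (i : ℕ) ≤ m := i.2.le
    have e2 : Fintype.card F ^ m - Fintype.card F ^ (i : ℕ)
        = Fintype.card F ^ (i : ℕ) * (Fintype.card F ^ (m - i) - 1) := by
      rw [Nat.mul_sub, mul_one, ← pow_add, Nat.add_sub_cancel' hi]
    rw [e2]
    apply Dvd.dvd.mul_left
    have h3 := Nat.sub_dvd_pow_sub_pow (x := Fintype.card F) (y := 1) (n := m - i)
    rwa [one_pow] at h3
  rw [← h1] at h2
  obtain ⟨m', rfl⟩ : ∃ m', m = m' + 1 := ⟨m - 1, by omega⟩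
  rw [pow_succ, mul_comm] at h2
  have h3 := Nat.dvd_of_mul_dvd_mul_left (by omega) h2
  exact dvd_trans (dvd_pow_self _ (by omega)) h3

theorem dvd_card_SL (m : ℕ) (hm : 2 ≤ m) (r : ℕ) (hr : r.Prime) (j : ℕ) (hj1 : 1 ≤ j)
    (hjm : j ≤ m) (h : r ∣ Fintype.card F ^ j - 1) :
    r ∣ Nat.card (Matrix.SpecialLinearGroup (Fin m) F) := by
  by_cases h1 : r ∣ Fintype.card F - 1
  · exact dvd_trans h1 (sub_one_dvd_card_SL F m hm)
  · have h2 := SLCard.card_SL F m (by omega)
    have h3 : r ∣ ∏ i : Fin m, (Fintype.card F ^ m - Fintype.card F ^ (i : ℕ)) := by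
      apply dvd_trans _ (Finset.dvd_prod_of_mem _ (Finset.mem_univ (⟨m - j, by omega⟩ : Fin m)))
      have e : Fintype.card F ^ m - Fintype.card F ^ (m - j)
          = Fintype.card F ^ (m - j) * (Fintype.card F ^ j - 1) := by
        rw [Nat.mul_sub, mul_one, ← pow_add, Nat.sub_add_cancel hjm]
      change r ∣ Fintype.card F ^ m - Fintype.card F ^ (m - j)
      rw [e]
      exact Dvd.dvd.mul_left h _
    rw [← h2] at h3
    exact (hr.dvd_mul.mp h3).resolve_left h1

theorem char_dvd_card_SL (p : ℕ) [hp : Fact p.Prime] [CharP F p] (m : ℕ) (hm : 2 ≤ m) :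
    p ∣ Nat.card (Matrix.SpecialLinearGroup (Fin m) F) := by
  have hpq : p ∣ Fintype.card F := (CharP.cast_eq_zero_iff F p _).mp (Nat.cast_card_eq_zero F)
  have h2 := SLCard.card_SL F m (by omega)
  have h3 : p ∣ ∏ i : Fin m, (Fintype.card F ^ m - Fintype.card F ^ (i : ℕ)) := by
    apply dvd_trans _ (Finset.dvd_prod_of_mem _ (Finset.mem_univ (⟨1, by omega⟩ : Fin m)))
    change p ∣ Fintype.card F ^ m - Fintype.card F ^ 1
    exact Nat.dvd_sub (dvd_pow hpq (by omega)) (dvd_pow hpq one_ne_zero)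
  rw [← h2] at h3
  refine (hp.out.dvd_mul.mp h3).resolve_left ?_
  intro h
  have hq : 1 ≤ Fintype.card F := Fintype.card_pos
  have h4 := Nat.dvd_sub hpq h
  rw [Nat.sub_sub_self hq] at h4
  exact hp.out.one_lt.ne' (Nat.dvd_one.mp h4)

end card

section main

variable {F : Type*} [Field F] [Fintype F]

theorem center_pow {n : ℕ} [NeZero n] (c : Matrix.SpecialLinearGroup (Fin n) F)
    (hc : c ∈ Subgroup.center (Matrix.SpecialLinearGroup (Fin n) F)) :
    c ^ (Fintype.card F - 1) = 1 := by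
  obtain ⟨l, hl, hcl⟩ := Matrix.SpecialLinearGroup.mem_center_iff.mp hc
  have hl0 : l ≠ 0 := by
    rintro rfl
    rw [Fintype.card_fin, zero_pow (NeZero.ne n)] at hl
    exact zero_ne_one hl
  apply Subtype.ext
  rw [Matrix.SpecialLinearGroup.coe_pow, ← hcl, ← map_pow,
    FiniteField.pow_card_sub_one_eq_one l hl0, map_one]
  rfl

theorem main (p : ℕ) [hp : Fact p.Prime] [CharP F p] (n : ℕ) (hn : 4 ≤ n)
    (a b : Matrix.ProjectiveSpecialLinearGroup (Fin n) F) (ha : orderOf a = p)
    (hab : Commute a b) (r : ℕ) (hr : r.Prime) (hrb : r ∣ orderOf b) :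
    r ∣ Nat.card (Matrix.SpecialLinearGroup (Fin (n - 2)) F) := by
  classical
  by_cases hrp : r = p
  · subst hrp
    exact char_dvd_card_SL F r (n - 2) (by omega)
  have hq2 : 2 ≤ Fintype.card F := Fintype.one_lt_card
  have hpq : p ∣ Fintype.card F := (CharP.cast_eq_zero_iff F p _).mp (Nat.cast_card_eq_zero F)
  have hn0 : NeZero n := ⟨by omega⟩
  have hne : Nonempty (Fin n) := ⟨⟨0, by omega⟩⟩
  obtain ⟨A, rfl⟩ := QuotientGroup.mk_surjective a
  obtain ⟨B, rfl⟩ := QuotientGroup.mk_surjective b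
  have hcen : ∀ g : Matrix.SpecialLinearGroup (Fin n) F,
      (QuotientGroup.mk g : Matrix.ProjectiveSpecialLinearGroup (Fin n) F) = 1
        ↔ g ∈ Subgroup.center (Matrix.SpecialLinearGroup (Fin n) F) :=
    fun g => QuotientGroup.eq_one_iff g
  -- the commutator is central
  have hc : B * A * B⁻¹ * A⁻¹ ∈ Subgroup.center (Matrix.SpecialLinearGroup (Fin n) F) := by
    rw [← hcen]
    have h1 := hab.eq
    rw [QuotientGroup.mk_mul, QuotientGroup.mk_mul, QuotientGroup.mk_mul, QuotientGroup.mk_inv,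
      QuotientGroup.mk_inv, ← h1]
    group
  obtain ⟨c, hc', hcdef⟩ : ∃ c, c ∈ Subgroup.center (Matrix.SpecialLinearGroup (Fin n) F)
      ∧ B * A * B⁻¹ = c * A := ⟨_, hc, by group⟩
  have hUB : B * A ^ (Fintype.card F - 1) * B⁻¹ = A ^ (Fintype.card F - 1) := by
    rw [← conj_pow, hcdef,
      (show Commute c A from (Subgroup.mem_center_iff.mp hc' A).symm).mul_pow, center_pow c hc',
      one_mul]
  obtain ⟨U, hU⟩ : ∃ U : Matrix.SpecialLinearGroup (Fin n) F, U = A ^ (Fintype.card F - 1) :=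
    ⟨_, rfl⟩
  rw [← hU] at hUB
  have hUcomm : B * U = U * B := by
    have : B * U = (B * U * B⁻¹) * B := by group
    rw [this, hUB]
  have hUp : U ^ p = 1 := by
    have h1 : A ^ p ∈ Subgroup.center (Matrix.SpecialLinearGroup (Fin n) F) := by
      rw [← hcen, QuotientGroup.mk_pow, ← ha, pow_orderOf_eq_one]
    rw [hU, ← pow_mul, mul_comm, pow_mul]
    exact center_pow _ h1
  have hU1 : U ≠ 1 := by
    intro h
    have h1 : (QuotientGroup.mk A : Matrix.ProjectiveSpecialLinearGroup (Fin n) F)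
        ^ (Fintype.card F - 1) = 1 := by
      rw [← QuotientGroup.mk_pow, ← hU, h]
      rfl
    have h2 : p ∣ Fintype.card F - 1 := by
      rw [← ha]
      exact orderOf_dvd_of_pow_eq_one h1
    have h3 := Nat.dvd_sub hpq h2
    rw [Nat.sub_sub_self (by omega)] at h3
    exact hp.out.one_lt.ne' (Nat.dvd_one.mp h3)
  -- the element of order r
  have hob : 0 < orderOf (QuotientGroup.mk B : Matrix.ProjectiveSpecialLinearGroup (Fin n) F) :=
    orderOf_pos _
  obtain ⟨k, hk⟩ := hrb
  have hk0 : 0 < k := by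
    rcases Nat.eq_zero_or_pos k with h | h
    · rw [h, mul_zero] at hk; omega
    · exact h
  obtain ⟨B₀, hB₀⟩ : ∃ B₀ : Matrix.SpecialLinearGroup (Fin n) F, B₀ = B ^ k := ⟨_, rfl⟩
  have hB₀r : B₀ ^ r ∈ Subgroup.center (Matrix.SpecialLinearGroup (Fin n) F) := by
    rw [← hcen, hB₀, ← pow_mul, mul_comm, ← hk, QuotientGroup.mk_pow, pow_orderOf_eq_one]
  have hB₀c : B₀ ∉ Subgroup.center (Matrix.SpecialLinearGroup (Fin n) F) := by
    rw [← hcen, hB₀, QuotientGroup.mk_pow]
    apply pow_ne_one_of_lt_orderOf hk0.ne'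
    rw [hk]
    have := hr.two_le
    nlinarith
  have hB₀U : B₀ * U = U * B₀ := by
    rw [hB₀]
    exact ((Commute.pow_left (show Commute B U from hUcomm) k)).eq
  by_cases hrq : r ∣ Fintype.card F - 1
  · exact dvd_card_SL F (n - 2) (by omega) r hr 1 le_rfl (by omega) (by rw [pow_one]; exact hrq)
  obtain ⟨μ, hμ, hμB⟩ := Matrix.SpecialLinearGroup.mem_center_iff.mp hB₀r
  have hμ0 : μ ≠ 0 := by
    rintro rfl
    rw [Fintype.card_fin, zero_pow (NeZero.ne n)] at hμ
    exact zero_ne_one hμ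
  have hcop : (Nat.card Fˣ).Coprime r := by
    rw [Nat.card_units, Nat.card_eq_fintype_card, Nat.coprime_comm]
    exact (Nat.Prime.coprime_iff_not_dvd hr).mpr hrq
  obtain ⟨ν', hν'⟩ := (powCoprime hcop).surjective (Units.mk0 μ hμ0)
  have hν : (ν' : F) ^ r = μ := by
    have := congrArg Units.val hν'
    simpa using this
  have hν0 : (ν' : F) ≠ 0 := ν'.ne_zero
  obtain ⟨Tm, hTm⟩ : ∃ Tm : Matrix (Fin n) (Fin n) F, Tm = (ν' : F)⁻¹ • B₀.val := ⟨_, rfl⟩
  have hTmr : Tm ^ r = 1 := by
    rw [hTm, smul_pow, ← Matrix.SpecialLinearGroup.coe_pow, ← hμB, inv_pow, hν,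
      Matrix.scalar_apply, ← Matrix.smul_one_eq_diagonal, smul_smul, inv_mul_cancel₀ hμ0,
      one_smul]
  have hTm1 : Tm ≠ 1 := by
    intro h
    apply hB₀c
    rw [Matrix.SpecialLinearGroup.mem_center_iff]
    have hB : B₀.val = (ν' : F) • (1 : Matrix (Fin n) (Fin n) F) := by
      rw [← h, hTm, smul_smul, mul_inv_cancel₀ hν0, one_smul]
    refine ⟨(ν' : F), ?_, ?_⟩
    · have hdet := B₀.2
      rw [hB, Matrix.det_smul, Matrix.det_one, mul_one] at hdet
      exact hdet
    · rw [hB, Matrix.scalar_apply, Matrix.smul_one_eq_diagonal]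
  have hTU : (U.val - 1) * Tm = Tm * (U.val - 1) := by
    have h1 : B₀.val * U.val = U.val * B₀.val := by
      rw [← Matrix.SpecialLinearGroup.coe_mul, ← Matrix.SpecialLinearGroup.coe_mul, hB₀U]
    rw [hTm, sub_mul, mul_sub, one_mul, mul_one, Matrix.mul_smul, Matrix.smul_mul, h1]
  have hUnil : (U.val - 1) ^ p = 0 := by
    rw [sub_pow_char_of_commute p (Commute.one_right U.val), one_pow,
      ← Matrix.SpecialLinearGroup.coe_pow, hUp]
    exact sub_self _
  have hU0 : U.val - 1 ≠ 0 := by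
    intro h
    apply hU1
    apply Subtype.ext
    exact sub_eq_zero.mp h
  have hrF : (r : F) ≠ 0 := by
    intro h
    have h1 := (CharP.cast_eq_zero_iff F p r).mp h
    exact hrp ((Nat.prime_dvd_prime_iff_eq hp.out hr).mp h1).symm
  obtain ⟨j, hj1, hj2, hj3⟩ := core
    (Matrix.toLinAlgEquiv' (U.val - 1)) (Matrix.toLinAlgEquiv' Tm) r hr hrF
    (by rw [← map_pow, hTmr, map_one])
    (by
      intro h
      apply hTm1
      apply Matrix.toLinAlgEquiv'.injective
      rw [h, map_one])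
    (by
      intro h
      apply hU0
      apply Matrix.toLinAlgEquiv'.injective
      rw [h, map_zero])
    ⟨p, by rw [← map_pow, hUnil, map_zero]⟩
    (by rw [← map_mul, ← map_mul, hTU])
    (by rw [Module.finrank_fin_fun]; exact hn)
  rw [Module.finrank_fin_fun] at hj2
  exact dvd_card_SL F (n - 2) (by omega) r hr j hj1 (by omega) hj3

end main

end Cfsg.Agent.Lib.helper2.PSLComm
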