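import Mathlib
import Cfsg.Agent.S2588
import Cfsg.Agent.S0277
import Cfsg.Agent.S0278
import Cfsg.Agent.S0279
import Cfsg.Agent.Lib.helper2.PSLComm

set_option autoImplicit false

/-!
Elements of `PSU_n(q)` commuting with an element of order `p`: prime divisors of their orders.
-/

namespace Cfsg.Agent.Lib.helper2.PSUComm

open Module

section forms

variable {F : Type*} [Field F]

theorem sum_left {X : Type*} [AddCommGroup X] [Module F X] (β : X → X → F)
    (hadd1 : ∀ x y z, β (x + y) z = β x z + β y z)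
    (hsmul1 : ∀ (c : F) x y, β (c • x) y = c * β x y)
    {ι : Type*} (s : Finset ι) (c : ι → F) (x : ι → X) (y : X) :
    β (∑ i ∈ s, c i • x i) y = ∑ i ∈ s, c i * β (x i) y := by
  classical
  have h0 : β 0 y = 0 := by
    have := hsmul1 0 0 y
    rw [zero_smul, zero_mul] at this
    exact this
  induction s using Finset.induction_on with
  | empty => simp [h0]
  | insert a s ha ih => rw [Finset.sum_insert ha, Finset.sum_insert ha, hadd1, hsmul1, ih]

theorem sum_right {X : Type*} [AddCommGroup X] [Module F X] (q : ℕ) (hq : q ≠ 0) (β : X → X → F)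
    (hadd2 : ∀ x y z, β x (y + z) = β x y + β x z)
    (hsmul2 : ∀ (c : F) x y, β x (c • y) = c ^ q * β x y)
    {ι : Type*} (s : Finset ι) (c : ι → F) (x : X) (y : ι → X) :
    β x (∑ i ∈ s, c i • y i) = ∑ i ∈ s, c i ^ q * β x (y i) := by
  classical
  have h0 : β x 0 = 0 := by
    have := hsmul2 0 x 0
    rw [zero_smul, zero_pow hq, zero_mul] at this
    exact this
  induction s using Finset.induction_on with
  | empty => simp [h0]
  | insert a s ha ih => rw [Finset.sum_insert ha, Finset.sum_insert ha, hadd2, hsmul2, ih]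

end forms

section lemL

variable {F V : Type*} [Field F] [Fintype F] [AddCommGroup V] [Module F V]
  [FiniteDimensional F V]

theorem lemL (q : ℕ) (hF : Fintype.card F = q ^ 2) (T : Module.End F V) (r : ℕ) (hr : r.Prime)
    (hrq : ¬ r ∣ q) (hT : T ^ r = 1) (X : Submodule F V) (hXT : ∀ x ∈ X, T x ∈ X)
    (hX1 : ∃ x ∈ X, T x ≠ x) (β : V → V → F)
    (hadd1 : ∀ x ∈ X, ∀ y ∈ X, ∀ z ∈ X, β (x + y) z = β x z + β y z)
    (hsmul1 : ∀ (c : F), ∀ x ∈ X, ∀ y ∈ X, β (c • x) y = c * β x y)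
    (hadd2 : ∀ x ∈ X, ∀ y ∈ X, ∀ z ∈ X, β x (y + z) = β x y + β x z)
    (hsmul2 : ∀ (c : F), ∀ x ∈ X, ∀ y ∈ X, β x (c • y) = c ^ q * β x y)
    (hnd : ∀ x ∈ X, (∀ y ∈ X, β x y = 0) → x = 0)
    (hinv : ∀ x ∈ X, ∀ y ∈ X, β (T x) (T y) = β x y) :
    ∃ i, i < finrank F X ∧ r ∣ (if Even i then q ^ (i + 1) + 1 else q ^ (i + 1) - 1) := by
  classical
  have hq0 : q ≠ 0 := by
    rintro rfl
    have := Fintype.card_pos (α := F)
    rw [hF] at this
    simp at this
  obtain ⟨d, hd⟩ : ∃ d, d = finrank F X := ⟨_, rfl⟩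
  rw [← hd]
  let b : Basis (Fin d) F X := (Module.finBasis F X).reindex (finCongr hd.symm)
  obtain ⟨β', hβ'⟩ : ∃ β' : X → X → F, ∀ x y, β' x y = β x y := ⟨fun x y => β x y, fun _ _ => rfl⟩
  have hadd1' : ∀ x y z, β' (x + y) z = β' x z + β' y z := by
    intro x y z
    rw [hβ', hβ', hβ']
    exact hadd1 x x.2 y y.2 z z.2
  have hsmul1' : ∀ (c : F) x y, β' (c • x) y = c * β' x y := by
    intro c x y
    rw [hβ', hβ']
    exact hsmul1 c x x.2 y y.2
  have hadd2' : ∀ x y z, β' x (y + z) = β' x y + β' x z := by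
    intro x y z
    rw [hβ', hβ', hβ']
    exact hadd2 x x.2 y y.2 z z.2
  have hsmul2' : ∀ (c : F) x y, β' x (c • y) = c ^ q * β' x y := by
    intro c x y
    rw [hβ', hβ']
    exact hsmul2 c x x.2 y y.2
  have hnd' : ∀ x, (∀ y, β' x y = 0) → x = 0 := by
    intro x hx
    apply Subtype.ext
    apply hnd x x.2
    intro y hy
    have := hx ⟨y, hy⟩
    rw [hβ'] at this
    exact this
  obtain ⟨TX, hTX⟩ : ∃ TX : X →ₗ[F] X, ∀ x : X, (TX x : V) = T x :=
    ⟨T.restrict hXT, fun x => rfl⟩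
  have hinv' : ∀ x y, β' (TX x) (TX y) = β' x y := by
    intro x y
    rw [hβ', hβ', hTX, hTX]
    exact hinv x x.2 y y.2
  have hTXpow : ∀ k : ℕ, ∀ x : X, (((TX ^ k) x : X) : V) = (T ^ k) x := by
    intro k
    induction k with
    | zero => intro x; rfl
    | succ k ih =>
      intro x
      rw [pow_succ, pow_succ, Module.End.mul_apply, Module.End.mul_apply, ih, hTX]
  have hTXr : TX ^ r = 1 := by
    apply LinearMap.ext
    intro x
    apply Subtype.ext
    rw [hTXpow, hT]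
    rfl
  have hTX1 : TX ≠ 1 := by
    intro h
    obtain ⟨x, hx, hxT⟩ := hX1
    apply hxT
    have := hTX ⟨x, hx⟩
    rw [h] at this
    exact this.symm
  obtain ⟨A, hA⟩ : ∃ A : Matrix (Fin d) (Fin d) F, A = LinearMap.toMatrixAlgEquiv b TX :=
    ⟨_, rfl⟩
  have hAr : A ^ r = 1 := by rw [hA, ← map_pow, hTXr, map_one]
  have hA1 : A ≠ 1 := by
    intro h
    apply hTX1
    apply (LinearMap.toMatrixAlgEquiv b).injective
    rw [← hA, h, map_one]
  have hTXb : ∀ j, TX (b j) = ∑ i, A i j • b i := by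
    intro j
    rw [hA]
    simp only [LinearMap.toMatrixAlgEquiv_apply]
    exact (b.sum_repr (TX (b j))).symm
  obtain ⟨G, hG⟩ : ∃ G : Matrix (Fin d) (Fin d) F, ∀ i j, G i j = β' (b i) (b j) :=
    ⟨Matrix.of fun i j => β' (b i) (b j), fun _ _ => rfl⟩
  have e1 : A.transpose * G * A.map (fun x => x ^ q) = G := by
    ext i j
    rw [hG i j, ← hinv' (b i) (b j), hTXb, hTXb, sum_left β' hadd1' hsmul1']
    simp only [sum_right q hq0 β' hadd2' hsmul2', Matrix.mul_apply, Matrix.transpose_apply,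
      Matrix.map_apply, ← hG, Finset.sum_mul, Finset.mul_sum]
    rw [Finset.sum_comm]
    refine Finset.sum_congr rfl fun k _ => Finset.sum_congr rfl fun l _ => ?_
    ring
  have hGu : IsUnit G := by
    rw [← Matrix.vecMul_injective_iff_isUnit]
    intro c c' hcc
    have h0 : Matrix.vecMul (c - c') G = 0 := by
      rw [Matrix.sub_vecMul]
      exact sub_eq_zero.mpr hcc
    have hx : (∑ k, (c - c') k • b k) = 0 := by
      apply hnd'
      intro y
      rw [← b.sum_repr y, sum_right q hq0 β' hadd2' hsmul2']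
      apply Finset.sum_eq_zero
      intro l _
      rw [sum_left β' hadd1' hsmul1']
      have := congrFun h0 l
      simp only [Matrix.vecMul, dotProduct, Pi.zero_apply] at this
      simp only [← hG]
      rw [this, mul_zero]
    have h2 : (b.repr (∑ k, (c - c') k • b k) : Fin d → F) = c - c' := b.repr_sum_self _
    rw [hx, map_zero, Finsupp.coe_zero] at h2
    exact sub_eq_zero.mp h2.symm
  have hGdet : IsUnit G.transpose.det := by
    rw [Matrix.det_transpose]
    exact (Matrix.isUnit_iff_isUnit_det G).mp hGu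
  have e2 : (A.map (fun x => x ^ q)).transpose * (G.transpose * A * G.transpose⁻¹) = 1 := by
    have e3 : (A.map (fun x => x ^ q)).transpose * G.transpose * A = G.transpose := by
      have := congrArg Matrix.transpose e1
      rw [Matrix.transpose_mul, Matrix.transpose_mul, Matrix.transpose_transpose,
        ← mul_assoc] at this
      exact this
    rw [← mul_assoc, ← mul_assoc, e3, Matrix.mul_nonsing_inv _ hGdet]
  have e4 : ((A.map (fun x => x ^ q)).transpose)⁻¹ = G.transpose * A * G.transpose⁻¹ :=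
    Matrix.inv_eq_right_inv e2
  obtain ⟨Ag, hAg⟩ : ∃ Ag : GL (Fin d) F, (Ag : Matrix (Fin d) (Fin d) F) = A := by
    have hr0 : r - 1 + 1 = r := Nat.sub_add_cancel hr.one_lt.le
    refine ⟨⟨A, A ^ (r - 1), ?_, ?_⟩, rfl⟩
    · rw [← pow_succ', hr0, hAr]
    · rw [← pow_succ, hr0, hAr]
  have hconj : IsConj (Ag : Matrix (Fin d) (Fin d) F)
      (((Ag : Matrix (Fin d) (Fin d) F).map (fun x : F => x ^ q)).transpose)⁻¹ := by
    rw [hAg, e4]
    refine ⟨(Matrix.isUnit_iff_isUnit_det _).mpr hGdet |>.unit, ?_⟩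
    change G.transpose * A = G.transpose * A * G.transpose⁻¹ * G.transpose
    rw [mul_assoc (G.transpose * A), Matrix.nonsing_inv_mul _ hGdet, mul_one]
  obtain ⟨B, hB⟩ := (Cfsg.Agent.S2588.result hF Ag).mpr hconj
  obtain ⟨g, hg⟩ := isConj_iff.mp hB
  have hAgr : Ag ^ r = 1 := by
    apply Units.ext
    rw [Units.val_pow_eq_pow_val, hAg, hAr]
    rfl
  have hAg1 : Ag ≠ 1 := by
    intro h
    apply hA1
    rw [← hAg, h]
    rfl
  have hBr : B ^ r = 1 := by
    apply Subtype.ext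
    rw [Subgroup.coe_pow, ← hg, conj_pow, hAgr, mul_one, mul_inv_cancel]
    rfl
  have hB1 : B ≠ 1 := by
    intro h
    apply hAg1
    have h1 : g * Ag * g⁻¹ = 1 := by rw [hg, h]; rfl
    have h2 : Ag = g⁻¹ * (g * Ag * g⁻¹) * g := by group
    rw [h2, h1]
    group
  have hrf : Fact r.Prime := ⟨hr⟩
  have hoB : orderOf B = r := orderOf_eq_prime hBr hB1
  have hdvd : r ∣ Nat.card (Cfsg.GU d F q) := by
    rw [← hoB]
    exact orderOf_dvd_natCard B
  rw [Cfsg.Agent.S0277.result hF d] at hdvd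
  rcases (Nat.Prime.dvd_mul hr).mp hdvd with h | h
  · exact absurd (hr.dvd_of_dvd_pow h) hrq
  · obtain ⟨i, hi, hi2⟩ := (Nat.Prime.prime hr).exists_mem_finset_dvd h
    exact ⟨i, Finset.mem_range.mp hi, hi2⟩

end lemL

section coreU

variable {F V : Type*} [Field F] [Fintype F] [AddCommGroup V] [Module F V]
  [FiniteDimensional F V]

omit [Fintype F] in
theorem nil_map_lt (N : Module.End F V) (hNnil : IsNilpotent N) (Y : Submodule F V)
    (hY0 : Y ≠ ⊥) (hYN : Y.map N ≤ Y) : finrank F (Y.map N) < finrank F Y := by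
  by_contra hcon
  push Not at hcon
  have heq : Y.map N = Y := Submodule.eq_of_le_of_finrank_le hYN hcon
  obtain ⟨k, hk⟩ := hNnil
  have hind : ∀ k : ℕ, ∀ y ∈ Y, ∃ y' ∈ Y, (N ^ k) y' = y := by
    intro k
    induction k with
    | zero => intro y hy; exact ⟨y, hy, rfl⟩
    | succ k ih =>
      intro y hy
      rw [← heq] at hy
      obtain ⟨y₁, hy₁, rfl⟩ := hy
      obtain ⟨y₂, hy₂, rfl⟩ := ih y₁ hy₁
      exact ⟨y₂, hy₂, by rw [pow_succ', Module.End.mul_apply]⟩
  apply hY0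
  rw [Submodule.eq_bot_iff]
  intro y hy
  obtain ⟨y', -, rfl⟩ := hind k y hy
  rw [hk]
  rfl

theorem coreU (q : ℕ) (hF : Fintype.card F = q ^ 2) (h : V → V → F)
    (hadd1 : ∀ x y z, h (x + y) z = h x z + h y z)
    (hsmul1 : ∀ (c : F) x y, h (c • x) y = c * h x y)
    (hadd2 : ∀ x y z, h x (y + z) = h x y + h x z)
    (hsmul2 : ∀ (c : F) x y, h x (c • y) = c ^ q * h x y)
    (hnd : ∀ x, (∀ y, h x y = 0) → x = 0)
    (N T : Module.End F V) (r : ℕ) (hr : r.Prime) (hrF : (r : F) ≠ 0) (hrq : ¬ r ∣ q)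
    (hT : T ^ r = 1) (hT1 : T ≠ 1) (hN0 : N ≠ 0) (hNnil : IsNilpotent N)
    (hcomm : N * T = T * N)
    (hTh : ∀ x y, h (T x) (T y) = h x y)
    (hUh : ∀ x y, h (x + N x) (y + N y) = h x y)
    (hn : 4 ≤ finrank F V) :
    ∃ i, i + 3 ≤ finrank F V ∧ r ∣ (if Even i then q ^ (i + 1) + 1 else q ^ (i + 1) - 1) := by
  classical
  have hq0 : q ≠ 0 := by
    rintro rfl
    have := Fintype.card_pos (α := F)
    rw [hF] at this
    simp at this
  have hrf : Fact r.Prime := ⟨hr⟩
  obtain ⟨S, hS⟩ : ∃ S : Module.End F V, S = T - 1 := ⟨_, rfl⟩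
  have hSa : ∀ x, S x = T x - x := fun x => by rw [hS]; rfl
  have hNT' : ∀ x, N (T x) = T (N x) := fun x => by
    have := congrArg (fun f : Module.End F V => f x) hcomm
    simpa [Module.End.mul_apply] using this
  have hST' : ∀ x, S (T x) = T (S x) := fun x => by rw [hSa, hSa, map_sub]
  have hSN' : ∀ x, S (N x) = N (S x) := fun x => by rw [hSa, hSa, map_sub, hNT']
  have hfixS : ∀ x, S x = 0 → T x = x := fun x hx => by
    rw [hSa] at hx
    exact sub_eq_zero.mp hx
  obtain ⟨M, hM⟩ : ∃ M : Submodule F V, M = LinearMap.range S := ⟨_, rfl⟩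
  obtain ⟨C, hC⟩ : ∃ C : Submodule F V, C = LinearMap.ker S := ⟨_, rfl⟩
  have hMmem : ∀ x, x ∈ M ↔ ∃ z, S z = x := by
    intro x; rw [hM]; exact LinearMap.mem_range
  have hCmem : ∀ x, x ∈ C ↔ S x = 0 := by
    intro x; rw [hC]; exact LinearMap.mem_ker
  have hMfix : ∀ x ∈ M, T x = x → x = 0 := by
    intro x hx hfix
    obtain ⟨z, rfl⟩ := (hMmem x).mp hx
    exact PSLComm.ker_inf_range T r hrF hT _ hfix ⟨z, hSa z⟩
  have hMT : ∀ x ∈ M, T x ∈ M := by
    intro x hx
    obtain ⟨z, rfl⟩ := (hMmem x).mp hx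
    exact (hMmem _).mpr ⟨T z, hST' z⟩
  have hMN : ∀ x ∈ M, N x ∈ M := by
    intro x hx
    obtain ⟨z, rfl⟩ := (hMmem x).mp hx
    exact (hMmem _).mpr ⟨N z, hSN' z⟩
  have hCN : ∀ x ∈ C, N x ∈ C := by
    intro x hx
    rw [hCmem] at hx ⊢
    rw [hSN', hx, map_zero]
  have hdimCM : finrank F C + finrank F M = finrank F V := by
    rw [hC, hM, add_comm]
    exact LinearMap.finrank_range_add_finrank_ker S
  have hCMinf : C ⊓ M = ⊥ := by
    rw [Submodule.eq_bot_iff]
    rintro x ⟨hxC, hxM⟩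
    exact hMfix x hxM (hfixS x ((hCmem x).mp hxC))
  have hCMsup : C ⊔ M = ⊤ := by
    apply Submodule.eq_top_of_finrank_eq
    have := Submodule.finrank_sup_add_finrank_inf_eq C M
    rw [hCMinf, finrank_bot, add_zero] at this
    rw [this, hdimCM]
  have hdecomp : ∀ v : V, ∃ c ∈ C, ∃ z ∈ M, c + z = v := by
    intro v
    have : v ∈ C ⊔ M := by rw [hCMsup]; exact Submodule.mem_top
    exact Submodule.mem_sup.mp this
  have hM0 : M ≠ ⊥ := by
    intro h0
    apply hT1
    ext v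
    have : S v ∈ M := (hMmem _).mpr ⟨v, rfl⟩
    rw [h0, Submodule.mem_bot] at this
    exact hfixS v this
  have hsub1 : ∀ x y z, h (x - y) z = h x z - h y z := by
    intro x y z
    have := hadd1 (x - y) y z
    rw [sub_add_cancel] at this
    rw [this, add_sub_cancel_right]
  have hperp : ∀ x ∈ M, ∀ c ∈ C, h x c = 0 := by
    intro x hx c hc
    obtain ⟨z, rfl⟩ := (hMmem x).mp hx
    have hc' : T c = c := hfixS c ((hCmem c).mp hc)
    have e : h (T z) c = h z c := by
      have := hTh z c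
      rw [hc'] at this
      exact this
    rw [hSa, hsub1, e, sub_self]
  have hq1 : ∀ j : ℕ, 1 ≤ (q ^ 2) ^ j := fun j => Nat.one_le_pow _ _ (by positivity)
  have hdvd_iff : ∀ j : ℕ, r ∣ (q ^ 2) ^ j - 1 ↔ ((q : ZMod r) ^ 2) ^ j = 1 := by
    intro j
    rw [← ZMod.natCast_eq_zero_iff, Nat.cast_sub (hq1 j), Nat.cast_one, Nat.cast_pow,
      Nat.cast_pow, sub_eq_zero]
  obtain ⟨d, hd⟩ : ∃ d, d = orderOf ((q : ZMod r) ^ 2) := ⟨_, rfl⟩
  have hfree : ∀ X : Submodule F V, X ≤ M → (∀ x ∈ X, T x ∈ X) → d ∣ finrank F X := by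
    intro X hXM hXT
    have h1 := PSLComm.dvd_of_fixed_free T r hr hT X hXT
      (fun x hx hfix => hMfix x (hXM hx) hfix)
    rw [hF, hdvd_iff] at h1
    rw [hd]
    exact orderOf_dvd_of_pow_eq_one h1
  have hMpos : 0 < finrank F M := by
    rw [Nat.pos_iff_ne_zero]
    intro h0
    exact hM0 (Submodule.finrank_eq_zero.mp h0)
  have hdM := hfree M le_rfl hMT
  have hd1 : 1 ≤ d := by
    rcases Nat.eq_zero_or_pos d with h0 | h0
    · rw [h0, zero_dvd_iff] at hdM; omega
    · exact h0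
  have hdr : r ∣ (q ^ 2) ^ d - 1 := by
    rw [hdvd_iff, hd]
    exact pow_orderOf_eq_one _
  have E1 : 2 * d + 2 ≤ finrank F V → ∃ i, i + 3 ≤ finrank F V
      ∧ r ∣ (if Even i then q ^ (i + 1) + 1 else q ^ (i + 1) - 1) := by
    intro h2
    refine ⟨2 * d - 1, by omega, ?_⟩
    have hodd : ¬ Even (2 * d - 1) := by
      rw [Nat.not_even_iff_odd]
      exact ⟨d - 1, by omega⟩
    rw [if_neg hodd, show 2 * d - 1 + 1 = 2 * d by omega, pow_mul]
    exact hdr
  have hmapT : ∀ Y : Submodule F V, (∀ x ∈ Y, T x ∈ Y) → ∀ x ∈ Y.map N, T x ∈ Y.map N := by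
    rintro Y hY x ⟨y, hy, rfl⟩
    exact ⟨T y, hY y hy, hNT' y⟩
  have hMNle : M.map N ≤ M := by
    rintro x ⟨y, hy, rfl⟩
    exact hMN y hy
  have hCsmall : finrank F C ≤ 1 → ∀ c ∈ C, N c = 0 := by
    intro hC1 c hc
    by_cases hC0 : C = ⊥
    · rw [hC0, Submodule.mem_bot] at hc
      rw [hc, map_zero]
    · have hle : C.map N ≤ C := by
        rintro x ⟨y, hy, rfl⟩
        exact hCN y hy
      have h1 := nil_map_lt N hNnil C hC0 hle
      have h0 : C.map N = ⊥ := Submodule.finrank_eq_zero.mp (by omega)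
      have h2 : N c ∈ C.map N := Submodule.mem_map_of_mem hc
      rw [h0, Submodule.mem_bot] at h2
      exact h2
  have hNne : (∀ c ∈ C, N c = 0) → (∀ x ∈ M, N x = 0) → False := by
    intro h1 h2
    apply hN0
    ext v
    obtain ⟨c, hc, z, hz, rfl⟩ := hdecomp v
    rw [map_add, h1 c hc, h2 z hz, add_zero]
    rfl
  have hsmall : ∀ Y : Submodule F V, Y ≤ M → (∀ x ∈ Y, T x ∈ Y) → finrank F Y < d → Y = ⊥ := by
    intro Y hYM hYT hlt
    apply Submodule.finrank_eq_zero.mp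
    obtain ⟨t, ht⟩ := hfree Y hYM hYT
    rcases Nat.eq_zero_or_pos t with h0 | h0
    · rw [ht, h0, mul_zero]
    · have : d * 1 ≤ d * t := Nat.mul_le_mul_left d h0
      omega
  have hmid : ∀ Y : Submodule F V, Y ≤ M → (∀ x ∈ Y, T x ∈ Y) → Y ≠ ⊥ → finrank F Y < d * 2 →
      finrank F Y = d := by
    intro Y hYM hYT hY0 hlt
    have h3 : 0 < finrank F Y := by
      rw [Nat.pos_iff_ne_zero]
      intro h0
      exact hY0 (Submodule.finrank_eq_zero.mp h0)
    obtain ⟨t, ht⟩ := hfree Y hYM hYT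
    have ht1 : t = 1 := by
      rcases Nat.lt_or_ge t 2 with h4 | h4
      · rcases Nat.eq_zero_or_pos t with h5 | h5
        · rw [h5, mul_zero] at ht; omega
        · omega
      · have : d * 2 ≤ d * t := Nat.mul_le_mul_left d h4
        omega
    rw [ht, ht1, mul_one]
  obtain ⟨k, hk⟩ := hdM
  have hk1 : 1 ≤ k := by
    rcases Nat.eq_zero_or_pos k with h0 | h0
    · rw [h0, mul_zero] at hk; omega
    · exact h0
  rcases Nat.lt_or_ge k 3 with hk3 | hk3
  swap
  · apply E1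
    have h3 : d * 3 ≤ d * k := Nat.mul_le_mul_left d hk3
    omega
  have hk12 : k = 1 ∨ k = 2 := by omega
  rcases hk12 with rfl | rfl
  · rw [mul_one] at hk
    have hMN0 : M.map N = ⊥ :=
      hsmall _ hMNle (hmapT M hMT) (by have := nil_map_lt N hNnil M hM0 hMNle; omega)
    have hNM : ∀ x ∈ M, N x = 0 := by
      intro x hx
      have h2 : N x ∈ M.map N := Submodule.mem_map_of_mem hx
      rw [hMN0, Submodule.mem_bot] at h2
      exact h2
    have hC2 : 2 ≤ finrank F C := by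
      by_contra hcon
      exact hNne (hCsmall (by omega)) hNM
    have hX1 : ∃ x ∈ M, T x ≠ x := by
      obtain ⟨x, hx, hx0⟩ := (Submodule.ne_bot_iff M).mp hM0
      exact ⟨x, hx, fun hfix => hx0 (hMfix x hx hfix)⟩
    have hndM : ∀ x ∈ M, (∀ y ∈ M, h x y = 0) → x = 0 := by
      intro x hx hxy
      apply hnd
      intro v
      obtain ⟨c, hc, z, hz, rfl⟩ := hdecomp v
      rw [hadd2, hperp x hx c hc, hxy z hz, add_zero]
    obtain ⟨i, hi, hi2⟩ := lemL q hF T r hr hrq hT M hMT hX1 h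
      (fun x _ y _ z _ => hadd1 x y z) (fun c x _ y _ => hsmul1 c x y)
      (fun x _ y _ z _ => hadd2 x y z) (fun c x _ y _ => hsmul2 c x y)
      hndM (fun x _ y _ => hTh x y)
    exact ⟨i, by omega, hi2⟩
  · by_cases hC2 : 2 ≤ finrank F C
    · apply E1
      omega
    have hNC : ∀ c ∈ C, N c = 0 := hCsmall (by omega)
    have hd2 : 2 ≤ d := by omega
    obtain ⟨R, hR⟩ : ∃ R : Submodule F V, R = M.map N := ⟨_, rfl⟩
    have hR0 : R ≠ ⊥ := by
      intro h0
      apply hNne hNC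
      intro x hx
      have h2 : N x ∈ R := by rw [hR]; exact Submodule.mem_map_of_mem hx
      rw [h0, Submodule.mem_bot] at h2
      exact h2
    have hRM : R ≤ M := by rw [hR]; exact hMNle
    have hRT : ∀ x ∈ R, T x ∈ R := by rw [hR]; exact hmapT M hMT
    have hRd : finrank F R = d := by
      apply hmid R hRM hRT hR0
      have h1 := nil_map_lt N hNnil M hM0 hMNle
      rw [← hR] at h1
      omega
    have hRN0 : R.map N = ⊥ := by
      have hle : R.map N ≤ R := by
        rw [hR]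
        exact Submodule.map_mono hMNle
      have h1 := nil_map_lt N hNnil R hR0 hle
      exact hsmall _ (hle.trans hRM) (hmapT R hRT) (by omega)
    have hNR : ∀ y ∈ R, N y = 0 := by
      intro y hy
      have h2 : N y ∈ R.map N := Submodule.mem_map_of_mem hy
      rw [hRN0, Submodule.mem_bot] at h2
      exact h2
    obtain ⟨X, hX⟩ : ∃ X : Submodule F V, X = M ⊓ LinearMap.ker N := ⟨_, rfl⟩
    have hXmem : ∀ x, x ∈ X ↔ x ∈ M ∧ N x = 0 := by
      intro x
      rw [hX, Submodule.mem_inf, LinearMap.mem_ker]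
    have hXM : X ≤ M := fun x hx => ((hXmem x).mp hx).1
    have hRX : R ≤ X := fun y hy => (hXmem y).mpr ⟨hRM hy, hNR y hy⟩
    have hXT : ∀ x ∈ X, T x ∈ X := by
      intro x hx
      rw [hXmem] at hx ⊢
      exact ⟨hMT x hx.1, by rw [hNT', hx.2, map_zero]⟩
    have hX0 : X ≠ ⊥ := by
      intro h0
      apply hR0
      rw [Submodule.eq_bot_iff]
      intro y hy
      have := hRX hy
      rw [h0, Submodule.mem_bot] at this
      exact this
    have hXd : finrank F X = d := by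
      apply hmid X hXM hXT hX0
      by_contra hcon
      push Not at hcon
      have hXeq : X = M := Submodule.eq_of_le_of_finrank_le hXM (by omega)
      apply hNne hNC
      intro x hx
      rw [← hXeq] at hx
      exact ((hXmem x).mp hx).2
    have hRXeq : R = X := Submodule.eq_of_le_of_finrank_eq hRX (by rw [hRd, hXd])
    have hpre : ∀ y : V, ∃ z : V, y ∈ X → (z ∈ M ∧ N z = y) := by
      intro y
      by_cases hy : y ∈ X
      · rw [← hRXeq, hR] at hy
        obtain ⟨z, hz, hzy⟩ := hy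
        exact ⟨z, fun _ => ⟨hz, hzy⟩⟩
      · exact ⟨0, fun h' => absurd h' hy⟩
    choose s hs using hpre
    have hiso : ∀ x ∈ X, ∀ w ∈ X, h x w = 0 := by
      intro x hx w hw
      obtain ⟨hz, hzw⟩ := hs w hw
      have h1 := hUh x (s w)
      rw [((hXmem x).mp hx).2, add_zero, hzw, hadd2] at h1
      have h2 : h x (s w) + h x w = h x (s w) + 0 := by rw [h1, add_zero]
      exact add_left_cancel h2
    have hker : ∀ x ∈ X, ∀ w ∈ M, N w = 0 → h x w = 0 :=
      fun x hx w hw hNw => hiso x hx w ((hXmem w).mpr ⟨hw, hNw⟩)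
    have hX1 : ∃ x ∈ X, T x ≠ x := by
      obtain ⟨x, hx, hx0⟩ := (Submodule.ne_bot_iff X).mp hX0
      exact ⟨x, hx, fun hfix => hx0 (hMfix x (hXM hx) hfix)⟩
    have hadd2β : ∀ x ∈ X, ∀ y ∈ X, ∀ z ∈ X, h x (s (y + z)) = h x (s y) + h x (s z) := by
      intro x hx y hy z hz
      have hyz : y + z ∈ X := X.add_mem hy hz
      have hw : h x (s (y + z) - (s y + s z)) = 0 := by
        apply hker x hx
        · exact M.sub_mem (hs _ hyz).1 (M.add_mem (hs y hy).1 (hs z hz).1)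
        · rw [map_sub, map_add, (hs _ hyz).2, (hs y hy).2, (hs z hz).2, sub_self]
      have e : s (y + z) = (s (y + z) - (s y + s z)) + (s y + s z) := (sub_add_cancel _ _).symm
      rw [e, hadd2, hw, zero_add, hadd2]
    have hsmul2β : ∀ (c : F), ∀ x ∈ X, ∀ y ∈ X, h x (s (c • y)) = c ^ q * h x (s y) := by
      intro c x hx y hy
      have hcy : c • y ∈ X := X.smul_mem c hy
      have hw : h x (s (c • y) - c • s y) = 0 := by
        apply hker x hx
        · exact M.sub_mem (hs _ hcy).1 (M.smul_mem c (hs y hy).1)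
        · rw [map_sub, map_smul, (hs _ hcy).2, (hs y hy).2, sub_self]
      have e : s (c • y) = (s (c • y) - c • s y) + c • s y := (sub_add_cancel _ _).symm
      rw [e, hadd2, hw, zero_add, hsmul2]
    have hndβ : ∀ x ∈ X, (∀ y ∈ X, h x (s y) = 0) → x = 0 := by
      intro x hx hxy
      apply hnd
      intro v
      obtain ⟨c, hc, z, hz, rfl⟩ := hdecomp v
      have hNz : N z ∈ X := by
        rw [← hRXeq, hR]
        exact Submodule.mem_map_of_mem hz
      have hw : h x (z - s (N z)) = 0 := by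
        apply hker x hx
        · exact M.sub_mem hz (hs _ hNz).1
        · rw [map_sub, (hs _ hNz).2, sub_self]
      have e : h x z = h x ((z - s (N z)) + s (N z)) := by rw [sub_add_cancel]
      rw [hadd2, hperp x (hXM hx) c hc, zero_add, e, hadd2, hw, zero_add]
      exact hxy (N z) hNz
    have hinvβ : ∀ x ∈ X, ∀ y ∈ X, h (T x) (s (T y)) = h x (s y) := by
      intro x hx y hy
      have hTy : T y ∈ X := hXT y hy
      have hw : h (T x) (s (T y) - T (s y)) = 0 := by
        apply hker (T x) (hXT x hx)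
        · exact M.sub_mem (hs _ hTy).1 (hMT _ (hs y hy).1)
        · rw [map_sub, (hs _ hTy).2, hNT', (hs y hy).2, sub_self]
      have e : s (T y) = (s (T y) - T (s y)) + T (s y) := (sub_add_cancel _ _).symm
      rw [e, hadd2, hw, zero_add, hTh]
    obtain ⟨i, hi, hi2⟩ := lemL q hF T r hr hrq hT X hXT hX1 (fun x y => h x (s y))
      (fun x _ y _ z _ => hadd1 x y (s z)) (fun c x _ y _ => hsmul1 c x (s y))
      hadd2β hsmul2β hndβ hinvβ
    exact ⟨i, by omega, hi2⟩

end coreU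

section card

variable (F : Type*) [Field F] [Fintype F]

theorem card_SU_eq (q : ℕ) (hF : Fintype.card F = q ^ 2) (n : ℕ) :
    Nat.card (Cfsg.SU (n + 1) F q) = q ^ ((n + 1) * n / 2)
      * ∏ i ∈ Finset.range n,
          (if Even (i + 1) then q ^ (i + 1 + 1) + 1 else q ^ (i + 1 + 1) - 1) := by
  have h1 := Cfsg.Agent.S0278.result hF (n + 1) (by omega)
  rw [Finset.prod_range_succ'] at h1
  simp only [Nat.add_sub_cancel] at h1
  have h2 : (if Even 0 then q ^ (0 + 1) + 1 else q ^ (0 + 1) - 1) = q + 1 := by simp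
  rw [h2] at h1
  have h3 : (q + 1) * Nat.card (Cfsg.SU (n + 1) F q) = (q + 1) * (q ^ ((n + 1) * n / 2)
      * ∏ i ∈ Finset.range n,
          (if Even (i + 1) then q ^ (i + 1 + 1) + 1 else q ^ (i + 1 + 1) - 1)) := by
    rw [h1]
    ring
  exact Nat.eq_of_mul_eq_mul_left (by omega) h3

theorem dvd_card_SU (q : ℕ) (hF : Fintype.card F = q ^ 2) (n : ℕ) (hn : 2 ≤ n) (r : ℕ) (i : ℕ)
    (hi : i < n) (h : r ∣ (if Even i then q ^ (i + 1) + 1 else q ^ (i + 1) - 1)) :
    r ∣ Nat.card (Cfsg.SU n F q) := by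
  obtain ⟨n', rfl⟩ : ∃ n', n = n' + 1 := ⟨n - 1, by omega⟩
  rw [card_SU_eq F q hF n']
  apply Dvd.dvd.mul_left
  rcases Nat.eq_zero_or_pos i with h0 | h0
  · subst h0
    have h1 : r ∣ q + 1 := by simpa using h
    apply dvd_trans _ (Finset.dvd_prod_of_mem _ (Finset.mem_range.mpr (show 0 < n' by omega)))
    have h2 : (if Even (0 + 1) then q ^ (0 + 1 + 1) + 1 else q ^ (0 + 1 + 1) - 1)
        = (q + 1) * (q - 1) := by
      have h3 : ¬ Even (0 + 1) := by decide
      rw [if_neg h3]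
      have h4 := Nat.sq_sub_sq q 1
      simpa using h4
    rw [h2]
    exact Dvd.dvd.mul_right h1 _
  · obtain ⟨i', rfl⟩ : ∃ i', i = i' + 1 := ⟨i - 1, by omega⟩
    exact dvd_trans h (Finset.dvd_prod_of_mem _ (Finset.mem_range.mpr (by omega)))

theorem char_dvd_card_SU (q : ℕ) (hF : Fintype.card F = q ^ 2) (p : ℕ) (hpq : p ∣ q) (n : ℕ)
    (hn : 2 ≤ n) : p ∣ Nat.card (Cfsg.SU n F q) := by
  obtain ⟨n', rfl⟩ : ∃ n', n = n' + 1 := ⟨n - 1, by omega⟩
  rw [card_SU_eq F q hF n']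
  apply Dvd.dvd.mul_right
  apply dvd_pow hpq
  have h1 : 2 ≤ (n' + 1) * n' := by nlinarith
  omega

end card

section main

open Matrix

variable {F : Type*} [Field F] [Fintype F]

theorem main (p : ℕ) [hp : Fact p.Prime] [CharP F p] (m q : ℕ) (hm : 4 ≤ m)
    (hF : Fintype.card F = q ^ 2) (a b : Cfsg.PSU m F q) (ha : orderOf a = p)
    (hab : Commute a b) (r : ℕ) (hr : r.Prime) (hrb : r ∣ orderOf b) :
    r ∣ Nat.card (Cfsg.SU (m - 2) F q) := by
  classical
  have hpF : p ∣ Fintype.card F := (CharP.cast_eq_zero_iff F p _).mp (Nat.cast_card_eq_zero F)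
  have hpq : p ∣ q := by
    rw [hF] at hpF
    exact hp.out.dvd_of_dvd_pow hpF
  by_cases hrp : r = p
  · subst hrp
    exact char_dvd_card_SU F q hF r hpq (m - 2) (by omega)
  by_cases hrq1 : r ∣ q + 1
  · exact dvd_card_SU F q hF (m - 2) (by omega) r 0 (by omega) (by simpa using hrq1)
  have hrq : ¬ r ∣ q := by
    intro h
    have h1 : r ∣ Fintype.card F := by
      rw [hF]
      exact Dvd.dvd.pow h two_ne_zero
    obtain ⟨k, -, hk⟩ := FiniteField.card F p
    rw [hk] at h1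
    exact hrp ((Nat.prime_dvd_prime_iff_eq hr hp.out).mp (hr.dvd_of_dvd_pow h1))
  have hrF : (r : F) ≠ 0 := by
    intro h
    have h1 := (CharP.cast_eq_zero_iff F p r).mp h
    exact hrp ((Nat.prime_dvd_prime_iff_eq hp.out hr).mp h1).symm
  have hne : Nonempty (Fin m) := ⟨⟨0, by omega⟩⟩
  obtain ⟨z, hz⟩ : ∃ z, z = Nat.card (Subgroup.center (Cfsg.SU m F q)) := ⟨_, rfl⟩
  have hzg : z = Nat.gcd m (q + 1) := by
    rw [hz]
    exact Cfsg.Agent.S0279.result hF m (by omega)
  have hzq : z ∣ q + 1 := by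
    rw [hzg]
    exact Nat.gcd_dvd_right _ _
  have hrz : ¬ r ∣ z := fun h => hrq1 (dvd_trans h hzq)
  have hpz : ¬ p ∣ z := by
    intro h
    have h1 : p ∣ q + 1 := dvd_trans h hzq
    have h2 : p ∣ 1 := (Nat.dvd_add_right hpq).mp h1
    exact hp.out.one_lt.ne' (Nat.dvd_one.mp h2)
  have hcz : ∀ c : Cfsg.SU m F q, c ∈ Subgroup.center (Cfsg.SU m F q) → c ^ z = 1 := by
    intro c hc
    have h1 : (⟨c, hc⟩ : Subgroup.center (Cfsg.SU m F q)) ^ z = 1 := by
      rw [hz]
      exact pow_card_eq_one'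
    exact congrArg Subtype.val h1
  obtain ⟨A, rfl⟩ := QuotientGroup.mk_surjective a
  obtain ⟨B, rfl⟩ := QuotientGroup.mk_surjective b
  have hcen : ∀ g : Cfsg.SU m F q, (QuotientGroup.mk g : Cfsg.PSU m F q) = 1
      ↔ g ∈ Subgroup.center (Cfsg.SU m F q) := fun g => QuotientGroup.eq_one_iff g
  have hc : B * A * B⁻¹ * A⁻¹ ∈ Subgroup.center (Cfsg.SU m F q) := by
    rw [← hcen]
    have h1 := hab.eq
    rw [QuotientGroup.mk_mul, QuotientGroup.mk_mul, QuotientGroup.mk_mul, QuotientGroup.mk_inv,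
      QuotientGroup.mk_inv, ← h1]
    group
  obtain ⟨c, hc', hcdef⟩ : ∃ c, c ∈ Subgroup.center (Cfsg.SU m F q)
      ∧ B * A * B⁻¹ = c * A := ⟨_, hc, by group⟩
  have hUB : B * A ^ z * B⁻¹ = A ^ z := by
    rw [← conj_pow, hcdef,
      (show Commute c A from (Subgroup.mem_center_iff.mp hc' A).symm).mul_pow, hcz c hc',
      one_mul]
  obtain ⟨U, hU⟩ : ∃ U : Cfsg.SU m F q, U = A ^ z := ⟨_, rfl⟩
  rw [← hU] at hUB
  have hUcomm : B * U = U * B := by
    have : B * U = (B * U * B⁻¹) * B := by group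
    rw [this, hUB]
  have hUp : U ^ p = 1 := by
    have h1 : A ^ p ∈ Subgroup.center (Cfsg.SU m F q) := by
      rw [← hcen, QuotientGroup.mk_pow, ← ha, pow_orderOf_eq_one]
    rw [hU, ← pow_mul, mul_comm, pow_mul]
    exact hcz _ h1
  have hU1 : U ≠ 1 := by
    intro h
    have h1 : (QuotientGroup.mk A : Cfsg.PSU m F q) ^ z = 1 := by
      rw [← QuotientGroup.mk_pow, ← hU, h]
      rfl
    have h2 : p ∣ z := by
      rw [← ha]
      exact orderOf_dvd_of_pow_eq_one h1
    exact hpz h2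
  have hob : 0 < orderOf (QuotientGroup.mk B : Cfsg.PSU m F q) := orderOf_pos _
  obtain ⟨k, hk⟩ := hrb
  have hk0 : 0 < k := by
    rcases Nat.eq_zero_or_pos k with h | h
    · rw [h, mul_zero] at hk; omega
    · exact h
  obtain ⟨B₀, hB₀⟩ : ∃ B₀ : Cfsg.SU m F q, B₀ = B ^ k := ⟨_, rfl⟩
  have hB₀r : B₀ ^ r ∈ Subgroup.center (Cfsg.SU m F q) := by
    rw [← hcen, hB₀, ← pow_mul, mul_comm, ← hk, QuotientGroup.mk_pow, pow_orderOf_eq_one]
  have hB₀c : (QuotientGroup.mk B₀ : Cfsg.PSU m F q) ≠ 1 := by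
    rw [hB₀, QuotientGroup.mk_pow]
    apply pow_ne_one_of_lt_orderOf hk0.ne'
    rw [hk]
    have := hr.two_le
    nlinarith
  have hB₀U : B₀ * U = U * B₀ := by
    rw [hB₀]
    exact ((Commute.pow_left (show Commute B U from hUcomm) k)).eq
  obtain ⟨T₀, hT₀⟩ : ∃ T₀ : Cfsg.SU m F q, T₀ = B₀ ^ z := ⟨_, rfl⟩
  have hT₀r : T₀ ^ r = 1 := by
    rw [hT₀, ← pow_mul, mul_comm, pow_mul]
    exact hcz _ hB₀r
  have hT₀1 : T₀ ≠ 1 := by
    intro h
    have h1 : (QuotientGroup.mk B₀ : Cfsg.PSU m F q) ^ z = 1 := by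
      rw [← QuotientGroup.mk_pow, ← hT₀, h]
      rfl
    have h2 : (QuotientGroup.mk B₀ : Cfsg.PSU m F q) ^ r = 1 := by
      rw [← QuotientGroup.mk_pow]
      exact (hcen _).mpr hB₀r
    have h3 : orderOf (QuotientGroup.mk B₀ : Cfsg.PSU m F q) ∣ Nat.gcd z r :=
      Nat.dvd_gcd (orderOf_dvd_of_pow_eq_one h1) (orderOf_dvd_of_pow_eq_one h2)
    have h4 : Nat.gcd z r = 1 := by
      rw [Nat.gcd_comm]
      exact (Nat.Prime.coprime_iff_not_dvd hr).mpr hrz
    rw [h4, Nat.dvd_one, orderOf_eq_one_iff] at h3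
    exact hB₀c h3
  have hT₀U : T₀ * U = U * T₀ := by
    rw [hT₀]
    exact ((Commute.pow_left (show Commute B₀ U from hB₀U) z)).eq
  obtain ⟨Tm, hTm⟩ : ∃ Tm : Matrix (Fin m) (Fin m) F,
      Tm = (T₀ : Matrix.SpecialLinearGroup (Fin m) F).val := ⟨_, rfl⟩
  obtain ⟨Um, hUm⟩ : ∃ Um : Matrix (Fin m) (Fin m) F,
      Um = (U : Matrix.SpecialLinearGroup (Fin m) F).val := ⟨_, rfl⟩
  have hTpres : ∀ u v, Cfsg.hermForm m F q (Tm *ᵥ u) (Tm *ᵥ v) = Cfsg.hermForm m F q u v := by
    intro u v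
    rw [hTm]
    exact T₀.2 u v
  have hUpres : ∀ u v, Cfsg.hermForm m F q (Um *ᵥ u) (Um *ᵥ v) = Cfsg.hermForm m F q u v := by
    intro u v
    rw [hUm]
    exact U.2 u v
  have hTmr : Tm ^ r = 1 := by
    rw [hTm, ← Matrix.SpecialLinearGroup.coe_pow, ← Subgroup.coe_pow, hT₀r]
    rfl
  have hTm1 : Tm ≠ 1 := by
    intro h
    apply hT₀1
    apply Subtype.ext
    apply Subtype.ext
    rw [← hTm, h]
    rfl
  have hTU : (Um - 1) * Tm = Tm * (Um - 1) := by
    have h1 : Tm * Um = Um * Tm := by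
      rw [hTm, hUm, ← Matrix.SpecialLinearGroup.coe_mul, ← Matrix.SpecialLinearGroup.coe_mul,
        ← Subgroup.coe_mul, ← Subgroup.coe_mul, hT₀U]
    rw [sub_mul, mul_sub, one_mul, mul_one, h1]
  have hUnil : (Um - 1) ^ p = 0 := by
    rw [sub_pow_char_of_commute p (Commute.one_right Um), one_pow, hUm,
      ← Matrix.SpecialLinearGroup.coe_pow, ← Subgroup.coe_pow, hUp]
    exact sub_self _
  have hU0 : Um - 1 ≠ 0 := by
    intro h
    apply hU1
    apply Subtype.ext
    apply Subtype.ext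
    rw [← hUm]
    exact sub_eq_zero.mp h
  obtain ⟨i, hi1, hi2⟩ := coreU q hF (Cfsg.hermForm m F q)
    (fun x y z => Cfsg.Agent.Lib.helper4.herm_add_left x y z)
    (fun c x y => Cfsg.Agent.Lib.helper4.herm_smul_left c x y)
    (fun x y z => Cfsg.Agent.Lib.helper4.herm_add_right hF x y z)
    (fun c x y => Cfsg.Agent.Lib.helper4.herm_smul_right c x y)
    (fun x hx => Cfsg.Agent.Lib.helper4.herm_nondeg hF x hx)
    (Matrix.toLinAlgEquiv' (Um - 1)) (Matrix.toLinAlgEquiv' Tm) r hr hrF hrq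
    (by rw [← map_pow, hTmr, map_one])
    (by
      intro h
      apply hTm1
      apply Matrix.toLinAlgEquiv'.injective
      rw [h, map_one])
    (by
      intro h
      apply hU0
      apply Matrix.toLinAlgEquiv'.injective
      rw [h, map_zero])
    ⟨p, by rw [← map_pow, hUnil, map_zero]⟩
    (by rw [← map_mul, ← map_mul, hTU])
    (by
      intro x y
      rw [Matrix.toLinAlgEquiv'_apply, Matrix.toLinAlgEquiv'_apply]
      exact hTpres x y)
    (by
      intro x y
      have e : ∀ v : Fin m → F, v + (Matrix.toLinAlgEquiv' (Um - 1)) v = Um *ᵥ v := by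
        intro v
        rw [Matrix.toLinAlgEquiv'_apply, Matrix.sub_mulVec, Matrix.one_mulVec]
        abel
      rw [e, e]
      exact hUpres x y)
    (by rw [Module.finrank_fin_fun]; exact hm)
  rw [Module.finrank_fin_fun] at hi1
  exact dvd_card_SU F q hF (m - 2) (by omega) r i (by omega) hi2

end main

end Cfsg.Agent.Lib.helper2.PSUComm
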