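import Mathlib
import Cfsg.Agent.Lib.helper2.SLGen

set_option autoImplicit false

namespace Cfsg.Agent.Lib.helper2.SLGen

open Matrix Matrix.SpecialLinearGroup
open scoped commutatorElement

variable {ι F : Type*} [DecidableEq ι] [Fintype ι] [Field F]

/-- the diagonal element of `GL` with `a` at position `i` and `1` elsewhere -/
def dg (i : ι) (a : F) (ha : a ≠ 0) : GL ι F :=
  ⟨diagonal fun k => if k = i then a else 1, diagonal fun k => if k = i then a⁻¹ else 1, by
    rw [diagonal_mul_diagonal, ← diagonal_one]
    congr 1
    funext k
    by_cases hk : k = i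
    · simp [hk, mul_inv_cancel₀ ha]
    · simp [hk], by
    rw [diagonal_mul_diagonal, ← diagonal_one]
    congr 1
    funext k
    by_cases hk : k = i
    · simp [hk, inv_mul_cancel₀ ha]
    · simp [hk]⟩

theorem toGL_transvection_eq_commutator {i j : ι} (hij : i ≠ j) (a : F) (ha : a ≠ 0) (b : F) :
    toGL (transvection hij ((a - 1) * b)) = ⁅dg i a ha, toGL (transvection hij b)⁆ := by
  rw [commutatorElement_def, ← map_inv, transvection_inv]
  apply Units.ext
  show (1 + single i j ((a - 1) * b) : Matrix ι ι F)
    = (diagonal fun k => if k = i then a else 1) * (1 + single i j b)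
      * (diagonal fun k => if k = i then a⁻¹ else 1) * (1 + single i j (-b))
  have e1 : (diagonal fun k => if k = i then a else 1) * (1 + single i j b)
      * (diagonal fun k => if k = i then a⁻¹ else 1) = (1 + single i j (a * b) : Matrix ι ι F) := by
    ext r s
    rw [Matrix.mul_diagonal, Matrix.diagonal_mul]
    simp only [Matrix.add_apply, Matrix.one_apply, Matrix.single_apply]
    by_cases hrs : r = s
    · subst hrs
      by_cases hri : r = i
      · subst hri
        simp [hij.symm, mul_inv_cancel₀ ha]
      · simp [hri, Ne.symm hri]
    · by_cases hri : i = r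
      · subst hri
        by_cases hsj : j = s
        · subst hsj
          simp [hij, hij.symm]
        · simp [hrs, hsj]
      · simp [hrs, hri]
  rw [e1]
  have e2 := Matrix.transvection_mul_transvection_same (R := F) i j hij (a * b) (-b)
  unfold Matrix.transvection at e2
  rw [e2]
  congr 2
  ring

/-- `GL' = SL` (kernel of det), except for `GL₂(𝔽₂)` -/
theorem commutator_GL (n : ℕ) (h : n = 2 → ∃ a : F, a ≠ 0 ∧ a ≠ 1) :
    commutator (GL (Fin n) F)
      = (Matrix.GeneralLinearGroup.det : GL (Fin n) F →* Fˣ).ker := by
  apply le_antisymm (Abelianization.commutator_subset_ker _)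
  intro g hg
  have hdet : (g : Matrix (Fin n) (Fin n) F).det = 1 := by
    have := congrArg Units.val (MonoidHom.mem_ker.1 hg)
    simpa using this
  rcases Nat.lt_or_ge n 2 with hn | hn
  · have hg1 : g = 1 := by
      apply Units.ext
      ext i j
      interval_cases n
      · exact i.elim0
      · have hi : i = 0 := Subsingleton.elim _ _
        have hj : j = 0 := Subsingleton.elim _ _
        subst hi hj
        rw [Matrix.det_fin_one] at hdet
        simp [hdet]
    rw [hg1]
    exact Subgroup.one_mem _
  · have hnt : Nontrivial (Fin n) := Fin.nontrivial_iff_two_le.2 hn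
    have hgA : g = toGL (⟨g.1, hdet⟩ : SpecialLinearGroup (Fin n) F) := Units.ext rfl
    rw [hgA]
    refine transvection_induction
      (fun M : SpecialLinearGroup (Fin n) F => toGL M ∈ commutator (GL (Fin n) F)) ?_ ?_ _
    · intro i j hij c
      by_cases hex : ∃ a : F, a ≠ 0 ∧ a ≠ 1
      · obtain ⟨a, ha0, ha1⟩ := hex
        have ha1' : a - 1 ≠ 0 := sub_ne_zero.2 ha1
        have hc : c = (a - 1) * (c / (a - 1)) := by field_simp
        rw [hc, toGL_transvection_eq_commutator hij a ha0]
        exact Subgroup.commutator_mem_commutator (Subgroup.mem_top _) (Subgroup.mem_top _)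
      · have hn3 : 3 ≤ n := by
          by_contra hlt
          have : n = 2 := by omega
          exact hex (h this)
        obtain ⟨k, hk⟩ : ∃ k, k ≠ i ∧ k ≠ j := by
          by_contra hcon
          push Not at hcon
          have hsub : (Finset.univ : Finset (Fin n)) ⊆ {i, j} := by
            intro k _
            by_cases hki : k = i
            · simp [hki]
            · simp [hcon k hki]
          have := Finset.card_le_card hsub
          have h2 : ({i, j} : Finset (Fin n)).card ≤ 2 := Finset.card_le_two
          rw [Finset.card_univ, Fintype.card_fin] at this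
          omega
        rw [transvection_eq_commutator hij hk.1.symm hk.2 c, map_commutatorElement]
        exact Subgroup.commutator_mem_commutator (Subgroup.mem_top _) (Subgroup.mem_top _)
    · intro A B hA hB
      rw [map_mul]
      exact mul_mem hA hB

end Cfsg.Agent.Lib.helper2.SLGen
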