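import Cfsg.Agent.Lib.helper2.SharpN

set_option autoImplicit false

namespace Cfsg.Agent.Lib.helper2.Sharp4

open MulAction

theorem SharpK.tr2 {G : Type*} [Group G] {Ω : Type*} [MulAction G Ω] [Finite Ω] {k : ℕ}
    (h : SharpK G Ω k) (hk2 : 2 ≤ k) (hk : k ≤ Nat.card Ω) :
    ∀ a b c d : Ω, a ≠ b → c ≠ d → ∃ g : G, g • a = c ∧ g • b = d := by
  haveI := h.1
  have h2 : IsMultiplyPretransitive G Ω 2 := isMultiplyPretransitive_of_le hk2 hk
  intro a b c d hab hcd
  exact is_two_pretransitive_iff.mp h2 hab hcd

/-- A nontrivial normal subgroup of a faithful doubly transitive group is transitive. -/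
theorem normal_trans {G : Type*} [Group G] {Ω : Type*} [MulAction G Ω]
    (tr2 : ∀ a b c d : Ω, a ≠ b → c ≠ d → ∃ g : G, g • a = c ∧ g • b = d)
    (hfaith : ∀ g : G, (∀ x : Ω, g • x = x) → g = 1) (N : Subgroup G) (hNn : N.Normal)
    (hN : N ≠ ⊥) : ∀ y z : Ω, ∃ n ∈ N, n • y = z := by
  intro y z
  by_cases hyz : y = z
  · exact ⟨1, N.one_mem, by rw [one_smul, hyz]⟩
  · obtain ⟨g, hg, hg1⟩ : ∃ g ∈ N, g ≠ 1 := by
      by_contra hcon
      push Not at hcon
      exact hN (eq_bot_iff.mpr (fun g hg => Subgroup.mem_bot.mpr (hcon g hg)))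
    obtain ⟨x, hx⟩ : ∃ x : Ω, g • x ≠ x := by
      by_contra hcon
      push Not at hcon
      exact hg1 (hfaith g hcon)
    obtain ⟨k, hk1, hk2⟩ := tr2 x (g • x) y z (Ne.symm hx) hyz
    refine ⟨k * g * k⁻¹, hNn.conj_mem g hg k, ?_⟩
    rw [mul_smul, mul_smul, ← hk1, inv_smul_smul, hk2]

/-- A sharply `4`-transitive group of degree `11` is simple of order `7920`. -/
theorem simple11 {G : Type*} [Group G] {Ω : Type*} [MulAction G Ω] [Finite Ω] (h : SharpK G Ω 4)
    (h11 : Nat.card Ω = 11) : IsSimpleGroup G ∧ Nat.card G = 7920 := by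
  classical
  obtain ⟨hfin, hcard⟩ := h.card_eq (by omega)
  rw [h11] at hcard
  have hG : Nat.card G = 7920 := by
    rw [hcard]
    decide
  have hfaith := h.faithful (k := 4) (by omega)
  have tr2 := h.tr2 (by norm_num) (by omega)
  have hS4 := h.s4
  letI := Fintype.ofFinite Ω
  obtain ⟨x₀⟩ := Function.Embedding.nonempty_of_card_le (α := Fin 4) (β := Ω)
    (by rw [Fintype.card_fin, ← Nat.card_eq_fintype_card]; omega)
  haveI : Fact (Nat.Prime 11) := ⟨by norm_num⟩
  have hB : ∀ P' : Subgroup G, Nat.card P' = 11 →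
      Nat.card (Subgroup.normalizer (P' : Set G)) = 55 := by
    intro P' hP'
    obtain ⟨m, hm, hN⟩ := prime_normalizer hfaith 11 h11 P' hP'
    have hfac : (Nat.card G).factorization 11 = 1 := by
      rw [hG, show (7920 : ℕ) = 11 * 720 by norm_num,
        Nat.factorization_mul (by norm_num) (by norm_num), Finsupp.add_apply,
        Nat.Prime.factorization_self (by norm_num),
        Nat.factorization_eq_zero_of_not_dvd (by norm_num)]
    obtain ⟨P, hPeq⟩ : ∃ P : Sylow 11 G, (P : Subgroup G) = P' :=
      ⟨Sylow.ofCard P' (by rw [hP', hfac, pow_one]), Sylow.coe_ofCard _ _⟩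
    have h1 : (Subgroup.normalizer ((P : Subgroup G) : Set G)).index % 11 = 1 := by
      have h0 := card_sylow_modEq_one 11 G
      rw [Sylow.card_eq_index_normalizer P] at h0
      exact h0
    rw [hPeq] at h1
    have h2 := Subgroup.card_mul_index (Subgroup.normalizer (P' : Set G))
    rw [hN, hG] at h2
    have hm10 : m ≤ 10 := Nat.le_of_dvd (by norm_num) hm
    have hm0 : 0 < m := Nat.pos_of_dvd_of_pos hm (by norm_num)
    have h3 : m * (Subgroup.normalizer (P' : Set G)).index = 720 := by
      have h4 : 11 * (m * (Subgroup.normalizer (P' : Set G)).index) = 7920 := by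
        rw [← mul_assoc]
        exact h2
      omega
    rw [hN]
    have hm5 : m = 5 := by
      interval_cases m <;> omega
    rw [hm5]
  have h72 : ∀ g : G, ∀ a b : Ω, a ≠ b → g • a = a → g • b = b → g ^ 72 = 1 := by
    intro g a b hab hga hgb
    have h₁ := h.stab a
    have hc₁ := card_ofStabilizer (G := G) a
    have hb : b ∈ SubMulAction.ofStabilizer G a := by
      rw [SubMulAction.mem_ofStabilizer_iff]
      exact Ne.symm hab
    have h₂ := h₁.stab (⟨b, hb⟩ : SubMulAction.ofStabilizer G a)
    have hc₂ := card_ofStabilizer (G := stabilizer G a) (⟨b, hb⟩ : SubMulAction.ofStabilizer G a)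
    obtain ⟨hfin₂, hcard₂⟩ := h₂.card_eq (by omega)
    have h9 : Nat.card (SubMulAction.ofStabilizer (stabilizer G a)
        (⟨b, hb⟩ : SubMulAction.ofStabilizer G a)) = 9 := by omega
    rw [h9] at hcard₂
    have hcard72 : Nat.card (stabilizer (stabilizer G a)
        (⟨b, hb⟩ : SubMulAction.ofStabilizer G a)) = 72 := by
      rw [hcard₂]
      decide
    have hg₁ : (⟨g, hga⟩ : stabilizer G a) ∈ stabilizer (stabilizer G a)
        (⟨b, hb⟩ : SubMulAction.ofStabilizer G a) := by
      rw [mem_stabilizer_iff]
      exact Subtype.ext hgb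
    have hpow : (⟨⟨g, hga⟩, hg₁⟩ : stabilizer (stabilizer G a)
        (⟨b, hb⟩ : SubMulAction.ofStabilizer G a)) ^ 72 = 1 := by
      rw [← hcard72]
      exact pow_card_eq_one'
    have hpow' := congrArg (fun x : stabilizer (stabilizer G a)
        (⟨b, hb⟩ : SubMulAction.ofStabilizer G a) => ((x : stabilizer G a) : G)) hpow
    simpa using hpow'
  have hsimple : ∀ N : Subgroup G, N.Normal → N = ⊥ ∨ N = ⊤ := by
    intro N hNn
    by_cases hN : N = ⊥
    · exact Or.inl hN
    · right
      have htrans := normal_trans tr2 hfaith N hNn hN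
      obtain ⟨a, ha⟩ : ∃ a : Ω, a = x₀ 0 := ⟨_, rfl⟩
      have h11N : 11 ∣ Nat.card N := by
        have horb : orbit N a = Set.univ := by
          ext y
          simp only [Set.mem_univ, iff_true]
          obtain ⟨n, hn, hny⟩ := htrans a y
          exact ⟨⟨n, hn⟩, hny⟩
        have h1 : (stabilizer N a).index = 11 := by
          rw [index_stabilizer, horb, Set.ncard_univ, h11]
        rw [← h1]
        exact Subgroup.index_dvd_card _
      obtain ⟨Q⟩ : Nonempty (Sylow 11 N) := inferInstance
      have hNdvd : Nat.card N ∣ 7920 := by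
        rw [← hG]
        exact Subgroup.card_subgroup_dvd_card N
      obtain ⟨m', hm'⟩ := h11N
      have hm'11 : ¬ 11 ∣ m' := by
        intro h'
        obtain ⟨j, hj⟩ := h'
        rw [hm', hj] at hNdvd
        have h121 : 121 ∣ 7920 := Dvd.dvd.trans ⟨j, by ring⟩ hNdvd
        norm_num at h121
      have hQ : Nat.card Q = 11 := sylow_card_of 11 Q m' hm' hm'11
      obtain ⟨P', hP'⟩ : ∃ P' : Subgroup G, P' = (Q : Subgroup N).map N.subtype := ⟨_, rfl⟩
      have hP'card : Nat.card P' = 11 := by
        rw [hP']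
        exact (Nat.card_congr ((Q : Subgroup N).equivMapOfInjective N.subtype
          N.subtype_injective).toEquiv.symm).trans hQ
      have hP'N : P' ≤ N := by
        rw [hP']
        exact Subgroup.map_subtype_le _
      have hfr := Sylow.normalizer_sup_eq_top Q
      rw [← hP'] at hfr
      have hK := hB P' hP'card
      have hidx : N.index ∣ 5 := by
        have e1 : N.index = N.relIndex (Subgroup.normalizer (P' : Set G)) := by
          rw [← Subgroup.relIndex_top_right, ← hfr, Subgroup.relIndex_sup_right]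
        rw [e1]
        have e2 := Subgroup.card_mul_index (N.subgroupOf (Subgroup.normalizer (P' : Set G)))
        rw [hK] at e2
        have e3 : 11 ∣ Nat.card (N.subgroupOf (Subgroup.normalizer (P' : Set G))) := by
          have hle : P'.subgroupOf (Subgroup.normalizer (P' : Set G))
              ≤ N.subgroupOf (Subgroup.normalizer (P' : Set G)) := by
            intro x hx
            exact hP'N hx
          have h4 := Subgroup.card_dvd_of_le hle
          rw [Nat.card_congr (Subgroup.subgroupOfEquivOfLe (Subgroup.le_normalizer)).toEquiv,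
            hP'card] at h4
          exact h4
        obtain ⟨j, hj⟩ := e3
        show (N.subgroupOf (Subgroup.normalizer (P' : Set G))).index ∣ 5
        rw [hj] at e2
        exact ⟨j, by nlinarith⟩
      have hidx15 : N.index = 1 ∨ N.index = 5 := (Nat.dvd_prime (by norm_num)).mp hidx
      have hT : ∀ g : G, ∀ a b : Ω, a ≠ b → g • a = a → g • b = b → g ∈ N := by
        intro g a b hab hga hgb
        have hpow := h72 g a b hab hga hgb
        rw [← QuotientGroup.eq_one_iff]
        have o1 : orderOf (g : G ⧸ N) ∣ 72 := by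
          apply orderOf_dvd_of_pow_eq_one
          rw [← QuotientGroup.mk_pow, hpow]
          rfl
        have o2 : orderOf (g : G ⧸ N) ∣ N.index := by
          rw [Subgroup.index_eq_card]
          exact orderOf_dvd_natCard _
        have o3 : orderOf (g : G ⧸ N) ∣ 1 := by
          rcases hidx15 with h1 | h5
          · rw [h1] at o2
            exact o2
          · rw [h5] at o2
            have o4 : orderOf (g : G ⧸ N) ∣ Nat.gcd 72 5 := Nat.dvd_gcd o1 o2
            have e : Nat.gcd 72 5 = 1 := by decide
            rw [e] at o4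
            exact o4
        exact orderOf_eq_one_iff.mp (Nat.dvd_one.mp o3)
      rw [eq_top_iff]
      intro g _
      obtain ⟨n, hn, hna⟩ := htrans a (g • a)
      have hg₁a : (n⁻¹ * g) • a = a := by
        rw [mul_smul, ← hna, inv_smul_smul]
      obtain ⟨b, hba, -, -⟩ := exists_ne3 x₀ a a a
      have hg₁ : n⁻¹ * g ∈ N := by
        by_cases hb : (n⁻¹ * g) • b = b
        · exact hT _ a b (Ne.symm hba) hg₁a hb
        · have hb''a : (n⁻¹ * g) • b ≠ a := by
            intro h'
            rw [← hg₁a] at h'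
            exact hba (smul_left_cancel _ h')
          obtain ⟨c, hca, hcb, hcb''⟩ := exists_ne3 x₀ a b ((n⁻¹ * g) • b)
          obtain ⟨d₁, hd₁a, hd₁c, hd₁b⟩ := exists_ne3 x₀ a c b
          obtain ⟨d₂, hd₂a, hd₂c, hd₂b⟩ := exists_ne3 x₀ a c ((n⁻¹ * g) • b)
          obtain ⟨h₁, e1, e2, e3, -⟩ := hS4.tr a c b d₁ a c ((n⁻¹ * g) • b) d₂ (Ne.symm hca)
            (Ne.symm hba) (Ne.symm hd₁a) hcb (Ne.symm hd₁c) (Ne.symm hd₁b) (Ne.symm hca)
            (Ne.symm hb''a) (Ne.symm hd₂a) hcb'' (Ne.symm hd₂c) (Ne.symm hd₂b)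
          have hh₁ : h₁ ∈ N := hT h₁ a c (Ne.symm hca) e1 e2
          have hh₂ : h₁⁻¹ * (n⁻¹ * g) ∈ N := by
            apply hT _ a b (Ne.symm hba)
            · rw [mul_smul, hg₁a, inv_smul_eq_iff, e1]
            · rw [mul_smul, inv_smul_eq_iff, e3]
          have h5 := N.mul_mem hh₁ hh₂
          rw [mul_inv_cancel_left] at h5
          exact h5
      have h6 := N.mul_mem hn hg₁
      rw [mul_inv_cancel_left] at h6
      exact h6
  haveI : Nontrivial G := (Finite.one_lt_card_iff_nontrivial).mp (by rw [hG]; norm_num)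
  exact ⟨⟨hsimple⟩, hG⟩

/-- A sharply `5`-transitive group of degree `12` is simple of order `95040`. -/
theorem simple12 {G : Type*} [Group G] {Ω : Type*} [MulAction G Ω] [Finite Ω] (h : SharpK G Ω 5)
    (h12 : Nat.card Ω = 12) : IsSimpleGroup G ∧ Nat.card G = 95040 := by
  classical
  obtain ⟨hfin, hcard⟩ := h.card_eq (by omega)
  rw [h12] at hcard
  have hG : Nat.card G = 95040 := by
    rw [hcard]
    decide
  have hfaith := h.faithful (k := 5) (by omega)
  have tr2 := h.tr2 (by norm_num) (by omega)
  have hsimple : ∀ N : Subgroup G, N.Normal → N = ⊥ ∨ N = ⊤ := by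
    intro N hNn
    by_cases hN : N = ⊥
    · exact Or.inl hN
    · right
      have htrans := normal_trans tr2 hfaith N hNn hN
      obtain ⟨a⟩ : Nonempty Ω := (Nat.card_pos_iff.mp (by omega)).1
      have hc := card_ofStabilizer (G := G) a
      obtain ⟨hsa, -⟩ := simple11 (h.stab a) (by omega)
      haveI := hNn
      have hnorm : (N.subgroupOf (stabilizer G a)).Normal := inferInstance
      rcases hsa.eq_bot_or_eq_top_of_normal _ hnorm with hbot | htop
      · exfalso
        have hfree : ∀ n ∈ N, n • a = a → n = 1 := by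
          intro n hn hna
          have h1 : (⟨n, hna⟩ : stabilizer G a) ∈ N.subgroupOf (stabilizer G a) := hn
          rw [hbot, Subgroup.mem_bot] at h1
          exact congrArg Subtype.val h1
        have hbij : Function.Bijective (fun n : N => (n : G) • a) := by
          constructor
          · intro n n' hnn'
            have h1 : (n : G) • a = (n' : G) • a := hnn'
            have h2 := hfree _ (N.mul_mem (N.inv_mem n'.2) n.2)
              (by rw [mul_smul, h1, inv_smul_smul])
            exact Subtype.ext (inv_mul_eq_one.mp h2).symm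
          · intro y
            obtain ⟨n, hn, hny⟩ := htrans a y
            exact ⟨⟨n, hn⟩, hny⟩
        have hN12 : Nat.card N = 12 := by
          rw [Nat.card_eq_of_bijective _ hbij, h12]
        haveI : Fact (Nat.Prime 2) := ⟨by norm_num⟩
        haveI : Fact (Nat.Prime 3) := ⟨by norm_num⟩
        obtain ⟨x₂, hx₂⟩ := exists_prime_orderOf_dvd_card' (G := N) 2 (by rw [hN12]; norm_num)
        obtain ⟨x₃, hx₃⟩ := exists_prime_orderOf_dvd_card' (G := N) 3 (by rw [hN12]; norm_num)
        have h21 : (x₂ : G) ≠ 1 := by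
          intro h'
          have h1 : x₂ = 1 := Subtype.ext h'
          rw [h1, orderOf_one] at hx₂
          norm_num at hx₂
        have h31 : (x₃ : G) ≠ 1 := by
          intro h'
          have h1 : x₃ = 1 := Subtype.ext h'
          rw [h1, orderOf_one] at hx₃
          norm_num at hx₃
        have h22 : (x₂ : G) ^ 2 = 1 := by
          have h1 := pow_orderOf_eq_one x₂
          rw [hx₂] at h1
          exact congrArg Subtype.val h1
        have h33 : (x₃ : G) ^ 3 = 1 := by
          have h1 := pow_orderOf_eq_one x₃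
          rw [hx₃] at h1
          exact congrArg Subtype.val h1
        have h2a : (x₂ : G) • a ≠ a := fun h' => h21 (hfree _ x₂.2 h')
        have h3a : (x₃ : G) • a ≠ a := fun h' => h31 (hfree _ x₃.2 h')
        obtain ⟨g, hga, hg2⟩ := tr2 a ((x₂ : G) • a) a ((x₃ : G) • a) (Ne.symm h2a) (Ne.symm h3a)
        have hconj : g * (x₂ : G) * g⁻¹ = (x₃ : G) := by
          have h1 : ((x₃ : G)⁻¹ * (g * (x₂ : G) * g⁻¹)) • a = a := by
            have hgia : g⁻¹ • a = a := by rw [inv_smul_eq_iff, hga]
            rw [mul_smul, mul_smul, mul_smul, hgia, hg2, inv_smul_smul]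
          have h2 := hfree _ (N.mul_mem (N.inv_mem x₃.2) (hNn.conj_mem _ x₂.2 g)) h1
          exact (inv_mul_eq_one.mp h2).symm
        have h32 : (x₃ : G) ^ 2 = 1 := by
          rw [← hconj, conj_pow, h22, mul_one, mul_inv_cancel]
        apply h31
        have h5 : (x₃ : G) ^ 3 = (x₃ : G) ^ 2 * (x₃ : G) := pow_succ _ 2
        rw [h33, h32, one_mul] at h5
        exact h5.symm
      · have hle : stabilizer G a ≤ N := by
          intro g hg
          have h1 : (⟨g, hg⟩ : stabilizer G a) ∈ N.subgroupOf (stabilizer G a) := by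
            rw [htop]
            trivial
          exact h1
        rw [eq_top_iff]
        intro g _
        obtain ⟨n, hn, hna⟩ := htrans a (g • a)
        have h5 : n⁻¹ * g ∈ N :=
          hle (by rw [mem_stabilizer_iff, mul_smul, ← hna, inv_smul_smul])
        have h6 := N.mul_mem hn h5
        rw [mul_inv_cancel_left] at h6
        exact h6
  haveI : Nontrivial G := (Finite.one_lt_card_iff_nontrivial).mp (by rw [hG]; norm_num)
  exact ⟨⟨hsimple⟩, hG⟩

end Cfsg.Agent.Lib.helper2.Sharp4
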