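import Mathlib

set_option autoImplicit false

namespace Cfsg.Agent.Lib.helper2.Sharp4

/-- Elementwise form of sharp `4`-transitivity. -/
structure S4 (G : Type*) [Group G] (Ω : Type*) [MulAction G Ω] : Prop where
  tr : ∀ a b c d a' b' c' d' : Ω, a ≠ b → a ≠ c → a ≠ d → b ≠ c → b ≠ d → c ≠ d →
      a' ≠ b' → a' ≠ c' → a' ≠ d' → b' ≠ c' → b' ≠ d' → c' ≠ d' →
      ∃ g : G, g • a = a' ∧ g • b = b' ∧ g • c = c' ∧ g • d = d'
  sh : ∀ g : G, ∀ a b c d : Ω, a ≠ b → a ≠ c → a ≠ d → b ≠ c → b ≠ d → c ≠ d →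
      g • a = a → g • b = b → g • c = c → g • d = d → g = 1

theorem inj4 {Ω : Type*} (a b c d : Ω) (h1 : a ≠ b) (h2 : a ≠ c) (h3 : a ≠ d) (h4 : b ≠ c)
    (h5 : b ≠ d) (h6 : c ≠ d) : Function.Injective ![a, b, c, d] := by
  intro i j hij
  fin_cases i <;> fin_cases j <;> simp_all

theorem S4.of {G : Type*} [Group G] {Ω : Type*} [MulAction G Ω]
    (h4 : MulAction.IsMultiplyPretransitive G Ω 4)
    (hsharp : ∀ x : Fin 4 ↪ Ω, MulAction.stabilizer G x = ⊥) : S4 G Ω := by
  constructor
  · intro a b c d a' b' c' d' h1 h2 h3 h4' h5 h6 h1' h2' h3' h4'' h5' h6'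
    obtain ⟨g, hg⟩ := (MulAction.isMultiplyPretransitive_iff.mp h4)
      ⟨![a, b, c, d], inj4 a b c d h1 h2 h3 h4' h5 h6⟩
      ⟨![a', b', c', d'], inj4 a' b' c' d' h1' h2' h3' h4'' h5' h6'⟩
    exact ⟨g, congrArg (fun e : Fin 4 ↪ Ω => e 0) hg, congrArg (fun e : Fin 4 ↪ Ω => e 1) hg,
      congrArg (fun e : Fin 4 ↪ Ω => e 2) hg, congrArg (fun e : Fin 4 ↪ Ω => e 3) hg⟩
  · intro g a b c d h1 h2 h3 h4' h5 h6 ha hb hc hd
    have hmem : g ∈ MulAction.stabilizer G
        (⟨![a, b, c, d], inj4 a b c d h1 h2 h3 h4' h5 h6⟩ : Fin 4 ↪ Ω) := by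
      rw [MulAction.mem_stabilizer_iff]
      apply Function.Embedding.ext
      intro i
      fin_cases i
      · exact ha
      · exact hb
      · exact hc
      · exact hd
    rw [hsharp, Subgroup.mem_bot] at hmem
    exact hmem

theorem S4.eq {G : Type*} [Group G] {Ω : Type*} [MulAction G Ω] (h : S4 G Ω)
    (s t : G) (a b c d : Ω) (h1 : a ≠ b) (h2 : a ≠ c) (h3 : a ≠ d) (h4 : b ≠ c) (h5 : b ≠ d)
    (h6 : c ≠ d) (ha : s • a = t • a) (hb : s • b = t • b) (hc : s • c = t • c)
    (hd : s • d = t • d) : s = t := by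
  have h7 : t⁻¹ * s = 1 := by
    apply h.sh _ a b c d h1 h2 h3 h4 h5 h6
    · rw [mul_smul, ha, inv_smul_smul]
    · rw [mul_smul, hb, inv_smul_smul]
    · rw [mul_smul, hc, inv_smul_smul]
    · rw [mul_smul, hd, inv_smul_smul]
  exact (inv_mul_eq_one.mp h7).symm

theorem finite_of_no_emb {β : Type*} (k : ℕ) (h : IsEmpty (Fin (k + 1) ↪ β)) :
    Finite β ∧ Nat.card β ≤ k := by
  have hfin : Finite β := by
    by_contra hinf
    rw [not_finite_iff_infinite] at hinf
    exact h.false ((Fin.valEmbedding).trans (Infinite.natEmbedding β))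
  refine ⟨hfin, ?_⟩
  by_contra hcon
  push Not at hcon
  letI := Fintype.ofFinite β
  rw [Nat.card_eq_fintype_card] at hcon
  obtain ⟨e⟩ := Function.Embedding.nonempty_of_card_le (α := Fin (k + 1)) (β := β)
    (by rw [Fintype.card_fin]; omega)
  exact h.false e

theorem exists_ne3 {Ω : Type*} (x₀ : Fin 4 ↪ Ω) (a b c : Ω) : ∃ d, d ≠ a ∧ d ≠ b ∧ d ≠ c := by
  classical
  by_contra hcon
  push Not at hcon
  have hsub : (Finset.univ.map x₀) ⊆ ({a, b, c} : Finset Ω) := by
    intro y hy
    rw [Finset.mem_map] at hy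
    obtain ⟨i, -, rfl⟩ := hy
    by_cases h1 : x₀ i = a
    · simp [h1]
    · by_cases h2 : x₀ i = b
      · simp [h2]
      · simp [hcon _ h1 h2]
  have h4 := Finset.card_le_card hsub
  rw [Finset.card_map, Finset.card_univ, Fintype.card_fin] at h4
  have h3 := Finset.card_le_three (a := a) (b := b) (c := c)
  omega

/-- Degrees of sharply `4`-transitive actions (Jordan, Tits). -/
theorem S4.degree {G : Type*} [Group G] {Ω : Type*} [MulAction G Ω] (h : S4 G Ω)
    (x₀ : Fin 4 ↪ Ω) :
    Finite Ω ∧ (Nat.card Ω = 4 ∨ Nat.card Ω = 5 ∨ Nat.card Ω = 6 ∨ Nat.card Ω = 11) := by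
  classical
  have hx : ∀ i j : Fin 4, i ≠ j → x₀ i ≠ x₀ j := fun i j hij h => hij (x₀.injective h)
  obtain ⟨p1, hp1⟩ : ∃ p, p = x₀ 0 := ⟨_, rfl⟩
  obtain ⟨p2, hp2⟩ : ∃ p, p = x₀ 1 := ⟨_, rfl⟩
  obtain ⟨p3, hp3⟩ : ∃ p, p = x₀ 2 := ⟨_, rfl⟩
  obtain ⟨p4, hp4⟩ : ∃ p, p = x₀ 3 := ⟨_, rfl⟩
  have h12 : p1 ≠ p2 := by rw [hp1, hp2]; exact hx _ _ (by decide)
  have h13 : p1 ≠ p3 := by rw [hp1, hp3]; exact hx _ _ (by decide)
  have h14 : p1 ≠ p4 := by rw [hp1, hp4]; exact hx _ _ (by decide)
  have h23 : p2 ≠ p3 := by rw [hp2, hp3]; exact hx _ _ (by decide)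
  have h24 : p2 ≠ p4 := by rw [hp2, hp4]; exact hx _ _ (by decide)
  have h34 : p3 ≠ p4 := by rw [hp3, hp4]; exact hx _ _ (by decide)
  obtain ⟨t, ht1, ht2, ht3, ht4⟩ := h.tr p1 p2 p3 p4 p1 p2 p4 p3 h12 h13 h14 h23 h24 h34
    h12 h14 h13 h24 h23 (Ne.symm h34)
  have htt : t * t = 1 := by
    apply h.sh _ p1 p2 p3 p4 h12 h13 h14 h23 h24 h34
    · rw [mul_smul, ht1, ht1]
    · rw [mul_smul, ht2, ht2]
    · rw [mul_smul, ht3, ht4]
    · rw [mul_smul, ht4, ht3]
  have htt' : ∀ y : Ω, t • t • y = y := fun y => by rw [← mul_smul, htt, one_smul]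
  have ht_ne : t ≠ 1 := by
    intro h'
    rw [h', one_smul] at ht3
    exact h34 ht3
  obtain ⟨Fs, hFs⟩ : ∃ Fs : Set Ω, Fs = {y | t • y = y} := ⟨_, rfl⟩
  obtain ⟨Rs, hRs⟩ : ∃ Rs : Set Ω, Rs = {y | t • y ≠ y ∧ y ≠ p3 ∧ y ≠ p4} := ⟨_, rfl⟩
  have hFmem : ∀ y, y ∈ Fs ↔ t • y = y := by
    intro y
    rw [hFs]
    rfl
  have hRmem : ∀ y, y ∈ Rs ↔ (t • y ≠ y ∧ y ≠ p3 ∧ y ≠ p4) := by
    intro y
    rw [hRs]
    rfl
  have hF : Finite ↥Fs ∧ Nat.card ↥Fs ≤ 3 := by
    apply finite_of_no_emb 3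
    refine ⟨fun e => ht_ne ?_⟩
    have hne' : ∀ i j : Fin 4, i ≠ j → (e i).1 ≠ (e j).1 :=
      fun i j hij h => hij (e.injective (Subtype.ext h))
    exact h.sh t (e 0).1 (e 1).1 (e 2).1 (e 3).1 (hne' _ _ (by decide)) (hne' _ _ (by decide))
      (hne' _ _ (by decide)) (hne' _ _ (by decide)) (hne' _ _ (by decide)) (hne' _ _ (by decide))
      ((hFmem _).mp (e 0).2) ((hFmem _).mp (e 1).2) ((hFmem _).mp (e 2).2) ((hFmem _).mp (e 3).2)
  obtain ⟨hFfin, hFcard⟩ := hF
  have hFsfin : Fs.Finite := Set.toFinite Fs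
  have hFn : Fs.ncard ≤ 3 := by
    rw [← Nat.card_coe_set_eq]
    exact hFcard
  have hp1F : p1 ∈ Fs := (hFmem _).mpr ht1
  have hp2F : p2 ∈ Fs := (hFmem _).mpr ht2
  have hF2 : 2 ≤ Fs.ncard := by
    have h1 : ({p1, p2} : Set Ω).ncard = 2 := Set.ncard_pair h12
    rw [← h1]
    apply Set.ncard_le_ncard _ hFsfin
    intro y hy
    rcases hy with rfl | hy
    · exact hp1F
    · rw [Set.mem_singleton_iff] at hy
      rw [hy]
      exact hp2F
  have huniv : Fs ∪ ({p3, p4} ∪ Rs) = Set.univ := by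
    ext y
    simp only [Set.mem_union, Set.mem_insert_iff, Set.mem_singleton_iff, Set.mem_univ, iff_true]
    by_cases hy : t • y = y
    · left
      exact (hFmem y).mpr hy
    · right
      by_cases h3 : y = p3
      · left
        left
        exact h3
      · by_cases h4 : y = p4
        · left
          right
          exact h4
        · right
          exact (hRmem y).mpr ⟨hy, h3, h4⟩
  have hd1 : Disjoint Fs ({p3, p4} ∪ Rs) := by
    rw [Set.disjoint_left]
    intro y hy hy'
    rw [hFmem] at hy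
    rcases hy' with hy' | hy'
    · rcases hy' with hy' | hy'
      · rw [hy', ht3] at hy
        exact h34 hy.symm
      · rw [Set.mem_singleton_iff] at hy'
        rw [hy', ht4] at hy
        exact h34 hy
    · exact ((hRmem y).mp hy').1 hy
  have hd2 : Disjoint ({p3, p4} : Set Ω) Rs := by
    rw [Set.disjoint_left]
    intro y hy hy'
    rw [hRmem] at hy'
    rcases hy with hy | hy
    · exact hy'.2.1 hy
    · exact hy'.2.2 hy
  have hcount : Rs.Finite → Finite Ω ∧ Nat.card Ω = Fs.ncard + (2 + Rs.ncard) := by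
    intro hRfin
    have hfinU : (Set.univ : Set Ω).Finite := by
      rw [← huniv]
      exact hFsfin.union ((Set.toFinite _).union hRfin)
    refine ⟨Set.finite_univ_iff.mp hfinU, ?_⟩
    rw [← Set.ncard_univ, ← huniv, Set.ncard_union_eq hd1 hFsfin ((Set.toFinite _).union hRfin),
      Set.ncard_union_eq hd2 (Set.toFinite _) hRfin, Set.ncard_pair h34]
  have hpar : Finite Ω → Nat.card Ω ≡ Fs.ncard [MOD 2] := by
    intro hfin
    letI := Fintype.ofFinite Ω
    have hσ : (MulAction.toEndHom (M := G) (α := Ω) t) ^ 2 ^ 1 = 1 := by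
      rw [← map_pow, pow_one, sq, htt, map_one]
    have hmod := Equiv.Perm.card_fixedPoints_modEq (p := 2) (n := 1) hσ
    have hFeq : Nat.card (Function.fixedPoints (MulAction.toEndHom (M := G) (α := Ω) t))
        = Fs.ncard := by
      rw [← Nat.card_coe_set_eq]
      exact Nat.card_congr (Equiv.subtypeEquivRight (fun y => by rw [hFmem]; rfl))
    rw [← Nat.card_eq_fintype_card, ← Nat.card_eq_fintype_card, hFeq] at hmod
    exact hmod
  by_cases hRe : Rs = ∅
  · obtain ⟨hfin, hc⟩ := hcount (by rw [hRe]; exact Set.finite_empty)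
    rw [hRe, Set.ncard_empty] at hc
    refine ⟨hfin, ?_⟩
    omega
  · obtain ⟨d₀, hd₀⟩ := Set.nonempty_iff_ne_empty.mpr hRe
    obtain ⟨hd0, hd3, hd4⟩ := (hRmem d₀).mp hd₀
    have hmove : ∀ y : Ω, t • y ≠ y → y ≠ p3 → y ≠ p4 → t • y ≠ p3 ∧ t • y ≠ p4 := by
      intro y h1 h2 h3
      constructor
      · intro h'
        apply h3
        rw [← htt' y, h', ht3]
      · intro h'
        apply h2
        rw [← htt' y, h', ht4]
    obtain ⟨hd5, hd6⟩ := hmove d₀ hd0 hd3 hd4
    obtain ⟨S, hS⟩ : ∃ S : Subgroup G, ∀ g, g ∈ S ↔ (g * t = t * g ∧ g • p3 = p3) :=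
      ⟨Subgroup.centralizer {t} ⊓ MulAction.stabilizer G p3, fun g => by
        rw [Subgroup.mem_inf, Subgroup.mem_centralizer_iff, MulAction.mem_stabilizer_iff]
        constructor
        · rintro ⟨h1, h2⟩
          exact ⟨(h1 t rfl).symm, h2⟩
        · rintro ⟨h1, h2⟩
          refine ⟨fun x hx => ?_, h2⟩
          rw [Set.mem_singleton_iff] at hx
          rw [hx]
          exact h1.symm⟩
    have hS4 : ∀ g ∈ S, g • p4 = p4 := by
      intro g hg
      obtain ⟨e1, e2⟩ := (hS g).mp hg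
      rw [← ht3, ← mul_smul, e1, mul_smul, e2]
    have hSF : ∀ g ∈ S, ∀ y ∈ Fs, g • y ∈ Fs := by
      intro g hg y hy
      rw [hFmem] at hy ⊢
      obtain ⟨e1, e2⟩ := (hS g).mp hg
      rw [← mul_smul, ← e1, mul_smul, hy]
    obtain ⟨φ, hφ⟩ : ∃ φ : S →* Equiv.Perm ↥Fs,
        ∀ (g : S) (z : ↥Fs), ((φ g) z).1 = (g : G) • z.1 := by
      refine ⟨MonoidHom.mk' (fun g => ⟨fun z => ⟨(g : G) • z.1, hSF _ g.2 _ z.2⟩,
        fun z => ⟨(g : G)⁻¹ • z.1, hSF _ (S.inv_mem g.2) _ z.2⟩,
        fun z => Subtype.ext (inv_smul_smul _ _), fun z => Subtype.ext (smul_inv_smul _ _)⟩) ?_, ?_⟩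
      · intro g g'
        apply Equiv.ext
        intro z
        apply Subtype.ext
        exact mul_smul _ _ _
      · intro g z
        rfl
    have hφinj : Function.Injective φ := by
      rw [injective_iff_map_eq_one]
      intro g hg
      apply Subtype.ext
      have e : ∀ z : ↥Fs, (g : G) • z.1 = z.1 := by
        intro z
        rw [← hφ, hg]
        rfl
      exact h.sh _ p1 p2 p3 p4 h12 h13 h14 h23 h24 h34 (e ⟨p1, hp1F⟩) (e ⟨p2, hp2F⟩)
        ((hS _).mp g.2).2 (hS4 _ g.2)
    haveI : Finite S := Finite.of_injective φ hφinj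
    have hSdvd : Nat.card S ∣ (Fs.ncard).factorial := by
      have h1 := Subgroup.card_dvd_of_injective φ hφinj
      rw [Nat.card_perm, Nat.card_coe_set_eq] at h1
      exact h1
    have hSR : ∀ g ∈ S, g • d₀ ∈ Rs := by
      intro g hg
      obtain ⟨e1, e2⟩ := (hS g).mp hg
      rw [hRmem]
      refine ⟨?_, ?_, ?_⟩
      · intro h'
        apply hd0
        rw [← mul_smul, ← e1, mul_smul] at h'
        exact smul_left_cancel g h'
      · intro h'
        exact hd3 (smul_left_cancel g (h'.trans e2.symm))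
      · intro h'
        exact hd4 (smul_left_cancel g (h'.trans (hS4 g hg).symm))
    have hbij : Function.Bijective (fun g : S => (⟨(g : G) • d₀, hSR _ g.2⟩ : ↥Rs)) := by
      constructor
      · intro g g' hgg'
        have e0 : (g : G) • d₀ = (g' : G) • d₀ := congrArg Subtype.val hgg'
        obtain ⟨e1, e2⟩ := (hS _).mp g.2
        obtain ⟨e1', e2'⟩ := (hS _).mp g'.2
        apply Subtype.ext
        apply h.eq _ _ p3 p4 d₀ (t • d₀) h34 (Ne.symm hd3) (Ne.symm hd5) (Ne.symm hd4)
          (Ne.symm hd6) (Ne.symm hd0)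
        · rw [e2, e2']
        · rw [hS4 _ g.2, hS4 _ g'.2]
        · exact e0
        · rw [← mul_smul, ← mul_smul, e1, e1', mul_smul, mul_smul, e0]
      · intro y
        obtain ⟨hy0, hy3, hy4⟩ := (hRmem _).mp y.2
        obtain ⟨hy5, hy6⟩ := hmove _ hy0 hy3 hy4
        obtain ⟨g, e1, e2, e3, e4⟩ := h.tr p3 p4 d₀ (t • d₀) p3 p4 y.1 (t • y.1) h34 (Ne.symm hd3)
          (Ne.symm hd5) (Ne.symm hd4) (Ne.symm hd6) (Ne.symm hd0) h34 (Ne.symm hy3)
          (Ne.symm hy5) (Ne.symm hy4) (Ne.symm hy6) (Ne.symm hy0)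
        have hgS : g ∈ S := by
          rw [hS]
          refine ⟨?_, e1⟩
          apply h.eq _ _ p3 p4 d₀ (t • d₀) h34 (Ne.symm hd3) (Ne.symm hd5) (Ne.symm hd4)
            (Ne.symm hd6) (Ne.symm hd0)
          · rw [mul_smul, mul_smul, ht3, e2, e1, ht3]
          · rw [mul_smul, mul_smul, ht4, e1, e2, ht4]
          · rw [mul_smul, mul_smul, e4, e3]
          · rw [mul_smul, mul_smul, htt', e3, e4, htt']
        exact ⟨⟨g, hgS⟩, Subtype.ext e3⟩
    have hSRcard : Nat.card S = Rs.ncard := by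
      rw [← Nat.card_coe_set_eq]
      exact Nat.card_eq_of_bijective _ hbij
    have hRfin : Rs.Finite := by
      have : Finite ↥Rs := Finite.of_surjective _ hbij.2
      exact Set.toFinite Rs
    obtain ⟨hfin, hc⟩ := hcount hRfin
    have hmod := hpar hfin
    refine ⟨hfin, ?_⟩
    have hRpos : 0 < Rs.ncard := (Set.ncard_pos hRfin).mpr ⟨d₀, hd₀⟩
    rw [hSRcard] at hSdvd
    have hF23 : Fs.ncard = 2 ∨ Fs.ncard = 3 := by omega
    have hReven : Rs.ncard % 2 = 0 := by
      rw [hc] at hmod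
      unfold Nat.ModEq at hmod
      omega
    rcases hF23 with hF2' | hF3
    · rw [hF2'] at hSdvd hc
      have h2 : (2 : ℕ).factorial = 2 := rfl
      rw [h2] at hSdvd
      have hle := Nat.le_of_dvd (by norm_num) hSdvd
      right
      right
      left
      omega
    · rw [hF3] at hSdvd hc
      have h6 : (3 : ℕ).factorial = 6 := rfl
      rw [h6] at hSdvd
      have hle := Nat.le_of_dvd (by norm_num) hSdvd
      have hR26 : Rs.ncard = 2 ∨ Rs.ncard = 6 := by
        have h4 : Rs.ncard ≠ 4 := by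
          intro h4
          rw [h4] at hSdvd
          norm_num at hSdvd
        omega
      rcases hR26 with hR2 | hR6
      · exfalso
        have htd : t • d₀ ∈ Rs := by
          rw [hRmem]
          exact ⟨fun h' => hd0 (by rw [htt'] at h'; exact h'.symm), hd5, hd6⟩
        have hRall : ∀ y ∈ Rs, y = d₀ ∨ y = t • d₀ := by
          have hsub : ({d₀, t • d₀} : Set Ω) ⊆ Rs := by
            intro y hy
            rcases hy with hy | hy
            · rw [hy]
              exact hd₀
            · rw [Set.mem_singleton_iff] at hy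
              rw [hy]
              exact htd
          have heq2 : ({d₀, t • d₀} : Set Ω) = Rs := by
            apply Set.eq_of_subset_of_ncard_le hsub _ hRfin
            rw [hR2, Set.ncard_pair (Ne.symm hd0)]
          intro y hy
          rw [← heq2] at hy
          simpa using hy
        have hMall : ∀ y : Ω, t • y ≠ y → y = p3 ∨ y = p4 ∨ y = d₀ ∨ y = t • d₀ := by
          intro y hy
          by_cases h3 : y = p3
          · exact Or.inl h3
          · by_cases h4 : y = p4
            · exact Or.inr (Or.inl h4)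
            · exact Or.inr (Or.inr (hRall y ((hRmem y).mpr ⟨hy, h3, h4⟩)))
        obtain ⟨f3, hf3F, hf3n⟩ : ∃ f3, f3 ∈ Fs ∧ f3 ∉ ({p1, p2} : Set Ω) := by
          apply Set.exists_mem_notMem_of_ncard_lt_ncard _ (Set.toFinite _)
          rw [Set.ncard_pair h12, hF3]
          norm_num
        have hf31 : f3 ≠ p1 := fun h' => hf3n (by rw [h']; simp)
        have hf32 : f3 ≠ p2 := fun h' => hf3n (by rw [h']; simp)
        have htf3 : t • f3 = f3 := (hFmem f3).mp hf3F
        have hf33 : f3 ≠ p3 := by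
          intro h'
          rw [h', ht3] at htf3
          exact h34 htf3.symm
        have hFall : ∀ y : Ω, t • y = y → y = p1 ∨ y = p2 ∨ y = f3 := by
          have hsub : ({p1, p2, f3} : Set Ω) ⊆ Fs := by
            intro y hy
            rcases hy with hy | hy | hy
            · rw [hy]
              exact hp1F
            · rw [hy]
              exact hp2F
            · rw [Set.mem_singleton_iff] at hy
              rw [hy]
              exact hf3F
          have heq3 : ({p1, p2, f3} : Set Ω) = Fs := by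
            apply Set.eq_of_subset_of_ncard_le hsub _ hFsfin
            rw [hF3]
            exact le_of_eq (Set.ncard_eq_three.mpr
              ⟨p1, p2, f3, h12, Ne.symm hf31, Ne.symm hf32, rfl⟩).symm
          intro y hy
          have hy' : y ∈ ({p1, p2, f3} : Set Ω) := by
            rw [heq3]
            exact (hFmem y).mpr hy
          simpa using hy'
        obtain ⟨w, hw1, hw2, hw3, hw4⟩ := h.tr p3 p4 d₀ (t • d₀) d₀ (t • d₀) p3 p4 h34
          (Ne.symm hd3) (Ne.symm hd5) (Ne.symm hd4) (Ne.symm hd6) (Ne.symm hd0) (Ne.symm hd0)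
          hd3 hd4 hd5 hd6 h34
        obtain ⟨g, hg1, hg2, hg3, hg4⟩ := h.tr p3 p4 d₀ (t • d₀) p3 d₀ p4 (t • d₀) h34
          (Ne.symm hd3) (Ne.symm hd5) (Ne.symm hd4) (Ne.symm hd6) (Ne.symm hd0) (Ne.symm hd3)
          h34 (Ne.symm hd5) hd4 (Ne.symm hd0) (Ne.symm hd6)
        have hgt : g * t = w * g := by
          apply h.eq _ _ p3 p4 d₀ (t • d₀) h34 (Ne.symm hd3) (Ne.symm hd5) (Ne.symm hd4)
            (Ne.symm hd6) (Ne.symm hd0)
          · rw [mul_smul, mul_smul, ht3, hg2, hg1, hw1]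
          · rw [mul_smul, mul_smul, ht4, hg1, hg2, hw3]
          · rw [mul_smul, mul_smul, hg4, hg3, hw2]
          · rw [mul_smul, mul_smul, htt', hg3, hg4, hw4]
        have hwfix : ∀ y : Ω, w • y = y → t • y = y := by
          intro y hy
          by_contra hty
          rcases hMall y hty with e | e | e | e
          · rw [e, hw1] at hy
            exact hd3 hy
          · rw [e, hw2] at hy
            exact hd6 hy
          · rw [e, hw3] at hy
            exact hd3 hy.symm
          · rw [e, hw4] at hy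
            exact hd6 hy.symm
        have hgF : ∀ y : Ω, t • y = y → t • (g • y) = g • y := by
          intro y hy
          apply hwfix
          rw [← mul_smul, ← hgt, mul_smul, hy]
        have hwF : ∀ y : Ω, t • y = y → w • y = y := by
          intro y hy
          have hsurj : Function.Surjective (fun z : ↥Fs =>
              (⟨g • z.1, (hFmem _).mpr (hgF _ ((hFmem _).mp z.2))⟩ : ↥Fs)) := by
            apply Finite.surjective_of_injective
            intro z z' hzz'
            exact Subtype.ext (smul_left_cancel g (congrArg Subtype.val hzz'))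
          obtain ⟨z, hz⟩ := hsurj ⟨y, (hFmem _).mpr hy⟩
          have hz' : g • z.1 = y := congrArg Subtype.val hz
          rw [← hz', ← mul_smul, ← hgt, mul_smul, (hFmem _).mp z.2]
        have hww : w * w = 1 := by
          apply h.sh _ p3 p4 d₀ (t • d₀) h34 (Ne.symm hd3) (Ne.symm hd5) (Ne.symm hd4)
            (Ne.symm hd6) (Ne.symm hd0)
          · rw [mul_smul, hw1, hw3]
          · rw [mul_smul, hw2, hw4]
          · rw [mul_smul, hw3, hw1]
          · rw [mul_smul, hw4, hw2]
        have htw : (t * w) * (t * w) = 1 := by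
          apply h.sh _ p1 p2 f3 p3 h12 (Ne.symm hf31) h13 (Ne.symm hf32) h23 hf33
          · rw [mul_smul, mul_smul, mul_smul, hwF p1 ht1, ht1, hwF p1 ht1, ht1]
          · rw [mul_smul, mul_smul, mul_smul, hwF p2 ht2, ht2, hwF p2 ht2, ht2]
          · rw [mul_smul, mul_smul, mul_smul, hwF f3 htf3, htf3, hwF f3 htf3, htf3]
          · rw [mul_smul, mul_smul, mul_smul, hw1, hw4, ht4]
        have hii : ∀ k : G, k • p1 = p1 → k • p2 = p2 → k • f3 = f3 → k * k = 1 := by
          intro k k1 k2 k3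
          have hk3 : t • (k • p3) ≠ k • p3 := by
            intro h'
            rcases hFall _ h' with e | e | e
            · exact h13 (smul_left_cancel k (e.trans k1.symm)).symm
            · exact h23 (smul_left_cancel k (e.trans k2.symm)).symm
            · exact hf33 (smul_left_cancel k (e.trans k3.symm)).symm
          rcases hMall _ hk3 with e | e | e | e
          · have hk : k = 1 := h.sh k p1 p2 f3 p3 h12 (Ne.symm hf31) h13 (Ne.symm hf32) h23 hf33
              k1 k2 k3 e
            rw [hk, one_mul]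
          · have hk : k = t := h.eq k t p1 p2 f3 p3 h12 (Ne.symm hf31) h13 (Ne.symm hf32) h23 hf33
              (k1.trans ht1.symm) (k2.trans ht2.symm) (k3.trans htf3.symm) (e.trans ht3.symm)
            rw [hk, htt]
          · have hk : k = w := h.eq k w p1 p2 f3 p3 h12 (Ne.symm hf31) h13 (Ne.symm hf32) h23 hf33
              (k1.trans (hwF p1 ht1).symm) (k2.trans (hwF p2 ht2).symm)
              (k3.trans (hwF f3 htf3).symm) (e.trans hw1.symm)
            rw [hk, hww]
          · have hk : k = t * w := by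
              apply h.eq k (t * w) p1 p2 f3 p3 h12 (Ne.symm hf31) h13 (Ne.symm hf32) h23 hf33
              · rw [mul_smul, hwF p1 ht1, ht1, k1]
              · rw [mul_smul, hwF p2 ht2, ht2, k2]
              · rw [mul_smul, hwF f3 htf3, htf3, k3]
              · rw [mul_smul, hw1, e]
            rw [hk, htw]
        have hiii : ∀ (k : G) (y1 y2 y3 : Ω), y1 ≠ y2 → y1 ≠ y3 → y2 ≠ y3 → k • y1 = y1 →
            k • y2 = y2 → k • y3 = y3 → k * k = 1 := by
          intro k y1 y2 y3 n12 n13 n23 k1 k2 k3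
          obtain ⟨y4, n41, n42, n43⟩ := exists_ne3 x₀ y1 y2 y3
          obtain ⟨c, c1, c2, c3, -⟩ := h.tr p1 p2 f3 p3 y1 y2 y3 y4 h12 (Ne.symm hf31) h13
            (Ne.symm hf32) h23 hf33 n12 n13 (Ne.symm n41) n23 (Ne.symm n42) (Ne.symm n43)
          have hc : (c⁻¹ * k * c) * (c⁻¹ * k * c) = 1 := by
            apply hii
            · rw [mul_smul, mul_smul, c1, k1, ← c1, inv_smul_smul]
            · rw [mul_smul, mul_smul, c2, k2, ← c2, inv_smul_smul]
            · rw [mul_smul, mul_smul, c3, k3, ← c3, inv_smul_smul]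
          have hc2 : c⁻¹ * (k * k) * c = 1 := by
            rw [← hc]
            group
          have hc3 := congrArg (fun z => c * z * c⁻¹) hc2
          simpa [mul_assoc] using hc3
        have hd01 : d₀ ≠ p1 := by
          intro h'
          rw [h'] at hd0
          exact hd0 ht1
        have hd02 : d₀ ≠ p2 := by
          intro h'
          rw [h'] at hd0
          exact hd0 ht2
        have htd1 : t • d₀ ≠ p1 := by
          intro h'
          apply hd01
          rw [← htt' d₀, h', ht1]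
        have htd2 : t • d₀ ≠ p2 := by
          intro h'
          apply hd02
          rw [← htt' d₀, h', ht2]
        obtain ⟨k, k1, k2, k3, k4⟩ := h.tr p1 p2 p3 d₀ p1 p2 p3 (t • d₀) h12 h13 (Ne.symm hd01)
          h23 (Ne.symm hd02) (Ne.symm hd3) h12 h13 (Ne.symm htd1) h23 (Ne.symm htd2) (Ne.symm hd5)
        have hkk := hiii k p1 p2 p3 h12 h13 h23 k1 k2 k3
        have k5 : k • (t • d₀) = d₀ := by
          rw [← k4, ← mul_smul, hkk, one_smul]
        have hkt : k = t := by
          apply h.eq k t p1 p2 d₀ (t • d₀) h12 (Ne.symm hd01) (Ne.symm htd1) (Ne.symm hd02)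
            (Ne.symm htd2) (Ne.symm hd0)
          · rw [k1, ht1]
          · rw [k2, ht2]
          · exact k4
          · rw [k5, htt']
        rw [hkt, ht3] at k3
        exact h34 k3.symm
      · right
        right
        right
        omega

end Cfsg.Agent.Lib.helper2.Sharp4
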