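import Cfsg.Agent.Lib.helper2.Sharp4

set_option autoImplicit false

namespace Cfsg.Agent.Lib.helper2.Sharp4

open MulAction

/-- Sharp `k`-transitivity. -/
def SharpK (G : Type*) [Group G] (Ω : Type*) [MulAction G Ω] (k : ℕ) : Prop :=
  IsMultiplyPretransitive G Ω k ∧ ∀ x : Fin k ↪ Ω, stabilizer G x = ⊥

theorem SharpK.stab {G : Type*} [Group G] {Ω : Type*} [MulAction G Ω] {k : ℕ}
    (h : SharpK G Ω (k + 1)) (a : Ω) :
    SharpK (stabilizer G a) (SubMulAction.ofStabilizer G a) k := by
  obtain ⟨htr, hsh⟩ := h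
  constructor
  · refine ⟨fun x y => ?_⟩
    obtain ⟨g, hgxy⟩ := htr.exists_smul_eq (SubMulAction.ofStabilizer.snoc x)
      (SubMulAction.ofStabilizer.snoc y)
    have hg : g ∈ stabilizer G a := by
      have h1 := DFunLike.congr_fun hgxy (Fin.last k)
      rw [Function.Embedding.smul_apply, SubMulAction.ofStabilizer.snoc_last,
        SubMulAction.ofStabilizer.snoc_last] at h1
      exact h1
    refine ⟨⟨g, hg⟩, ?_⟩
    ext i
    have h1 := DFunLike.congr_fun hgxy i.castSucc
    rw [Function.Embedding.smul_apply, SubMulAction.ofStabilizer.snoc_castSucc,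
      SubMulAction.ofStabilizer.snoc_castSucc] at h1
    exact h1
  · intro x
    rw [eq_bot_iff]
    intro g hg
    rw [mem_stabilizer_iff] at hg
    have h1 : (g : G) ∈ stabilizer G (SubMulAction.ofStabilizer.snoc x) := by
      rw [mem_stabilizer_iff]
      ext i
      rw [Function.Embedding.smul_apply]
      rcases Fin.eq_castSucc_or_eq_last i with ⟨j, rfl⟩ | rfl
      · rw [SubMulAction.ofStabilizer.snoc_castSucc]
        have h2 := DFunLike.congr_fun hg j
        exact congrArg Subtype.val h2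
      · rw [SubMulAction.ofStabilizer.snoc_last]
        exact g.2
    rw [hsh, Subgroup.mem_bot] at h1
    rw [Subgroup.mem_bot]
    exact Subtype.ext h1

theorem card_ofStabilizer {G : Type*} [Group G] {Ω : Type*} [MulAction G Ω] [Finite Ω] (a : Ω) :
    Nat.card (SubMulAction.ofStabilizer G a) + 1 = Nat.card Ω := by
  have h1 : Nat.card (SubMulAction.ofStabilizer G a) = ({a}ᶜ : Set Ω).ncard := by
    rw [← Nat.card_coe_set_eq]
    rfl
  rw [h1, Set.ncard_compl, Set.ncard_singleton]
  have : 0 < Nat.card Ω := Nat.card_pos_iff.mpr ⟨⟨a⟩, inferInstance⟩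
  omega

theorem SharpK.s4 {G : Type*} [Group G] {Ω : Type*} [MulAction G Ω] (h : SharpK G Ω 4) :
    S4 G Ω := S4.of h.1 h.2

/-- Degrees of sharply `5`-transitive actions. -/
theorem SharpK.degree5 {G : Type*} [Group G] {Ω : Type*} [MulAction G Ω] [Finite Ω]
    (h : SharpK G Ω 5) (h5 : 5 ≤ Nat.card Ω) :
    Nat.card Ω = 5 ∨ Nat.card Ω = 6 ∨ Nat.card Ω = 7 ∨ Nat.card Ω = 12 := by
  obtain ⟨a⟩ : Nonempty Ω := (Nat.card_pos_iff.mp (by omega)).1
  have hc := card_ofStabilizer (G := G) a
  have h4 := (h.stab a).s4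
  letI := Fintype.ofFinite (SubMulAction.ofStabilizer G a)
  obtain ⟨x₀⟩ := Function.Embedding.nonempty_of_card_le (α := Fin 4)
    (β := SubMulAction.ofStabilizer G a)
    (by rw [Fintype.card_fin, ← Nat.card_eq_fintype_card]; omega)
  obtain ⟨-, hdeg⟩ := h4.degree x₀
  omega

end Cfsg.Agent.Lib.helper2.Sharp4
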