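import Cfsg.Agent.Lib.helper2.SharpK

set_option autoImplicit false

namespace Cfsg.Agent.Lib.helper2.Sharp4

open MulAction

universe u v

theorem SharpK.card_eq {G : Type*} [Group G] {Ω : Type*} [MulAction G Ω] [Finite Ω] {k : ℕ}
    (h : SharpK G Ω k) (hk : k ≤ Nat.card Ω) :
    Finite G ∧ Nat.card G = (Nat.card Ω).descFactorial k := by
  classical
  letI := Fintype.ofFinite Ω
  obtain ⟨x₀⟩ := Function.Embedding.nonempty_of_card_le (α := Fin k) (β := Ω)
    (by rw [Fintype.card_fin, ← Nat.card_eq_fintype_card]; exact hk)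
  have hbij : Function.Bijective (fun g : G => g • x₀) := by
    constructor
    · intro g g' hgg'
      have hgg : g • x₀ = g' • x₀ := hgg'
      have h1 : g'⁻¹ * g ∈ stabilizer G x₀ := by
        rw [mem_stabilizer_iff, mul_smul, hgg, inv_smul_smul]
      rw [h.2, Subgroup.mem_bot] at h1
      exact (inv_mul_eq_one.mp h1).symm
    · intro y
      exact h.1.exists_smul_eq x₀ y
  have hfin : Finite G := Finite.of_injective _ hbij.1
  refine ⟨hfin, ?_⟩
  rw [Nat.card_eq_of_bijective _ hbij, Nat.card_eq_fintype_card, Fintype.card_embedding_eq,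
    Fintype.card_fin, ← Nat.card_eq_fintype_card]

theorem SharpK.faithful {G : Type*} [Group G] {Ω : Type*} [MulAction G Ω] [Finite Ω] {k : ℕ}
    (h : SharpK G Ω k) (hk : k ≤ Nat.card Ω) (g : G) (hg : ∀ x : Ω, g • x = x) : g = 1 := by
  classical
  letI := Fintype.ofFinite Ω
  obtain ⟨x₀⟩ := Function.Embedding.nonempty_of_card_le (α := Fin k) (β := Ω)
    (by rw [Fintype.card_fin, ← Nat.card_eq_fintype_card]; exact hk)
  have h1 : g ∈ stabilizer G x₀ := by
    rw [mem_stabilizer_iff]
    ext i
    exact hg _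
  rw [h.2, Subgroup.mem_bot] at h1
  exact h1

/-- A subgroup of prime order `p` in a group acting faithfully on `p` points is
self-centralizing, and its normalizer has order `p * m` with `m ∣ p - 1`. -/
theorem prime_normalizer {G : Type*} [Group G] [Finite G] {Ω : Type*} [MulAction G Ω] [Finite Ω]
    (hfaith : ∀ g : G, (∀ x : Ω, g • x = x) → g = 1) (p : ℕ) [hp : Fact p.Prime]
    (hΩ : Nat.card Ω = p) (P : Subgroup G) (hP : Nat.card P = p) :
    ∃ m, m ∣ p - 1 ∧ Nat.card (Subgroup.normalizer (P : Set G)) = p * m := by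
  classical
  haveI : IsCyclic P := isCyclic_of_prime_card hP
  have hPc : ∀ z ∈ P, ∀ z' ∈ P, z * z' = z' * z := by
    intro z hz z' hz'
    have h1 := (IsCyclic.commGroup (α := P)).mul_comm ⟨z, hz⟩ ⟨z', hz'⟩
    exact congrArg Subtype.val h1
  have hex : ∃ a : Ω, ∀ y : Ω, ∃ z ∈ P, z • a = y := by
    by_contra hcon
    push Not at hcon
    have htriv : ∀ z ∈ P, ∀ a : Ω, z • a = a := by
      intro z hz a
      have h1 : (orbit P a).ncard ∣ p := by
        rw [← index_stabilizer, ← hP]
        exact Subgroup.index_dvd_card _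
      rcases (Nat.dvd_prime hp.out).mp h1 with h1' | hp'
      · have hza : (⟨z, hz⟩ : P) • a ∈ orbit P a := mem_orbit _ _
        have haa : a ∈ orbit P a := mem_orbit_self _
        obtain ⟨b, hb⟩ := Set.ncard_eq_one.mp h1'
        rw [hb, Set.mem_singleton_iff] at hza haa
        exact hza.trans haa.symm
      · exfalso
        obtain ⟨y, hy⟩ := hcon a
        have hfull : orbit P a = Set.univ := by
          rw [Set.eq_univ_iff_ncard, hp', hΩ]
        have hy' : y ∈ orbit P a := by
          rw [hfull]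
          trivial
        obtain ⟨z', hz'⟩ := hy'
        exact hy z'.1 z'.2 hz'
    have h1 : ∀ z : P, z = 1 := fun z => Subtype.ext (hfaith z.1 (htriv z.1 z.2))
    have h2 : Nat.card P = 1 := by
      rw [Nat.card_eq_one_iff_unique]
      exact ⟨⟨fun a b => (h1 a).trans (h1 b).symm⟩, ⟨1⟩⟩
    rw [hP] at h2
    exact hp.out.one_lt.ne' h2
  obtain ⟨a, ha⟩ := hex
  have hcent : ∀ g : G, (∀ z ∈ P, g * z = z * g) → g ∈ P := by
    intro g hg
    obtain ⟨z, hz, hza⟩ := ha (g • a)
    have h1 : z⁻¹ * g = 1 := by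
      apply hfaith
      intro y
      obtain ⟨z', hz', rfl⟩ := ha y
      calc (z⁻¹ * g) • z' • a = (z⁻¹ * (g * z')) • a := by simp only [mul_smul]
        _ = (z⁻¹ * (z' * g)) • a := by rw [hg z' hz']
        _ = (z⁻¹ * z') • (g • a) := by simp only [mul_smul]
        _ = (z⁻¹ * z') • (z • a) := by rw [hza]
        _ = (z⁻¹ * (z' * z)) • a := by simp only [mul_smul]
        _ = (z⁻¹ * (z * z')) • a := by rw [hPc z' hz' z hz]
        _ = z' • a := by rw [inv_mul_cancel_left]
    rw [← inv_mul_eq_one.mp h1]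
    exact hz
  haveI hnorm : (P.subgroupOf (Subgroup.normalizer (P : Set G))).Normal :=
    Subgroup.normal_in_normalizer
  obtain ⟨φ, hφ⟩ : ∃ φ : ↥(Subgroup.normalizer (P : Set G)) →*
      MulAut ↥(P.subgroupOf (Subgroup.normalizer (P : Set G))), φ = MulAut.conjNormal := ⟨_, rfl⟩
  have hker : φ.ker = P.subgroupOf (Subgroup.normalizer (P : Set G)) := by
    ext g
    rw [MonoidHom.mem_ker, Subgroup.mem_subgroupOf]
    constructor
    · intro hg
      apply hcent
      intro z hz
      have hzN : z ∈ Subgroup.normalizer (P : Set G) := Subgroup.le_normalizer hz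
      have h1 := DFunLike.congr_fun hg (⟨⟨z, hzN⟩, hz⟩ :
        ↥(P.subgroupOf (Subgroup.normalizer (P : Set G))))
      have h2 := congrArg (fun x : ↥(P.subgroupOf (Subgroup.normalizer (P : Set G))) =>
        ((x : ↥(Subgroup.normalizer (P : Set G))) : G)) h1
      rw [hφ] at h2
      simp only [MulAut.conjNormal_apply, MulAut.one_apply] at h2
      have h3 : (g : G) * z * (g : G)⁻¹ = z := h2
      rw [mul_inv_eq_iff_eq_mul] at h3
      exact h3
    · intro hg
      apply MulEquiv.ext
      intro x
      apply Subtype.ext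
      apply Subtype.ext
      rw [hφ]
      simp only [MulAut.conjNormal_apply, MulAut.one_apply]
      have hx : ((x : ↥(Subgroup.normalizer (P : Set G))) : G) ∈ P := x.2
      show (g : G) * ((x : ↥(Subgroup.normalizer (P : Set G))) : G) * (g : G)⁻¹ = _
      rw [hPc _ hg _ hx, mul_inv_cancel_right]
  have hkcard : Nat.card φ.ker = p := by
    rw [hker, ← hP]
    exact Nat.card_congr (Subgroup.subgroupOfEquivOfLe Subgroup.le_normalizer).toEquiv
  haveI : IsCyclic ↥(P.subgroupOf (Subgroup.normalizer (P : Set G))) := by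
    apply isCyclic_of_prime_card (p := p)
    rw [← hker]
    exact hkcard
  have hrange : Nat.card φ.range ∣ p - 1 := by
    have h1 := Subgroup.card_subgroup_dvd_card φ.range
    have hc : Nat.card ↥(P.subgroupOf (Subgroup.normalizer (P : Set G))) = p := by
      rw [← hker]
      exact hkcard
    rw [IsCyclic.card_mulAut, hc, Nat.totient_prime hp.out] at h1
    exact h1
  refine ⟨Nat.card φ.range, hrange, ?_⟩
  rw [← Subgroup.card_mul_index φ.ker, Subgroup.index_ker, hkcard]

theorem sylow_card_of {G : Type*} [Group G] [Finite G] (p : ℕ) [hp : Fact p.Prime]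
    (P : Sylow p G) (m : ℕ) (hG : Nat.card G = p * m) (hm : ¬ p ∣ m) : Nat.card P = p := by
  have hm0 : m ≠ 0 := by
    intro h
    rw [h] at hm
    exact hm (dvd_zero p)
  rw [Sylow.card_eq_multiplicity, hG, Nat.factorization_mul hp.out.ne_zero hm0,
    Finsupp.add_apply, Nat.Prime.factorization_self hp.out,
    Nat.factorization_eq_zero_of_not_dvd hm, pow_one]

theorem no_sharp6_13 {G : Type*} [Group G] {Ω : Type*} [MulAction G Ω] [Finite Ω]
    (h : SharpK G Ω 6) (h13 : Nat.card Ω = 13) : False := by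
  obtain ⟨hfin, hcard⟩ := h.card_eq (by omega)
  rw [h13] at hcard
  have hG : Nat.card G = 13 * 95040 := by
    rw [hcard]
    decide
  haveI : Fact (Nat.Prime 13) := ⟨by norm_num⟩
  obtain ⟨P⟩ : Nonempty (Sylow 13 G) := inferInstance
  have hPcard : Nat.card P = 13 := sylow_card_of 13 P 95040 hG (by norm_num)
  obtain ⟨m, hm, hN⟩ := prime_normalizer (h.faithful (by omega)) 13 h13 (P : Subgroup G) hPcard
  have h1 : (Subgroup.normalizer ((P : Subgroup G) : Set G)).index % 13 = 1 := by
    have h0 := card_sylow_modEq_one 13 G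
    rw [Sylow.card_eq_index_normalizer P] at h0
    exact h0
  have h2 := Subgroup.card_mul_index (Subgroup.normalizer ((P : Subgroup G) : Set G))
  rw [hN, hG] at h2
  have hm12 : m ≤ 12 := Nat.le_of_dvd (by norm_num) hm
  have hm0 : 0 < m := Nat.pos_of_dvd_of_pos hm (by norm_num)
  have h3 : m * (Subgroup.normalizer ((P : Subgroup G) : Set G)).index = 95040 := by
    have h4 : 13 * (m * (Subgroup.normalizer ((P : Subgroup G) : Set G)).index) = 13 * 95040 := by
      rw [← h2]
      ring
    omega
  interval_cases m <;> first | omega | (norm_num at hm)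

/-- Degrees of sharply `k`-transitive actions, `k ≥ 6`. -/
theorem SharpK.degree_ge6 (k : ℕ) (hk : 6 ≤ k) :
    ∀ (G : Type u) [Group G] (Ω : Type v) [MulAction G Ω] [Finite Ω], SharpK G Ω k →
      k ≤ Nat.card Ω → Nat.card Ω = k ∨ Nat.card Ω = k + 1 ∨ Nat.card Ω = k + 2 := by
  induction k, hk using Nat.le_induction with
  | base =>
    intro G _ Ω _ _ h h6
    obtain ⟨a⟩ : Nonempty Ω := (Nat.card_pos_iff.mp (by omega)).1
    have hc := card_ofStabilizer (G := G) a
    have h5 := (h.stab a).degree5 (by omega)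
    have h13 : Nat.card Ω ≠ 13 := fun h13 => no_sharp6_13 h h13
    omega
  | succ k hk ih =>
    intro G _ Ω _ _ h hk1
    obtain ⟨a⟩ : Nonempty Ω := (Nat.card_pos_iff.mp (by omega)).1
    have hc := card_ofStabilizer (G := G) a
    have h' := ih (stabilizer G a) (SubMulAction.ofStabilizer G a) (h.stab a) (by omega)
    omega

end Cfsg.Agent.Lib.helper2.Sharp4
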