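import Mathlib
import Cfsg.Prelude.Def_Sporadic_a

set_option autoImplicit false

namespace Cfsg.Agent.Lib.helper2.Steiner

open Finset

variable {α : Type*} [Fintype α] [DecidableEq α]

/-- The finset of blocks. -/
noncomputable def Bf (B : Set (Finset α)) : Finset (Finset α) := by
  classical exact Finset.univ.filter (fun b => b ∈ B)

theorem mem_Bf {B : Set (Finset α)} {b : Finset α} : b ∈ Bf B ↔ b ∈ B := by
  classical simp [Bf]

theorem ncard_eq {B : Set (Finset α)} : B.ncard = (Bf B).card := by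
  classical
  rw [← Set.ncard_coe_finset]
  congr 1
  ext b
  simp [mem_Bf]

theorem card_powersetCard_superset (A I : Finset α) (t : ℕ) (hI : I ⊆ A) (hit : I.card ≤ t) :
    ((powersetCard t A).filter (fun s => I ⊆ s)).card
      = Nat.choose (A.card - I.card) (t - I.card) := by
  rw [← card_sdiff_of_subset hI, ← card_powersetCard]
  apply Finset.card_bij' (fun s _ => s \ I) (fun s' _ => s' ∪ I)
  · intro s hs
    simp only [mem_filter, mem_powersetCard] at hs ⊢
    obtain ⟨⟨hsA, hst⟩, hIs⟩ := hs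
    refine ⟨sdiff_subset_sdiff hsA le_rfl, ?_⟩
    rw [card_sdiff_of_subset hIs, hst]
  · intro s' hs'
    simp only [mem_filter, mem_powersetCard] at hs' ⊢
    obtain ⟨hs'A, hs't⟩ := hs'
    refine ⟨⟨union_subset (hs'A.trans sdiff_subset) hI, ?_⟩, subset_union_right⟩
    rw [card_union_of_disjoint (disjoint_of_subset_left hs'A sdiff_disjoint), hs't]
    omega
  · intro s hs
    simp only [mem_filter, mem_powersetCard] at hs
    exact sdiff_union_of_subset hs.2
  · intro s' hs'
    simp only [mem_powersetCard] at hs'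
    apply union_sdiff_cancel_right
    exact disjoint_of_subset_left hs'.1 sdiff_disjoint

theorem card_blocks_through {t k : ℕ} {B : Set (Finset α)} (hB : Cfsg.IsSteinerSystem t k B)
    (I : Finset α) (hit : I.card ≤ t) :
    ((Bf B).filter (fun c => I ⊆ c)).card * Nat.choose (k - I.card) (t - I.card)
      = Nat.choose (Fintype.card α - I.card) (t - I.card) := by
  have h1 := card_powersetCard_superset (univ : Finset α) I t (subset_univ _) hit
  rw [card_univ] at h1
  rw [← h1]
  have h2 : (powersetCard t (univ : Finset α)).filter (fun s => I ⊆ s)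
      = ((Bf B).filter (fun c => I ⊆ c)).biUnion
          (fun c => (powersetCard t c).filter (fun s => I ⊆ s)) := by
    ext s
    simp only [mem_filter, mem_powersetCard, mem_biUnion, subset_univ, true_and]
    constructor
    · rintro ⟨hst, hIs⟩
      obtain ⟨c, ⟨hcB, hsc⟩, _⟩ := hB.2 s hst
      exact ⟨c, ⟨mem_Bf.2 hcB, hIs.trans hsc⟩, ⟨hsc, hst⟩, hIs⟩
    · rintro ⟨c, _, ⟨_, hst⟩, hIs⟩
      exact ⟨hst, hIs⟩
  rw [h2, card_biUnion]
  · have h3 : ∀ c ∈ (Bf B).filter (fun c => I ⊆ c),
        ((powersetCard t c).filter (fun s => I ⊆ s)).card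
          = Nat.choose (k - I.card) (t - I.card) := by
      intro c hc
      rw [mem_filter] at hc
      rw [card_powersetCard_superset c I t hc.2 hit, hB.1 c (mem_Bf.1 hc.1)]
    rw [Finset.sum_congr rfl h3, sum_const, smul_eq_mul]
  · intro c hc c' hc' hne
    rw [Function.onFun, Finset.disjoint_left]
    intro s hs hs'
    simp only [mem_filter, mem_powersetCard] at hs hs'
    simp only [coe_filter, Set.mem_ofPred_eq] at hc hc'
    obtain ⟨u, _, hu⟩ := hB.2 s hs.1.2
    exact hne ((hu c ⟨mem_Bf.1 hc.1, hs.1.1⟩).trans (hu c' ⟨mem_Bf.1 hc'.1, hs'.1.1⟩).symm)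

theorem sum_choose_inter {t k : ℕ} {B : Set (Finset α)} (hB : Cfsg.IsSteinerSystem t k B)
    (b : Finset α) (i : ℕ) (hit : i ≤ t) :
    (∑ c ∈ Bf B, Nat.choose (b ∩ c).card i) * Nat.choose (k - i) (t - i)
      = Nat.choose b.card i * Nat.choose (Fintype.card α - i) (t - i) := by
  have h1 : ∀ c : Finset α, Nat.choose (b ∩ c).card i
      = ∑ I ∈ powersetCard i b, (if I ⊆ c then 1 else 0) := by
    intro c
    rw [← card_powersetCard, ← Finset.card_filter]
    congr 1
    ext I
    simp only [mem_powersetCard, mem_filter, subset_inter_iff]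
    tauto
  rw [Finset.sum_congr rfl (fun c _ => h1 c), Finset.sum_comm, Finset.sum_mul]
  have h2 : ∀ I ∈ powersetCard i b,
      (∑ c ∈ Bf B, (if I ⊆ c then 1 else 0)) * Nat.choose (k - i) (t - i)
        = Nat.choose (Fintype.card α - i) (t - i) := by
    intro I hI
    rw [mem_powersetCard] at hI
    rw [← Finset.card_filter]
    have := card_blocks_through hB I (by rw [hI.2]; exact hit)
    rw [hI.2] at this
    exact this
  rw [Finset.sum_congr rfl h2, sum_const, card_powersetCard, smul_eq_mul]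

theorem inter_lt {t k : ℕ} {B : Set (Finset α)} (hB : Cfsg.IsSteinerSystem t k B)
    {b c : Finset α} (hb : b ∈ B) (hc : c ∈ B) (hbc : b ≠ c) : (b ∩ c).card < t := by
  by_contra hcon
  rw [not_lt] at hcon
  obtain ⟨s, hs, hst⟩ := exists_subset_card_eq hcon
  obtain ⟨u, _, hu⟩ := hB.2 s hst
  exact hbc ((hu b ⟨hb, hs.trans inter_subset_left⟩).trans
    (hu c ⟨hc, hs.trans inter_subset_right⟩).symm)

/-- Number of blocks other than `b` meeting `b` in exactly `m` points. -/
noncomputable def nInter (B : Set (Finset α)) (b : Finset α) (m : ℕ) : ℕ :=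
  (((Bf B).erase b).filter (fun c => (b ∩ c).card = m)).card

theorem sum_nInter {t k : ℕ} {B : Set (Finset α)} (hB : Cfsg.IsSteinerSystem t k B)
    {b : Finset α} (hb : b ∈ B) (i : ℕ) (hit : i ≤ t) :
    (∑ m ∈ range t, Nat.choose m i * nInter B b m + Nat.choose k i) * Nat.choose (k - i) (t - i)
      = Nat.choose k i * Nat.choose (Fintype.card α - i) (t - i) := by
  have h1 := sum_choose_inter hB b i hit
  rw [hB.1 b hb] at h1
  rw [← h1]
  congr 1
  rw [← Finset.add_sum_erase (Bf B) _ (mem_Bf.2 hb), inter_self, hB.1 b hb, add_comm]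
  congr 1
  rw [← Finset.sum_fiberwise_of_maps_to (g := fun c => (b ∩ c).card) (t := range t)]
  · apply Finset.sum_congr rfl
    intro m _
    rw [nInter, Finset.card_eq_sum_ones, Finset.mul_sum]
    apply Finset.sum_congr rfl
    intro c hc
    rw [mem_filter] at hc
    rw [hc.2, mul_one]
  · intro c hc
    rw [mem_erase] at hc
    rw [mem_range]
    exact inter_lt hB hb (mem_Bf.1 hc.2) (Ne.symm hc.1)

theorem nInter_eq_zero {B : Set (Finset α)} {b c : Finset α} {m : ℕ}
    (h0 : nInter B b m = 0) (hc : c ∈ B) (hbc : b ≠ c) : (b ∩ c).card ≠ m := by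
  intro hm
  rw [nInter, Finset.card_eq_zero] at h0
  have : c ∈ ((Bf B).erase b).filter (fun c => (b ∩ c).card = m) := by
    rw [mem_filter, mem_erase]
    exact ⟨⟨Ne.symm hbc, mem_Bf.2 hc⟩, hm⟩
  rw [h0] at this
  exact absurd this (Finset.notMem_empty _)

theorem nInter_5_8_24 (hα : Fintype.card α = 24) {B : Set (Finset α)}
    (hB : Cfsg.IsSteinerSystem 5 8 B) {b : Finset α} (hb : b ∈ B) :
    nInter B b 0 = 30 ∧ nInter B b 1 = 0 ∧ nInter B b 2 = 448 ∧ nInter B b 3 = 0
      ∧ nInter B b 4 = 280 := by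
  have h0 := sum_nInter hB hb 0 (by norm_num)
  have h1 := sum_nInter hB hb 1 (by norm_num)
  have h2 := sum_nInter hB hb 2 (by norm_num)
  have h3 := sum_nInter hB hb 3 (by norm_num)
  have h4 := sum_nInter hB hb 4 (by norm_num)
  rw [hα] at h0 h1 h2 h3 h4
  simp only [Finset.sum_range_succ, Finset.sum_range_zero] at h0 h1 h2 h3 h4
  norm_num [Nat.choose] at h0 h1 h2 h3 h4
  omega

theorem nInter_4_7_23 (hα : Fintype.card α = 23) {B : Set (Finset α)}
    (hB : Cfsg.IsSteinerSystem 4 7 B) {b : Finset α} (hb : b ∈ B) :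
    nInter B b 0 = 0 ∧ nInter B b 1 = 112 ∧ nInter B b 2 = 0 ∧ nInter B b 3 = 140 := by
  have h0 := sum_nInter hB hb 0 (by norm_num)
  have h1 := sum_nInter hB hb 1 (by norm_num)
  have h2 := sum_nInter hB hb 2 (by norm_num)
  have h3 := sum_nInter hB hb 3 (by norm_num)
  rw [hα] at h0 h1 h2 h3
  simp only [Finset.sum_range_succ, Finset.sum_range_zero] at h0 h1 h2 h3
  norm_num [Nat.choose] at h0 h1 h2 h3
  omega

theorem nInter_3_6_22 (hα : Fintype.card α = 22) {B : Set (Finset α)}
    (hB : Cfsg.IsSteinerSystem 3 6 B) {b : Finset α} (hb : b ∈ B) :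
    nInter B b 0 = 16 ∧ nInter B b 1 = 0 ∧ nInter B b 2 = 60 := by
  have h0 := sum_nInter hB hb 0 (by norm_num)
  have h1 := sum_nInter hB hb 1 (by norm_num)
  have h2 := sum_nInter hB hb 2 (by norm_num)
  rw [hα] at h0 h1 h2
  simp only [Finset.sum_range_succ, Finset.sum_range_zero] at h0 h1 h2
  norm_num [Nat.choose] at h0 h1 h2
  omega

theorem nInter_5_6_12 (hα : Fintype.card α = 12) {B : Set (Finset α)}
    (hB : Cfsg.IsSteinerSystem 5 6 B) {b : Finset α} (hb : b ∈ B) :
    nInter B b 0 = 1 ∧ nInter B b 1 = 0 ∧ nInter B b 2 = 45 ∧ nInter B b 3 = 40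
      ∧ nInter B b 4 = 45 := by
  have h0 := sum_nInter hB hb 0 (by norm_num)
  have h1 := sum_nInter hB hb 1 (by norm_num)
  have h2 := sum_nInter hB hb 2 (by norm_num)
  have h3 := sum_nInter hB hb 3 (by norm_num)
  have h4 := sum_nInter hB hb 4 (by norm_num)
  rw [hα] at h0 h1 h2 h3 h4
  simp only [Finset.sum_range_succ, Finset.sum_range_zero] at h0 h1 h2 h3 h4
  norm_num [Nat.choose] at h0 h1 h2 h3 h4
  omega

end Cfsg.Agent.Lib.helper2.Steiner
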