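import Mathlib
import Cfsg.Agent.Lib.helper2.Steiner

set_option autoImplicit false

namespace Cfsg.Agent.Lib.helper2.Steiner

open Finset

variable {α : Type*} [Fintype α] [DecidableEq α]

theorem inter_5_8_24 (hα : Fintype.card α = 24) {B : Set (Finset α)}
    (hB : Cfsg.IsSteinerSystem 5 8 B) {b c : Finset α} (hb : b ∈ B) (hc : c ∈ B) (hbc : b ≠ c) :
    (b ∩ c).card = 0 ∨ (b ∩ c).card = 2 ∨ (b ∩ c).card = 4 := by
  obtain ⟨_, h1, _, h3, _⟩ := nInter_5_8_24 hα hB hb
  have hlt := inter_lt hB hb hc hbc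
  have hn1 := nInter_eq_zero h1 hc hbc
  have hn3 := nInter_eq_zero h3 hc hbc
  omega

theorem sum_inter_sdiff_le {t k : ℕ} {B : Set (Finset α)}
    (hB : Cfsg.IsSteinerSystem (t + 1) k B) (T O : Finset α) (hT : T.card = t) :
    ∑ f ∈ (Bf B).filter (fun f => T ⊆ f), (O ∩ (f \ T)).card ≤ (O \ T).card := by
  rw [← card_biUnion]
  · apply card_le_card
    intro x hx
    simp only [mem_biUnion, mem_filter, mem_inter, mem_sdiff] at hx
    obtain ⟨f, _, hxO, _, hxT⟩ := hx
    rw [mem_sdiff]
    exact ⟨hxO, hxT⟩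
  · intro f hf f' hf' hne
    rw [Function.onFun, Finset.disjoint_left]
    intro x hx hx'
    simp only [mem_inter, mem_sdiff] at hx hx'
    simp only [coe_filter, Set.mem_ofPred_eq] at hf hf'
    have hcard : (insert x T).card = t + 1 := by rw [card_insert_of_notMem hx.2.2, hT]
    obtain ⟨u, _, hu⟩ := hB.2 _ hcard
    apply hne
    exact (hu f ⟨mem_Bf.1 hf.1, insert_subset hx.2.1 hf.2⟩).trans
      (hu f' ⟨mem_Bf.1 hf'.1, insert_subset hx'.2.1 hf'.2⟩).symm

theorem contains_of_three_two (hα : Fintype.card α = 24) {B : Set (Finset α)}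
    (hB : Cfsg.IsSteinerSystem 5 8 B) {b c O : Finset α}
    (hb : b ∈ B) (hc : c ∈ B) (hO : O ∈ B) (h4 : (b ∩ c).card = 4)
    (hX : 3 ≤ (O ∩ (b \ c)).card) (hY : 2 ≤ (O ∩ (c \ b)).card) : b \ c ⊆ O := by
  have hb8 := hB.1 b hb
  have hc8 := hB.1 c hc
  have hO8 := hB.1 O hO
  have hbc : b ≠ c := by
    rintro rfl
    rw [inter_self, hb8] at h4
    omega
  have hXc : (b \ c).card = 4 := by
    have := card_sdiff_add_card_inter b c
    omega
  have hYc : (c \ b).card = 4 := by
    have := card_sdiff_add_card_inter c b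
    rw [inter_comm] at this
    omega
  have hOb : O ≠ b := by
    rintro rfl
    have : O ∩ (c \ O) = ∅ := by
      ext x
      simp only [mem_inter, mem_sdiff, notMem_empty, iff_false]
      tauto
    rw [this] at hY
    simp at hY
  have hOc : O ≠ c := by
    rintro rfl
    have : O ∩ (b \ O) = ∅ := by
      ext x
      simp only [mem_inter, mem_sdiff, notMem_empty, iff_false]
      tauto
    rw [this] at hX
    simp at hX
  have hdb : (O ∩ b).card = (O ∩ (b \ c)).card + (O ∩ (b ∩ c)).card := by
    rw [← card_union_of_disjoint]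
    · congr 1
      ext x
      simp only [mem_inter, mem_union, mem_sdiff]
      tauto
    · rw [disjoint_left]
      intro x hx hx'
      simp only [mem_inter, mem_sdiff] at hx hx'
      exact hx.2.2 hx'.2.2
  have hdc : (O ∩ c).card = (O ∩ (c \ b)).card + (O ∩ (b ∩ c)).card := by
    rw [← card_union_of_disjoint]
    · congr 1
      ext x
      simp only [mem_inter, mem_union, mem_sdiff]
      tauto
    · rw [disjoint_left]
      intro x hx hx'
      simp only [mem_inter, mem_sdiff] at hx hx'
      exact hx.2.2 hx'.2.1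
  have hib := inter_5_8_24 hα hB hO hb hOb
  have hic := inter_5_8_24 hα hB hO hc hOc
  have hXle : (O ∩ (b \ c)).card ≤ 4 := by
    rw [← hXc]
    exact card_le_card inter_subset_right
  by_contra hsub
  have hX3 : (O ∩ (b \ c)).card = 3 := by
    by_contra h3
    apply hsub
    have := eq_of_subset_of_card_le (inter_subset_right : O ∩ (b \ c) ⊆ b \ c) (by omega)
    rw [← this]
    exact inter_subset_left
  have hT1 : (O ∩ (b ∩ c)).card = 1 := by omega
  have hY3 : (O ∩ (c \ b)).card = 3 := by omega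
  have hsum := sum_inter_sdiff_le (t := 4) hB (b ∩ c) O h4
  have hOT : (O \ (b ∩ c)).card = 7 := by
    have := card_sdiff_add_card_inter O (b ∩ c)
    omega
  have hcardBT := card_blocks_through hB (b ∩ c) (by omega)
  rw [h4, hα] at hcardBT
  norm_num [Nat.choose] at hcardBT
  have hbBT : b ∈ (Bf B).filter (fun f => b ∩ c ⊆ f) := by
    rw [mem_filter, mem_Bf]
    exact ⟨hb, inter_subset_left⟩
  have hcBT : c ∈ ((Bf B).filter (fun f => b ∩ c ⊆ f)).erase b := by
    rw [mem_erase, mem_filter, mem_Bf]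
    exact ⟨Ne.symm hbc, hc, inter_subset_right⟩
  rw [← add_sum_erase _ _ hbBT, ← add_sum_erase _ _ hcBT] at hsum
  have hgb : (O ∩ (b \ (b ∩ c))).card = 3 := by
    rw [sdiff_inter_self_left]
    exact hX3
  have hgc : (O ∩ (c \ (b ∩ c))).card = 3 := by
    rw [inter_comm b c, sdiff_inter_self_left]
    exact hY3
  have hrest : ∀ f ∈ (((Bf B).filter (fun f => b ∩ c ⊆ f)).erase b).erase c,
      1 ≤ (O ∩ (f \ (b ∩ c))).card := by
    intro f hf
    simp only [mem_erase, mem_filter, mem_Bf] at hf
    obtain ⟨hfc, hfb, hfB, hTf⟩ := hf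
    have hOf : O ≠ f := by
      rintro rfl
      have : O ∩ (b ∩ c) = b ∩ c := inter_eq_right.2 hTf
      rw [this] at hT1
      omega
    have hif := inter_5_8_24 hα hB hO hfB hOf
    have hdf : (O ∩ f).card = (O ∩ (f \ (b ∩ c))).card + (O ∩ (b ∩ c)).card := by
      rw [← card_union_of_disjoint]
      · congr 1
        ext x
        simp only [mem_inter, mem_union, mem_sdiff]
        constructor
        · rintro ⟨hxO, hxf⟩
          by_cases h : x ∈ b ∧ x ∈ c
          · right
            exact ⟨hxO, h⟩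
          · left
            exact ⟨hxO, hxf, h⟩
        · rintro (⟨hxO, hxf, _⟩ | ⟨hxO, hxT⟩)
          · exact ⟨hxO, hxf⟩
          · exact ⟨hxO, hTf (mem_inter.2 hxT)⟩
      · rw [disjoint_left]
        intro x hx hx'
        simp only [mem_inter, mem_sdiff] at hx hx'
        exact hx.2.2 hx'.2
    omega
  have hsum2 := Finset.card_nsmul_le_sum _ _ 1 hrest
  have hcard3 : ((((Bf B).filter (fun f => b ∩ c ⊆ f)).erase b).erase c).card = 3 := by
    rw [card_erase_of_mem hcBT, card_erase_of_mem hbBT]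
    omega
  rw [hcard3] at hsum2
  simp only [smul_eq_mul, mul_one] at hsum2
  omega

theorem symmDiff_mem (hα : Fintype.card α = 24) {B : Set (Finset α)}
    (hB : Cfsg.IsSteinerSystem 5 8 B) {b c : Finset α}
    (hb : b ∈ B) (hc : c ∈ B) (h4 : (b ∩ c).card = 4) : symmDiff b c ∈ B := by
  have hb8 := hB.1 b hb
  have hc8 := hB.1 c hc
  have hXc : (b \ c).card = 4 := by
    have := card_sdiff_add_card_inter b c
    omega
  have hYc : (c \ b).card = 4 := by
    have := card_sdiff_add_card_inter c b
    rw [inter_comm] at this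
    omega
  obtain ⟨X3, hX3sub, hX3card⟩ := exists_subset_card_eq (show 3 ≤ (b \ c).card by omega)
  obtain ⟨y1, hy1⟩ : (c \ b).Nonempty := card_pos.1 (by omega)
  have key : ∀ y ∈ c \ b, y ≠ y1 → ∃ O ∈ B, b \ c ⊆ O ∧ y1 ∈ O ∧ y ∈ O := by
    intro y hy hne
    have hdisj : Disjoint X3 {y1, y} := by
      rw [disjoint_left]
      intro x hx hx'
      have hxX := hX3sub hx
      rw [mem_sdiff] at hxX hy hy1
      rw [mem_insert, mem_singleton] at hx'
      rcases hx' with rfl | rfl
      · exact hxX.2 hy1.1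
      · exact hxX.2 hy.1
    have hP : (X3 ∪ {y1, y}).card = 5 := by
      rw [card_union_of_disjoint hdisj, hX3card, card_pair (Ne.symm hne)]
    obtain ⟨O, ⟨hOB, hPO⟩, _⟩ := hB.2 _ hP
    refine ⟨O, hOB, contains_of_three_two hα hB hb hc hOB h4 ?_ ?_,
      hPO (by simp), hPO (by simp)⟩
    · rw [← hX3card]
      apply card_le_card
      intro x hx
      rw [mem_inter]
      exact ⟨hPO (mem_union_left _ hx), hX3sub hx⟩
    · rw [← card_pair (Ne.symm hne)]
      apply card_le_card
      intro x hx
      rw [mem_inter]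
      refine ⟨hPO (mem_union_right _ hx), ?_⟩
      rw [mem_insert, mem_singleton] at hx
      rcases hx with rfl | rfl
      · exact hy1
      · exact hy
  obtain ⟨y2, hy2, hy21⟩ : ∃ y2 ∈ c \ b, y2 ≠ y1 := by
    by_contra hcon
    push Not at hcon
    have h1 : c \ b ⊆ {y1} := fun y hy => mem_singleton.2 (hcon y hy)
    have h2 := card_le_card h1
    rw [card_singleton] at h2
    omega
  obtain ⟨O, hOB, hXO, hy1O, hy2O⟩ := key y2 hy2 hy21
  have hYO : c \ b ⊆ O := by
    intro y hy
    by_cases hyy : y = y1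
    · rw [hyy]
      exact hy1O
    obtain ⟨O', hO'B, hXO', hy1O', hyO'⟩ := key y hy hyy
    have hOO : O' = O := by
      by_contra hne
      have hlt := inter_lt hB hO'B hOB hne
      have h5 : (insert y1 (b \ c)).card ≤ (O' ∩ O).card := by
        apply card_le_card
        intro x hx
        rw [mem_insert] at hx
        rw [mem_inter]
        rcases hx with rfl | hx
        · exact ⟨hy1O', hy1O⟩
        · exact ⟨hXO' hx, hXO hx⟩
      rw [card_insert_of_notMem (by
        rw [mem_sdiff]
        intro h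
        exact (mem_sdiff.1 hy1).2 h.1), hXc] at h5
      omega
    rw [← hOO]
    exact hyO'
  have hsd : symmDiff b c = (b \ c) ∪ (c \ b) := rfl
  have hsub : symmDiff b c ⊆ O := by
    rw [hsd]
    exact union_subset hXO hYO
  have hcard : O.card ≤ (symmDiff b c).card := by
    rw [hsd, card_union_of_disjoint, hXc, hYc, hB.1 O hOB]
    rw [disjoint_left]
    intro x hx hx'
    rw [mem_sdiff] at hx hx'
    exact hx.2 hx'.1
  rw [eq_of_subset_of_card_le hsub hcard]
  exact hOB

end Cfsg.Agent.Lib.helper2.Steiner
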