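import Mathlib
import Cfsg.Agent.Lib.helper2.BF2

set_option autoImplicit false

namespace Cfsg.Agent.Lib.helper2.TI

open Cfsg.Agent.Lib.helper2
open scoped Pointwise

variable {G : Type*} [Group G]

theorem mem_conj_smul (g x : G) (H : Subgroup G) :
    x ∈ MulAut.conj g • H ↔ g⁻¹ * x * g ∈ H := by
  rw [Subgroup.mem_pointwise_smul_iff_inv_smul_mem, ← map_inv, MulAut.smul_def,
    MulAut.conj_apply, inv_inv]

theorem conj_smul_mul (a b : G) (H : Subgroup G) :
    MulAut.conj (a * b) • H = MulAut.conj a • MulAut.conj b • H := by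
  rw [map_mul, mul_smul]

/-- two commuting involutions lie in a common Sylow 2-subgroup -/
theorem exists_sylow_of_commute [Finite G] {u v : G} (hu : orderOf u = 2) (hv : orderOf v = 2)
    (hc : Commute u v) : ∃ Q : Sylow 2 G, u ∈ Q ∧ v ∈ Q := by
  have h1 : IsPGroup 2 (Subgroup.zpowers u) := by
    apply IsPGroup.of_card (n := 1)
    rw [Nat.card_zpowers, hu, pow_one]
  have h2 : IsPGroup 2 (Subgroup.zpowers v) := by
    apply IsPGroup.of_card (n := 1)
    rw [Nat.card_zpowers, hv, pow_one]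
  have hcz : ∀ k ∈ Subgroup.zpowers v, u * k * u⁻¹ = k := by
    intro k hk
    obtain ⟨j, rfl⟩ := Subgroup.mem_zpowers_iff.1 hk
    have := (hc.zpow_right j).eq
    rw [this, mul_inv_cancel_right]
  have h3 : Subgroup.zpowers u ≤ Subgroup.normalizer (Subgroup.zpowers v : Set G) := by
    rw [Subgroup.zpowers_le, Subgroup.mem_normalizer_iff]
    intro k
    constructor
    · intro hk
      rw [hcz k hk]; exact hk
    · intro hk
      have e := hcz _ hk
      have e2 : u * k * u⁻¹ = k := mul_left_cancel (mul_right_cancel e)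
      rw [← e2]; exact hk
  have h4 : IsPGroup 2 (Subgroup.zpowers u ⊔ Subgroup.zpowers v : Subgroup G) :=
    IsPGroup.to_sup_of_normal_right' h1 h2 h3
  obtain ⟨Q, hQ⟩ := h4.exists_le_sylow
  exact ⟨Q, hQ ((le_sup_left : Subgroup.zpowers u ≤ _) (Subgroup.mem_zpowers u)),
    hQ ((le_sup_right : Subgroup.zpowers v ≤ _) (Subgroup.mem_zpowers _))⟩

theorem exists_sylow_of_invol [Finite G] {u : G} (hu : orderOf u = 2) :
    ∃ Q : Sylow 2 G, u ∈ Q := by
  obtain ⟨Q, hQ, -⟩ := exists_sylow_of_commute hu hu (Commute.refl u)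
  exact ⟨Q, hQ⟩

theorem sylow_eq_conj [Finite G] (T Q : Sylow 2 G) :
    ∃ a : G, (Q : Subgroup G) = MulAut.conj a • (T : Subgroup G) := by
  obtain ⟨a, ha⟩ := MulAction.exists_smul_eq G T Q
  exact ⟨a, by rw [← ha, Sylow.coe_subgroup_smul]⟩

section

variable [Finite G] (T : Sylow 2 G)
  (hTI : ∀ g : G, MulAut.conj g • (T : Subgroup G) ≠ T → MulAut.conj g • (T : Subgroup G) ⊓ T = ⊥)
include hTI

theorem unique_conj {u : G} (hu : u ≠ 1) {a b : G} (ha : u ∈ MulAut.conj a • (T : Subgroup G))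
    (hb : u ∈ MulAut.conj b • (T : Subgroup G)) :
    MulAut.conj a • (T : Subgroup G) = MulAut.conj b • (T : Subgroup G) := by
  have hc : MulAut.conj (b⁻¹ * a) • (T : Subgroup G) = T := by
    by_contra hne
    have h := hTI _ hne
    have hmem : b⁻¹ * u * b ∈ MulAut.conj (b⁻¹ * a) • (T : Subgroup G) ⊓ T := by
      refine Subgroup.mem_inf.2 ⟨?_, ?_⟩
      · rw [mem_conj_smul] at ha ⊢
        have e : (b⁻¹ * a)⁻¹ * (b⁻¹ * u * b) * (b⁻¹ * a) = a⁻¹ * u * a := by group
        rw [e]
        exact ha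
      · rw [mem_conj_smul] at hb
        exact hb
    rw [h, Subgroup.mem_bot] at hmem
    apply hu
    calc u = b * (b⁻¹ * u * b) * b⁻¹ := by group
      _ = b * 1 * b⁻¹ := by rw [hmem]
      _ = 1 := by group
  have e : a = b * (b⁻¹ * a) := by group
  rw [e, conj_smul_mul, hc]

theorem mem_of_commute {u v : G} (hu : orderOf u = 2) (hv : orderOf v = 2) (hc : Commute u v)
    {a : G} (ha : u ∈ MulAut.conj a • (T : Subgroup G)) :
    v ∈ MulAut.conj a • (T : Subgroup G) := by
  obtain ⟨Q, hQu, hQv⟩ := exists_sylow_of_commute hu hv hc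
  obtain ⟨b, hb⟩ := sylow_eq_conj T Q
  have hu' : u ∈ MulAut.conj b • (T : Subgroup G) := by rw [← hb]; exact hQu
  have hv' : v ∈ MulAut.conj b • (T : Subgroup G) := by rw [← hb]; exact hQv
  rw [unique_conj T hTI (Invol.ne_one_of_order_two hu) ha hu']
  exact hv'

theorem mem_of_not_conj {u v : G} (hu : orderOf u = 2) (hv : orderOf v = 2) (hnc : ¬ IsConj u v)
    {a : G} (ha : u ∈ MulAut.conj a • (T : Subgroup G)) :
    v ∈ MulAut.conj a • (T : Subgroup G) := by
  obtain ⟨z, hz, hzu, hzv⟩ := BF.exists_invol_commute_of_not_conj hu hv hnc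
  have h1 : z ∈ MulAut.conj a • (T : Subgroup G) := mem_of_commute T hTI hu hz hzu.symm ha
  exact mem_of_commute T hTI hz hv hzv h1

theorem single_class (hnn : ¬ (T : Subgroup G).Normal) (s t : G) (hs : orderOf s = 2)
    (ht : orderOf t = 2) : IsConj s t := by
  by_contra hnc
  obtain ⟨Q, hQ⟩ := exists_sylow_of_invol hs
  obtain ⟨a, ha⟩ := sylow_eq_conj T Q
  have hsa : s ∈ MulAut.conj a • (T : Subgroup G) := by rw [← ha]; exact hQ
  have hta := mem_of_not_conj T hTI hs ht hnc hsa
  have hex : ∃ g : G, MulAut.conj g • (T : Subgroup G) ≠ T := by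
    by_contra hall
    push Not at hall
    apply hnn
    constructor
    intro n hn g
    rw [← hall g, mem_conj_smul]
    have e : g⁻¹ * (g * n * g⁻¹) * g = n := by group
    rw [e]
    exact hn
  obtain ⟨g, hg⟩ := hex
  have hne : MulAut.conj (a * g) • (T : Subgroup G) ≠ MulAut.conj a • (T : Subgroup G) := by
    intro h
    rw [conj_smul_mul] at h
    exact hg (smul_left_cancel _ h)
  set t' := (a * g * a⁻¹) * t * (a * g * a⁻¹)⁻¹ with ht'
  have ht'2 : orderOf t' = 2 := Invol.order_two_conj ht _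
  have ht'mem : t' ∈ MulAut.conj (a * g) • (T : Subgroup G) := by
    rw [mem_conj_smul] at hta ⊢
    have e : (a * g)⁻¹ * t' * (a * g) = a⁻¹ * t * a := by rw [ht']; group
    rw [e]
    exact hta
  have hnc' : ¬ IsConj s t' := by
    intro h
    apply hnc
    have h2 : IsConj t t' := isConj_iff.2 ⟨_, rfl⟩
    exact h.trans h2.symm
  have ht'a := mem_of_not_conj T hTI hs ht'2 hnc' hsa
  exact hne (unique_conj T hTI (Invol.ne_one_of_order_two ht'2) ht'mem ht'a)

end

end Cfsg.Agent.Lib.helper2.TI
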