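import Mathlib
import Cfsg.Agent.Lib.helper2.Idx2
import Cfsg.Agent.Lib.helper2.BF2

set_option autoImplicit false

namespace Cfsg.Agent.Lib.helper2.Thompson

open Cfsg.Agent.Lib.helper2

variable {G : Type*} [Group G]

/-- pairs from the two classes whose product's cyclic group contains `z` -/
abbrev F (x₁ x₂ z : G) : Type _ :=
  {p : G × G // IsConj x₁ p.1 ∧ IsConj x₂ p.2 ∧ z ∈ Subgroup.zpowers (p.1 * p.2)}

theorem class_card_mul [Finite G] (t : G) :
    Nat.card {u : G // IsConj t u} * Nat.card (Subgroup.centralizer ({t} : Set G))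
      = Nat.card G := by
  rw [← Subgroup.card_mul_index (Subgroup.centralizer ({t} : Set G)), mul_comm]
  congr 1
  rw [Subgroup.index_eq_card]
  symm
  let f : G ⧸ Subgroup.centralizer ({t} : Set G) → {u : G // IsConj t u} :=
    fun q => Quotient.liftOn' q
      (fun g => (⟨g * t * g⁻¹, isConj_iff.2 ⟨g, rfl⟩⟩ : {u : G // IsConj t u}))
      (by
        intro a b hab
        rw [QuotientGroup.leftRel_apply, Subgroup.mem_centralizer_singleton_iff] at hab
        apply Subtype.ext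
        show a * t * a⁻¹ = b * t * b⁻¹
        have h1 : b * t * b⁻¹ = a * (a⁻¹ * b * t) * b⁻¹ := by group
        rw [h1, hab]
        group)
  apply Nat.card_eq_of_bijective f
  constructor
  · intro q1 q2
    refine Quotient.inductionOn₂' q1 q2 ?_
    intro a b hab
    have h : a * t * a⁻¹ = b * t * b⁻¹ := congrArg Subtype.val hab
    apply Quotient.sound'
    rw [QuotientGroup.leftRel_apply, Subgroup.mem_centralizer_singleton_iff]
    calc a⁻¹ * b * t = a⁻¹ * (b * t * b⁻¹) * b := by group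
      _ = a⁻¹ * (a * t * a⁻¹) * b := by rw [h]
      _ = t * (a⁻¹ * b) := by group
  · rintro ⟨u, hu⟩
    obtain ⟨g, hg⟩ := isConj_iff.1 hu
    exact ⟨(g : G ⧸ Subgroup.centralizer ({t} : Set G)), Subtype.ext hg⟩

theorem card_F_le [Finite G] (x₁ x₂ g z : G) :
    Nat.card (F x₁ x₂ z) ≤ Nat.card (F x₁ x₂ (g * z * g⁻¹)) := by
  apply Nat.card_le_card_of_injective
    (fun p : F x₁ x₂ z => (⟨(g * p.1.1 * g⁻¹, g * p.1.2 * g⁻¹),
      p.2.1.trans (isConj_iff.2 ⟨g, rfl⟩), p.2.2.1.trans (isConj_iff.2 ⟨g, rfl⟩), by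
        obtain ⟨j, hj⟩ := Subgroup.mem_zpowers_iff.1 p.2.2.2
        rw [Subgroup.mem_zpowers_iff]
        refine ⟨j, ?_⟩
        have e : g * p.1.1 * g⁻¹ * (g * p.1.2 * g⁻¹) = g * (p.1.1 * p.1.2) * g⁻¹ := by group
        show (g * p.1.1 * g⁻¹ * (g * p.1.2 * g⁻¹)) ^ j = g * z * g⁻¹
        rw [e, conj_zpow, hj]⟩ : F x₁ x₂ (g * z * g⁻¹)))
  rintro ⟨⟨u, v⟩, hp⟩ ⟨⟨u', v'⟩, hp'⟩ h
  have h' := congrArg Subtype.val h
  simp only [Prod.mk.injEq] at h'
  obtain ⟨hu, hv⟩ := h'
  have hu' : u = u' := mul_left_cancel (mul_right_cancel hu)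
  have hv' : v = v' := mul_left_cancel (mul_right_cancel hv)
  subst hu' hv'
  rfl

theorem card_F_eq [Finite G] (x₁ x₂ y z : G) (h : IsConj y z) :
    Nat.card (F x₁ x₂ z) = Nat.card (F x₁ x₂ y) := by
  obtain ⟨g, hg⟩ := isConj_iff.1 h
  apply le_antisymm
  · have := card_F_le x₁ x₂ g⁻¹ z
    have e : g⁻¹ * z * g⁻¹⁻¹ = y := by rw [← hg]; group
    rw [e] at this
    exact this
  · have := card_F_le x₁ x₂ g y
    rw [hg] at this
    exact this

theorem card_sigma_F [Finite G] (x₁ x₂ y : G) :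
    Nat.card (Σ z : {z : G // IsConj y z}, F x₁ x₂ z.1)
      = Nat.card {z : G // IsConj y z} * Nat.card (F x₁ x₂ y) := by
  classical
  let _ : Fintype {z : G // IsConj y z} := Fintype.ofFinite _
  rw [Nat.card_sigma, Finset.sum_congr rfl (fun z _ => card_F_eq x₁ x₂ y z.1 z.2),
    Finset.sum_const, Finset.card_univ, smul_eq_mul, ← Nat.card_eq_fintype_card]

theorem order_formula [Finite G] (x₁ x₂ : G) (h₁ : orderOf x₁ = 2) (h₂ : orderOf x₂ = 2)
    (hnc : ¬ IsConj x₁ x₂) (hall : ∀ t : G, orderOf t = 2 → IsConj x₁ t ∨ IsConj x₂ t) :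
    Nat.card G = Nat.card (Subgroup.centralizer ({x₂} : Set G)) * Nat.card (F x₁ x₂ x₁)
      + Nat.card (Subgroup.centralizer ({x₁} : Set G)) * Nat.card (F x₁ x₂ x₂) := by
  classical
  have hP : Nat.card {p : G × G // IsConj x₁ p.1 ∧ IsConj x₂ p.2}
      = Nat.card {u : G // IsConj x₁ u} * Nat.card {u : G // IsConj x₂ u} := by
    rw [← Nat.card_prod]
    exact Nat.card_congr Equiv.subtypeProdEquivProd
  have hinv1 : ∀ z : G, IsConj x₁ z → orderOf z = 2 := by
    intro z hz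
    obtain ⟨g, hg⟩ := isConj_iff.1 hz
    rw [← hg]
    exact Idx2.order_two_conj' h₁ g
  have hinv2 : ∀ z : G, IsConj x₂ z → orderOf z = 2 := by
    intro z hz
    obtain ⟨g, hg⟩ := isConj_iff.1 hz
    rw [← hg]
    exact Idx2.order_two_conj' h₂ g
  have huniq : ∀ (w z z' : G), orderOf z = 2 → orderOf z' = 2 → z ∈ Subgroup.zpowers w →
      z' ∈ Subgroup.zpowers w → z = z' := fun w z z' hz hz' hm hm' =>
    Idx2.invol_unique_sub (Subgroup.zpowers w) inferInstance hm hm' hz hz'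
  let f : (Σ z : {z : G // IsConj x₁ z}, F x₁ x₂ z.1) ⊕ (Σ z : {z : G // IsConj x₂ z}, F x₁ x₂ z.1)
      → {p : G × G // IsConj x₁ p.1 ∧ IsConj x₂ p.2} := fun s =>
    match s with
    | Sum.inl s => ⟨s.2.1, s.2.2.1, s.2.2.2.1⟩
    | Sum.inr s => ⟨s.2.1, s.2.2.1, s.2.2.2.1⟩
  have hf : Function.Bijective f := by
    constructor
    · rintro (⟨⟨z, hz⟩, ⟨p, hp1, hp2, hp3⟩⟩ | ⟨⟨z, hz⟩, ⟨p, hp1, hp2, hp3⟩⟩)
        (⟨⟨z', hz'⟩, ⟨p', hp1', hp2', hp3'⟩⟩ | ⟨⟨z', hz'⟩, ⟨p', hp1', hp2', hp3'⟩⟩) h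
      · have hpp : p = p' := congrArg Subtype.val h
        subst hpp
        have hzz : z = z' := huniq _ z z' (hinv1 z hz) (hinv1 z' hz') hp3 hp3'
        subst hzz
        rfl
      · exfalso
        have hpp : p = p' := congrArg Subtype.val h
        subst hpp
        have hzz : z = z' := huniq _ z z' (hinv1 z hz) (hinv2 z' hz') hp3 hp3'
        subst hzz
        exact hnc (hz.trans hz'.symm)
      · exfalso
        have hpp : p = p' := congrArg Subtype.val h
        subst hpp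
        have hzz : z = z' := huniq _ z z' (hinv2 z hz) (hinv1 z' hz') hp3 hp3'
        subst hzz
        exact hnc (hz'.trans hz.symm)
      · have hpp : p = p' := congrArg Subtype.val h
        subst hpp
        have hzz : z = z' := huniq _ z z' (hinv2 z hz) (hinv2 z' hz') hp3 hp3'
        subst hzz
        rfl
    · rintro ⟨⟨u, v⟩, hu, hv⟩
      have hu2 := hinv1 u hu
      have hv2 := hinv2 v hv
      have hnc' : ¬ IsConj u v := fun h => hnc (hu.trans (h.trans hv.symm))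
      have hu' := Invol.sq_of_order_two hu2
      have hv' := Invol.sq_of_order_two hv2
      have heven : Even (orderOf (u * v)) := by
        rcases Nat.even_or_odd (orderOf (u * v)) with he | ho
        · exact he
        · exfalso
          obtain ⟨d, -, hd⟩ := Invol.conj_of_odd hu' hv' ho
          exact hnc' (isConj_iff.2 ⟨d, hd⟩)
      obtain ⟨m, hm⟩ := heven
      have hpos : 0 < orderOf (u * v) := orderOf_pos (u * v)
      have hm0 : 0 < m := by omega
      have hz2 : orderOf ((u * v) ^ m) = 2 :=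
        Invol.order_two_of (by rw [← pow_add, ← hm, pow_orderOf_eq_one])
          (Invol.half_ne_one hm hm0)
      have hzmem : (u * v) ^ m ∈ Subgroup.zpowers (u * v) := Subgroup.npow_mem_zpowers _ _
      rcases hall _ hz2 with hc | hc
      · exact ⟨Sum.inl ⟨⟨(u * v) ^ m, hc⟩, ⟨(u, v), hu, hv, hzmem⟩⟩, rfl⟩
      · exact ⟨Sum.inr ⟨⟨(u * v) ^ m, hc⟩, ⟨(u, v), hu, hv, hzmem⟩⟩, rfl⟩
  have hcard := Nat.card_eq_of_bijective f hf
  rw [Nat.card_sum, card_sigma_F, card_sigma_F, hP] at hcard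
  have hk1 := class_card_mul x₁
  have hk2 := class_card_mul x₂
  set k1 := Nat.card {u : G // IsConj x₁ u}
  set k2 := Nat.card {u : G // IsConj x₂ u}
  set c1 := Nat.card (Subgroup.centralizer ({x₁} : Set G))
  set c2 := Nat.card (Subgroup.centralizer ({x₂} : Set G))
  set a1 := Nat.card (F x₁ x₂ x₁)
  set a2 := Nat.card (F x₁ x₂ x₂)
  set N := Nat.card G
  have hNpos : 0 < N := Nat.card_pos
  have key : N * N = N * (c2 * a1 + c1 * a2) := by
    calc N * N = (k1 * c1) * (k2 * c2) := by rw [hk1, hk2]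
      _ = (k1 * k2) * (c1 * c2) := by ring
      _ = (k1 * a1 + k2 * a2) * (c1 * c2) := by rw [hcard]
      _ = (k1 * c1) * (c2 * a1) + (k2 * c2) * (c1 * a2) := by ring
      _ = N * (c2 * a1 + c1 * a2) := by rw [hk1, hk2]; ring
  exact Nat.eq_of_mul_eq_mul_left hNpos key

end Cfsg.Agent.Lib.helper2.Thompson
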