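import Cfsg.Agent.Lib.helper24.CharNormal
import Cfsg.Agent.Lib.helper24.CharOdd
import Cfsg.Agent.Lib.helper24.CharKer
import Cfsg.Agent.Lib.helper24.CycSlice
import Cfsg.Agent.Lib.helper23.Exceptional

set_option autoImplicit false

namespace Cfsg.Agent.Lib.helper2.Tifn

open Cfsg Cfsg.Agent.Lib.helper24
open scoped ComplexConjugate

universe u

/-- Frobenius-kernel hypothesis: centralizers of nonidentity elements of `K` lie in `K`. -/
def FK {N : Type u} [Group N] (K : Subgroup N) : Prop :=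
  ∀ k ∈ K, k ≠ 1 → ∀ n : N, n * k = k * n → n ∈ K

/-- Irreducible characters of `N` that are not constant on `K`. -/
def InS {N : Type u} [Group N] (K : Subgroup N) (χ : N → ℂ) : Prop :=
  IsIrrCharacter N χ ∧ ∃ k : N, k ∈ K ∧ χ k ≠ χ 1

section Abstract

variable {N : Type u} [Group N] [Fintype N]

theorem ind_irr (K : Subgroup N) [hKn : K.Normal] (hC : FK K) {τ : K → ℂ}
    (hτ : IsIrrCharacter K τ) (hτ1 : τ ≠ fun _ => 1) : IsIrrCharacter N (indFun K τ) := by
  classical
  have := Fintype.ofFinite K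
  have hK : (Nat.card K : ℂ) ≠ 0 := NeZero.ne _
  apply isIrrCharacter_of_inner_self_eq_one
    (isCharacter_indFun K (isCharacter_of_isIrrCharacter hτ))
  have hstab : conjStab K τ = K := by
    apply le_antisymm
    · intro g hg
      by_contra hgK
      apply hτ1
      have hα : ∀ x : K, (MulAut.conjNormal g : K ≃* K) x = x → x = 1 := by
        intro x hx
        by_contra hx1
        have hx' := congrArg Subtype.val hx
        rw [MulAut.conjNormal_apply] at hx'
        have : g * (x : N) = (x : N) * g := by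
          calc g * (x : N) = (g * (x : N) * g⁻¹) * g := by group
            _ = (x : N) * g := by rw [hx']
        exact hgK (hC x x.2 (fun h => hx1 (Subtype.ext h)) g this)
      have := irr_eq_triv_of_fpf (MulAut.conjNormal g : K ≃* K) hα ⟨τ, hτ⟩ hg
      exact congrArg Subtype.val this
    · intro g hg
      rw [mem_conjStab]
      exact conjFun_of_mem K (isCharacter_conj_class (isCharacter_of_isIrrCharacter hτ)) hg
  have h := card_mul_inner_indFun_normal K hτ
  have hcard : Nat.card {g : N // ∀ k : K, τ ⟨g * k * g⁻¹, hKn.conj_mem k k.2 g⟩ = τ k}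
      = Nat.card K := by
    apply Nat.card_congr
    refine Equiv.subtypeEquivRight ?_
    intro g
    have hiff : g ∈ K ↔ g ∈ conjStab K τ := by rw [hstab]
    rw [hiff, mem_conjStab]
    constructor
    · intro h'
      funext k
      exact h' k
    · intro h' k
      exact congrFun h' k
  rw [hcard] at h
  have := mul_left_cancel₀ hK (h.trans (mul_one _).symm)
  exact this

theorem ind_vanish (K : Subgroup N) [hKn : K.Normal] (τ : K → ℂ) {x : N} (hx : x ∉ K) :
    indFun K τ x = 0 := by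
  unfold indFun
  rw [Finset.sum_eq_zero, mul_zero]
  intro y _
  apply extendByZero_apply_not_mem
  intro h
  apply hx
  have := hKn.conj_mem _ h y
  simpa [mul_assoc] using this

theorem exists_ind (K : Subgroup N) [hKn : K.Normal] (hC : FK K) {χ : N → ℂ}
    (hχ : InS K χ) :
    ∃ τ : K → ℂ, IsIrrCharacter K τ ∧ τ ≠ (fun _ => 1) ∧ χ = indFun K τ := by
  classical
  have := Fintype.ofFinite K
  have := Fintype.ofFinite (IrrCharacter K)
  obtain ⟨hχi, k, hk, hne⟩ := hχ
  have hχc := isCharacter_of_isIrrCharacter hχi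
  have hr : IsCharacter K (fun h : K => χ h) := isCharacter_restrict K hχc
  have hrcl := isCharacter_conj_class hr
  have hex : ∃ φ : IrrCharacter K, φ ≠ trivIrr K ∧ classInner (fun h : K => χ h) φ.1 ≠ 0 := by
    by_contra hno
    push Not at hno
    have e : ∀ x : K, χ x = classInner (fun h : K => χ h) (trivIrr K).1 := by
      intro x
      have h1 := classFunction_expansion_apply hrcl x
      rw [Finset.sum_eq_single (trivIrr K)] at h1
      · rw [h1, trivIrr_apply, mul_one]
      · intro b _ hb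
        rw [hno b hb, zero_mul]
      · intro h
        exact absurd (Finset.mem_univ _) h
    apply hne
    have e1 := e ⟨k, hk⟩
    have e2 := e 1
    simp only [OneMemClass.coe_one] at e1 e2
    rw [e1, e2]
  obtain ⟨φ, hφ, hin⟩ := hex
  have hφ1 : φ.1 ≠ fun _ => 1 := fun h => hφ (Subtype.ext h)
  refine ⟨φ.1, φ.2, hφ1, ?_⟩
  have hfr := frobenius_reciprocity K φ.1 (isCharacter_conj_class hχc)
  have hne2 : classInner (indFun K φ.1) χ ≠ 0 := by
    rw [hfr, classInner_conj_symm (fun h : K => χ h) φ.1]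
    exact (map_ne_zero _).mpr hin
  have hirr := ind_irr K hC φ.2 hφ1
  have := irr_eq_of_inner_ne_zero (χ := ⟨indFun K φ.1, hirr⟩) (ψ := ⟨χ, hχi⟩) hne2
  exact (congrArg Subtype.val this).symm

theorem ind_inS (K : Subgroup N) [hKn : K.Normal] (hC : FK K) {τ : K → ℂ}
    (hτ : IsIrrCharacter K τ) (hτ1 : τ ≠ fun _ => 1) : InS K (indFun K τ) := by
  classical
  have := Fintype.ofFinite K
  have hirr := ind_irr K hC hτ hτ1
  refine ⟨hirr, ?_⟩
  by_contra hno
  push Not at hno
  have hfr := frobenius_reciprocity K τ (indFun_isClassFunction K τ)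
  rw [isIrrCharacter_inner_self hirr] at hfr
  have hconst : (fun h : K => indFun K τ h) = (indFun K τ 1) • (trivIrr K).1 := by
    funext h
    rw [hno h h.2]
    simp [trivIrr_apply]
  rw [hconst, classInner_smul_right] at hfr
  have h0 : classInner τ (trivIrr K).1 = 0 :=
    irr_inner_ne (χ := ⟨τ, hτ⟩) (ψ := trivIrr K) (fun h => hτ1 (congrArg Subtype.val h))
  rw [h0, mul_zero] at hfr
  exact one_ne_zero hfr

theorem const_off_one {A : Type u} [Group A] [Fintype A] {Θ : A → ℂ}
    (hΘ : IsClassFunction A Θ) (c : ℂ)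
    (h : ∀ τ : IrrCharacter A, τ ≠ trivIrr A → classInner Θ τ.1 = c * τ.1 1) (k : A)
    (hk : k ≠ 1) : Θ k = classInner Θ (trivIrr A).1 - c := by
  classical
  have := Fintype.ofFinite (IrrCharacter A)
  have hexp := classFunction_expansion_apply hΘ k
  have h0 : ∑ τ : IrrCharacter A, τ.1 1 * τ.1 k = 0 := by
    rw [sum_degree_mul_comm]
    apply second_orth_of_not_isConj
    intro hc
    exact hk (isConj_one_left.mp hc)
  have key : ∀ τ : IrrCharacter A, classInner Θ τ.1 * τ.1 k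
      = c * (τ.1 1 * τ.1 k)
        + (if τ = trivIrr A then classInner Θ (trivIrr A).1 - c else 0) := by
    intro τ
    by_cases ht : τ = trivIrr A
    · rw [if_pos ht, ht]
      simp only [trivIrr_apply]
      ring
    · rw [if_neg ht, h τ ht]
      ring
  rw [hexp]
  simp only [key]
  rw [Finset.sum_add_distrib, ← Finset.mul_sum, h0, mul_zero, zero_add, Finset.sum_ite_eq']
  simp

theorem D_lemma (K : Subgroup N) [hKn : K.Normal] [Fintype K] (hC : FK K) {Φ : N → ℂ}
    (hΦ : IsClassFunction N Φ)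
    (hprop : ∀ χ ξ, InS K χ → InS K ξ → ξ 1 * classInner χ Φ = χ 1 * classInner ξ Φ)
    {χ₀ : N → ℂ} (h₀ : InS K χ₀) :
    (∀ τ : IrrCharacter K, τ ≠ trivIrr K → classInner τ.1 (fun h : K => Φ h)
        = (classInner χ₀ Φ / χ₀ 1 * (K.index : ℂ)) * τ.1 1) ∧
    (∀ k : N, k ∈ K → k ≠ 1 → Φ k = classInner (fun h : K => Φ h) (trivIrr K).1
        - conj (classInner χ₀ Φ / χ₀ 1 * (K.index : ℂ))) := by
  have h1 : ∀ τ : IrrCharacter K, τ ≠ trivIrr K → classInner τ.1 (fun h : K => Φ h)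
        = (classInner χ₀ Φ / χ₀ 1 * (K.index : ℂ)) * τ.1 1 := by
    intro τ hτ
    have hτ1 : τ.1 ≠ fun _ => 1 := fun h => hτ (Subtype.ext h)
    have hS := ind_inS K hC τ.2 hτ1
    have hfr := frobenius_reciprocity K τ.1 hΦ
    rw [← hfr]
    have hp := hprop χ₀ (indFun K τ.1) h₀ hS
    rw [indFun_one] at hp
    have hχ0 : χ₀ 1 ≠ 0 := irr_one_ne_zero ⟨χ₀, h₀.1⟩
    field_simp
    linear_combination -hp
  refine ⟨h1, ?_⟩
  intro k hk hk1
  have hcl : IsClassFunction K (fun h : K => Φ h) := by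
    intro a b
    exact hΦ a b
  have h2 := const_off_one hcl (conj (classInner χ₀ Φ / χ₀ 1 * (K.index : ℂ))) ?_ ⟨k, hk⟩
    (fun h => hk1 (congrArg Subtype.val h))
  · exact h2
  · intro τ hτ
    rw [classInner_conj_symm τ.1 (fun h : K => Φ h), h1 τ hτ, map_mul, irr_one_conj]

theorem unique_of_const (K : Subgroup N) [hKn : K.Normal] (hC : FK K) {χ : N → ℂ}
    (hχ : InS K χ) (hconst : ∀ a ∈ K, ∀ b ∈ K, a ≠ 1 → b ≠ 1 → χ a = χ b) {ξ : N → ℂ}
    (hξ : InS K ξ) : ξ = χ := by
  classical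
  have := Fintype.ofFinite K
  obtain ⟨τ, hτ, hτ1, rfl⟩ := exists_ind K hC hξ
  obtain ⟨hχi, k, hk, hne⟩ := hχ
  have hk1 : k ≠ 1 := fun h => hne (by rw [h])
  have hfr := frobenius_reciprocity K τ
    (isCharacter_conj_class (isCharacter_of_isIrrCharacter hχi))
  have hval : ∀ h : K, χ h = χ k + (if h = 1 then χ 1 - χ k else 0) := by
    intro h
    by_cases h1 : h = 1
    · rw [if_pos h1, h1, OneMemClass.coe_one]
      ring
    · rw [if_neg h1, add_zero]
      exact hconst h h.2 k hk (fun e => h1 (Subtype.ext e)) hk1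
  have hK : (Nat.card K : ℂ) ≠ 0 := NeZero.ne _
  have hsum : ∑ h : K, τ h = 0 := by
    have h0 : classInner τ (trivIrr K).1 = 0 :=
      irr_inner_ne (χ := ⟨τ, hτ⟩) (ψ := trivIrr K) (fun h => hτ1 (congrArg Subtype.val h))
    unfold classInner at h0
    simp only [trivIrr_apply, map_one, mul_one] at h0
    rcases mul_eq_zero.mp h0 with h | h
    · exact absurd (inv_eq_zero.mp h) hK
    · exact h
  have hcomp : classInner τ (fun h : K => χ h)
      = (Nat.card K : ℂ)⁻¹ * (τ 1 * conj (χ 1 - χ k)) := by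
    unfold classInner
    congr 1
    have e : ∀ h : K, τ h * conj (χ h)
        = τ h * conj (χ k) + (if h = 1 then τ 1 * conj (χ 1 - χ k) else 0) := by
      intro h
      rw [hval h]
      by_cases h1 : h = 1
      · simp [h1]
        ring
      · simp [h1]
    simp only [e]
    rw [Finset.sum_add_distrib, ← Finset.sum_mul, hsum, zero_mul, zero_add,
      Finset.sum_ite_eq']
    simp
  have hne2 : classInner (indFun K τ) χ ≠ 0 := by
    rw [hfr, hcomp]
    have hτ1' : τ 1 ≠ 0 := irr_one_ne_zero ⟨τ, hτ⟩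
    have h3 : conj (χ 1 - χ k) ≠ 0 := (map_ne_zero _).mpr (sub_ne_zero.mpr (Ne.symm hne))
    exact mul_ne_zero (inv_ne_zero hK) (mul_ne_zero hτ1' h3)
  have hirr := ind_irr K hC hτ hτ1
  have := irr_eq_of_inner_ne_zero (χ := ⟨indFun K τ, hirr⟩) (ψ := ⟨χ, hχi⟩) hne2
  exact congrArg Subtype.val this

theorem int_of_two (x : ℂ) (n : ℕ) (h1 : ∃ z : ℤ, x * ((n : ℂ) - 1) = z)
    (h2 : ∃ z : ℤ, x * (n : ℂ) ^ 2 = z) : ∃ z : ℤ, x = z := by
  obtain ⟨a, ha⟩ := h1
  obtain ⟨b, hb⟩ := h2
  refine ⟨b - (n + 1) * a, ?_⟩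
  push_cast
  rw [← ha, ← hb]
  ring

theorem sum_sq_nontriv {A : Type u} [Group A] [Fintype A] [Fintype (IrrCharacter A)]
    [DecidableEq (IrrCharacter A)] :
    ∑ τ ∈ Finset.univ.erase (trivIrr A), τ.1 1 ^ 2 = (Nat.card A : ℂ) - 1 := by
  have h := sum_sq_degrees (G := A)
  rw [← Finset.add_sum_erase Finset.univ _ (Finset.mem_univ (trivIrr A))] at h
  rw [trivIrr_apply] at h
  linear_combination h

theorem int_of_sq {A : Type u} [Group A] [Fintype A] (x : ℂ)
    (h : ∀ τ : IrrCharacter A, τ ≠ trivIrr A → ∃ z : ℤ, x * τ.1 1 ^ 2 = z)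
    (hex : ∃ τ : IrrCharacter A, τ ≠ trivIrr A) : ∃ z : ℤ, x = z := by
  classical
  have := Fintype.ofFinite (IrrCharacter A)
  apply int_of_two x (Nat.card A)
  · rw [← sum_sq_nontriv, Finset.mul_sum]
    choose! z hz using h
    refine ⟨∑ τ ∈ Finset.univ.erase (trivIrr A), z τ, ?_⟩
    push_cast
    apply Finset.sum_congr rfl
    intro τ hτ
    exact hz τ (Finset.ne_of_mem_erase hτ)
  · obtain ⟨τ, hτ⟩ := hex
    obtain ⟨d, hd, q, hq⟩ := irr_degree_dvd_card τ
    obtain ⟨z, hz⟩ := h τ hτ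
    refine ⟨z * q ^ 2, ?_⟩
    rw [hq]
    push_cast
    rw [← hz, hd]
    ring

theorem inner_int_of_three {A : Type u} [Group A] [Fintype A] {c₁ c₂ c₃ : A → ℂ}
    (h₁ : IsCharacter A c₁) (h₂ : IsCharacter A c₂) (h₃ : IsCharacter A c₃)
    (τ : IrrCharacter A) :
    (∃ z : ℤ, classInner (c₁ - c₂ - c₃) τ.1 = z) ∧ (∃ z : ℤ, classInner τ.1 (c₁ - c₂ - c₃) = z) := by
  obtain ⟨a, ha⟩ := isCharacter_inner_irr_nat h₁ τ
  obtain ⟨b, hb⟩ := isCharacter_inner_irr_nat h₂ τ
  obtain ⟨c, hc⟩ := isCharacter_inner_irr_nat h₃ τ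
  have e : classInner (c₁ - c₂ - c₃) τ.1 = (((a : ℤ) - b - c : ℤ) : ℂ) := by
    rw [classInner_sub_left, classInner_sub_left, ha, hb, hc]
    push_cast
    ring
  refine ⟨⟨_, e⟩, ⟨(a : ℤ) - b - c, ?_⟩⟩
  rw [classInner_conj_symm (c₁ - c₂ - c₃) τ.1, e]
  simp

theorem card_of_unique (K : Subgroup N) [hKn : K.Normal] (hC : FK K) [IsMulCommutative K]
    (h1 : Nat.card {χ : IrrCharacter N // ∃ k : N, k ∈ K ∧ χ.1 k ≠ χ.1 1} = 1) :
    Nat.card K = K.index + 1 := by
  classical
  have := Fintype.ofFinite (IrrCharacter N)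
  have hsum := sum_sq_degrees (G := N)
  have hinfl := sum_sq_degrees_infl K
  rw [← Finset.sum_filter_add_sum_filter_not Finset.univ
    (fun χ : IrrCharacter N => ∀ n ∈ K, χ.1 n = χ.1 1), hinfl] at hsum
  have hdeg : ∀ χ ∈ Finset.univ.filter (fun χ : IrrCharacter N => ¬ ∀ n ∈ K, χ.1 n = χ.1 1),
      χ.1 1 ^ 2 = (K.index : ℂ) ^ 2 := by
    intro χ hχ
    rw [Finset.mem_filter] at hχ
    have hχ2 := hχ.2
    push Not at hχ2
    obtain ⟨n, hn, hne⟩ := hχ2
    have hin : InS K χ.1 := ⟨χ.2, n, hn, hne⟩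
    obtain ⟨τ, hτ, -, he⟩ := exists_ind K hC hin
    have hτ1 : τ 1 = 1 := irr_one_of_comm ⟨τ, hτ⟩
    rw [he, indFun_one, hτ1, mul_one]
  rw [Finset.sum_congr rfl hdeg, Finset.sum_const, nsmul_eq_mul] at hsum
  have hcard : (Finset.univ.filter
      (fun χ : IrrCharacter N => ¬ ∀ n ∈ K, χ.1 n = χ.1 1)).card = 1 := by
    rw [← h1, Nat.card_eq_fintype_card, Fintype.card_subtype]
    congr 1
    ext χ
    simp
  rw [hcard] at hsum
  have hN : Nat.card N = Nat.card K * K.index := (Subgroup.card_mul_index K).symm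
  have h0 : (K.index : ℂ) ≠ 0 := Nat.cast_ne_zero.mpr Subgroup.index_ne_zero_of_finite
  have h2 : (K.index : ℂ) * ((K.index : ℂ) + 1) = (K.index : ℂ) * (Nat.card K : ℂ) := by
    rw [hN] at hsum
    push_cast at hsum
    linear_combination hsum
  have h3 := mul_left_cancel₀ h0 h2
  exact_mod_cast h3.symm

theorem conj_transitive (K : Subgroup N) [hKn : K.Normal] (hC : FK K)
    (hcard : Nat.card K = K.index + 1) {g : N} (hg : g ∈ K) (hg1 : g ≠ 1) {a : N} (ha : a ∈ K)
    (ha1 : a ≠ 1) : ∃ n : N, n * g * n⁻¹ = a := by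
  classical
  have hKpos : 0 < Nat.card K := Nat.card_pos
  have hfib : ∀ b ∈ (Finset.univ : Finset N).image (fun n => n * g * n⁻¹),
      ((Finset.univ : Finset N).filter (fun x => x * g * x⁻¹ = b)).card ≤ Nat.card K := by
    intro b hb
    obtain ⟨n₀, -, rfl⟩ := Finset.mem_image.mp hb
    have hKc : Nat.card K = ((Finset.univ : Finset N).filter (fun x => x ∈ K)).card := by
      rw [Nat.card_eq_fintype_card, Fintype.card_subtype]
    rw [hKc]
    apply Finset.card_le_card_of_injOn (fun x => n₀⁻¹ * x)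
    · intro x hx
      have hx' : x * g * x⁻¹ = n₀ * g * n₀⁻¹ := by simpa using hx
      simp only [Finset.coe_filter, Finset.mem_univ, true_and, Set.mem_ofPred_eq]
      apply hC g hg hg1
      calc n₀⁻¹ * x * g = n₀⁻¹ * (x * g * x⁻¹) * x := by group
        _ = n₀⁻¹ * (n₀ * g * n₀⁻¹) * x := by rw [hx']
        _ = g * (n₀⁻¹ * x) := by group
    · intro x _ y _ hxy
      exact mul_left_cancel hxy
  have h1 := Finset.card_le_mul_card_image (f := fun n : N => n * g * n⁻¹)
    (Finset.univ : Finset N) (Nat.card K) hfib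
  rw [Finset.card_univ, ← Nat.card_eq_fintype_card, ← Subgroup.card_mul_index K] at h1
  have h2 : K.index ≤ ((Finset.univ : Finset N).image (fun n => n * g * n⁻¹)).card :=
    Nat.le_of_mul_le_mul_left h1 hKpos
  have hsub : (Finset.univ : Finset N).image (fun n => n * g * n⁻¹)
      ⊆ ((Finset.univ : Finset N).filter (fun x => x ∈ K)).erase 1 := by
    intro b hb
    obtain ⟨n₀, -, rfl⟩ := Finset.mem_image.mp hb
    rw [Finset.mem_erase, Finset.mem_filter]
    refine ⟨?_, Finset.mem_univ _, hKn.conj_mem g hg n₀⟩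
    intro h
    apply hg1
    calc g = n₀⁻¹ * (n₀ * g * n₀⁻¹) * n₀ := by group
      _ = 1 := by rw [h]; group
  have hD : (((Finset.univ : Finset N).filter (fun x => x ∈ K)).erase 1).card = K.index := by
    rw [Finset.card_erase_of_mem (by simp [K.one_mem]), ← Fintype.card_subtype,
      ← Nat.card_eq_fintype_card, hcard]
    simp
  have heq := Finset.eq_of_subset_of_card_le hsub (by rw [hD]; exact h2)
  have hmem : a ∈ ((Finset.univ : Finset N).filter (fun x => x ∈ K)).erase 1 := by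
    rw [Finset.mem_erase, Finset.mem_filter]
    exact ⟨ha1, Finset.mem_univ _, ha⟩
  rw [← heq] at hmem
  obtain ⟨n, -, hn⟩ := Finset.mem_image.mp hmem
  exact ⟨n, hn⟩

end Abstract

end Cfsg.Agent.Lib.helper2.Tifn
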