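import Cfsg.Agent.Lib.helper2.Tifn

set_option autoImplicit false

namespace Cfsg.Agent.Lib.helper2.Tifn

open Cfsg Cfsg.Agent.Lib.helper24
open scoped ComplexConjugate

universe u

section Concrete

variable {G : Type u} [Group G] [Fintype G]

omit [Fintype G] in
theorem kn_fk (K : Subgroup G)
    (hC : ∀ k ∈ K, k ≠ 1 → Subgroup.centralizer ({k} : Set G) ≤ K) :
    FK (K.subgroupOf (Subgroup.normalizer (K : Set G))) := by
  intro k hk hk1 n hn
  rw [Subgroup.mem_subgroupOf] at hk ⊢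
  apply hC (k : G) hk (fun h => hk1 (Subtype.ext (by simpa using h)))
  rw [Subgroup.mem_centralizer_iff]
  intro y hy
  rw [Set.mem_singleton_iff] at hy
  rw [hy]
  have := congrArg Subtype.val hn
  simpa using this.symm

theorem star_comb (K : Subgroup G) [Fintype ↥(Subgroup.normalizer (K : Set G))]
    (S : Set (↥(Subgroup.normalizer (K : Set G)) → ℂ))
    (star : (↥(Subgroup.normalizer (K : Set G)) → ℂ) → (G → ℂ))
    (hstar : IsLinearIsometryOn (zspan S) star)
    (hext : ∀ α ∈ zspanOn S ({1}ᶜ : Set ↥(Subgroup.normalizer (K : Set G))),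
      star α = indFun (Subgroup.normalizer (K : Set G)) α)
    {χ ξ : ↥(Subgroup.normalizer (K : Set G)) → ℂ} (hχ : χ ∈ S) (hξ : ξ ∈ S) (a b : ℤ)
    (h1 : (a : ℂ) * χ 1 = (b : ℂ) * ξ 1) :
    a • star χ - b • star ξ = indFun (Subgroup.normalizer (K : Set G)) (a • χ - b • ξ) := by
  have hχz : χ ∈ zspan S := Submodule.subset_span hχ
  have hξz : ξ ∈ zspan S := Submodule.subset_span hξ
  have haz : a • χ ∈ zspan S := Submodule.smul_mem _ a hχz
  have hbz : (-b) • ξ ∈ zspan S := Submodule.smul_mem _ (-b) hξz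
  have hα : a • χ - b • ξ = a • χ + (-b) • ξ := by rw [neg_smul, sub_eq_add_neg]
  have hmem : a • χ - b • ξ ∈ zspanOn S ({1}ᶜ : Set ↥(Subgroup.normalizer (K : Set G))) := by
    refine ⟨?_, ?_⟩
    · rw [hα]
      exact Submodule.add_mem _ haz hbz
    · intro x hx
      have hx1 : x = 1 := by simpa using hx
      rw [hx1]
      show a • χ 1 - b • ξ 1 = 0
      rw [zsmul_eq_mul, zsmul_eq_mul, h1, sub_self]
  rw [← hext _ hmem, hα, hstar.1 _ haz _ hbz, hstar.2.1 _ hχz, hstar.2.1 _ hξz, neg_smul,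
    sub_eq_add_neg]

theorem star_inner (K : Subgroup G) [Fintype ↥(Subgroup.normalizer (K : Set G))]
    (S : Set (↥(Subgroup.normalizer (K : Set G)) → ℂ))
    (star : (↥(Subgroup.normalizer (K : Set G)) → ℂ) → (G → ℂ))
    (hstar : IsLinearIsometryOn (zspan S) star)
    (hext : ∀ α ∈ zspanOn S ({1}ᶜ : Set ↥(Subgroup.normalizer (K : Set G))),
      star α = indFun (Subgroup.normalizer (K : Set G)) α)
    {χ ξ : ↥(Subgroup.normalizer (K : Set G)) → ℂ} (hχ : χ ∈ S) (hξ : ξ ∈ S) (a b : ℤ)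
    (h1 : (a : ℂ) * χ 1 = (b : ℂ) * ξ 1) {Ψ : G → ℂ} (hΨ : IsClassFunction G Ψ) :
    (a : ℂ) * classInner (star χ) Ψ - (b : ℂ) * classInner (star ξ) Ψ
      = (a : ℂ) * classInner χ (fun n : ↥(Subgroup.normalizer (K : Set G)) => Ψ n)
        - (b : ℂ) * classInner ξ (fun n : ↥(Subgroup.normalizer (K : Set G)) => Ψ n) := by
  have h := star_comb K S star hstar hext hχ hξ a b h1
  have hfr := frobenius_reciprocity (Subgroup.normalizer (K : Set G)) (a • χ - b • ξ) hΨ
  rw [← h] at hfr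
  rw [classInner_sub_left, classInner_sub_left, ← Int.cast_smul_eq_zsmul ℂ a,
    ← Int.cast_smul_eq_zsmul ℂ b, ← Int.cast_smul_eq_zsmul ℂ a, ← Int.cast_smul_eq_zsmul ℂ b,
    classInner_smul_left, classInner_smul_left, classInner_smul_left, classInner_smul_left]
    at hfr
  exact hfr

theorem star_val (K : Subgroup G)
    (hTI : ∀ g : G, g ∉ Subgroup.normalizer (K : Set G) → ∀ k ∈ K, g * k * g⁻¹ ∈ K → k = 1)
    [Fintype ↥(Subgroup.normalizer (K : Set G))]
    (S : Set (↥(Subgroup.normalizer (K : Set G)) → ℂ))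
    (star : (↥(Subgroup.normalizer (K : Set G)) → ℂ) → (G → ℂ))
    (hstar : IsLinearIsometryOn (zspan S) star)
    (hext : ∀ α ∈ zspanOn S ({1}ᶜ : Set ↥(Subgroup.normalizer (K : Set G))),
      star α = indFun (Subgroup.normalizer (K : Set G)) α)
    {χ ξ : ↥(Subgroup.normalizer (K : Set G)) → ℂ} (hχ : χ ∈ S) (hξ : ξ ∈ S) (a b : ℤ)
    (h1 : (a : ℂ) * χ 1 = (b : ℂ) * ξ 1)
    (hχcl : IsClassFunction ↥(Subgroup.normalizer (K : Set G)) χ)
    (hξcl : IsClassFunction ↥(Subgroup.normalizer (K : Set G)) ξ)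
    (hχv : ∀ x : ↥(Subgroup.normalizer (K : Set G)), (x : G) ∉ K → χ x = 0)
    (hξv : ∀ x : ↥(Subgroup.normalizer (K : Set G)), (x : G) ∉ K → ξ x = 0)
    (k : ↥(Subgroup.normalizer (K : Set G))) (hk : (k : G) ∈ K) (hk1 : k ≠ 1) :
    (a : ℂ) * star χ k - (b : ℂ) * star ξ k = (a : ℂ) * χ k - (b : ℂ) * ξ k := by
  have h := star_comb K S star hstar hext hχ hξ a b h1
  have hcl : IsClassFunction ↥(Subgroup.normalizer (K : Set G)) (a • χ - b • ξ) := by
    rw [← Int.cast_smul_eq_zsmul ℂ a, ← Int.cast_smul_eq_zsmul ℂ b]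
    exact isClassFunction_sub (isClassFunction_smul _ hχcl) (isClassFunction_smul _ hξcl)
  have hv : ∀ x : ↥(Subgroup.normalizer (K : Set G)), (x : G) ∉ (K : Set G) →
      (a • χ - b • ξ) x = 0 := by
    intro x hx
    show a • χ x - b • ξ x = 0
    rw [hχv x hx, hξv x hx]
    simp
  have h2 := indFun_eq_on_ti (K : Set G) hTI (a • χ - b • ξ) hcl hv k hk hk1
  rw [← h] at h2
  have h3 : a • star χ k - b • star ξ k = a • χ k - b • ξ k := h2
  rw [zsmul_eq_mul, zsmul_eq_mul, zsmul_eq_mul, zsmul_eq_mul] at h3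
  exact h3

omit [Fintype G] in
theorem mem_S_iff (K : Subgroup G)
    (S : Set (↥(Subgroup.normalizer (K : Set G)) → ℂ))
    (hS : S = {χ : ↥(Subgroup.normalizer (K : Set G)) → ℂ |
      IsIrrCharacter ↥(Subgroup.normalizer (K : Set G)) χ ∧
        ∃ k : ↥(Subgroup.normalizer (K : Set G)), (k : G) ∈ K ∧ χ k ≠ χ 1})
    (χ : ↥(Subgroup.normalizer (K : Set G)) → ℂ) :
    χ ∈ S ↔ InS (K.subgroupOf (Subgroup.normalizer (K : Set G))) χ := by
  rw [hS]
  exact Iff.rfl

theorem deg_cast {N : Type u} [Group N] [Finite N] {χ : N → ℂ} (h : IsIrrCharacter N χ) :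
    ((charDegree χ : ℤ) : ℂ) = χ 1 := by
  have := charDegree_cast ⟨χ, h⟩
  rw [Int.cast_natCast]
  exact this

theorem ortho_const (K : Subgroup G)
    (hC : ∀ k ∈ K, k ≠ 1 → Subgroup.centralizer ({k} : Set G) ≤ K)
    [Fintype ↥(Subgroup.normalizer (K : Set G))]
    (S : Set (↥(Subgroup.normalizer (K : Set G)) → ℂ))
    (hS : S = {χ : ↥(Subgroup.normalizer (K : Set G)) → ℂ |
      IsIrrCharacter ↥(Subgroup.normalizer (K : Set G)) χ ∧
        ∃ k : ↥(Subgroup.normalizer (K : Set G)), (k : G) ∈ K ∧ χ k ≠ χ 1})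
    (star : (↥(Subgroup.normalizer (K : Set G)) → ℂ) → (G → ℂ))
    (hstar : IsLinearIsometryOn (zspan S) star)
    (hext : ∀ α ∈ zspanOn S ({1}ᶜ : Set ↥(Subgroup.normalizer (K : Set G))),
      star α = indFun (Subgroup.normalizer (K : Set G)) α)
    {χ₀ : ↥(Subgroup.normalizer (K : Set G)) → ℂ} (h₀ : χ₀ ∈ S)
    {ψ : G → ℂ} (hψ : IsClassFunction G ψ) (h0 : ∀ χ ∈ S, classInner (star χ) ψ = 0) :
    ∃ v : ℂ, ∀ k : ↥(Subgroup.normalizer (K : Set G)), (k : G) ∈ K → k ≠ 1 → ψ k = v := by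
  classical
  have : (K.subgroupOf (Subgroup.normalizer (K : Set G))).Normal :=
    Subgroup.normal_in_normalizer
  haveI : Fintype ↥(K.subgroupOf (Subgroup.normalizer (K : Set G))) := Fintype.ofFinite _
  have hFK := kn_fk K hC
  have hSiff := mem_S_iff K S hS
  have hΦ : IsClassFunction ↥(Subgroup.normalizer (K : Set G))
      (fun n : ↥(Subgroup.normalizer (K : Set G)) => ψ n) := by
    intro a b
    exact hψ a b
  have hprop : ∀ χ ξ, InS (K.subgroupOf (Subgroup.normalizer (K : Set G))) χ →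
      InS (K.subgroupOf (Subgroup.normalizer (K : Set G))) ξ →
      ξ 1 * classInner χ (fun n : ↥(Subgroup.normalizer (K : Set G)) => ψ n)
        = χ 1 * classInner ξ (fun n : ↥(Subgroup.normalizer (K : Set G)) => ψ n) := by
    intro χ ξ hχ' hξ'
    have hχ := (hSiff χ).mpr hχ'
    have hξ := (hSiff ξ).mpr hξ'
    have h1 := star_inner K S star hstar hext hχ hξ (charDegree ξ) (charDegree χ)
      (by rw [deg_cast hχ'.1, deg_cast hξ'.1]; ring) hψ
    rw [h0 χ hχ, h0 ξ hξ, deg_cast hχ'.1, deg_cast hξ'.1] at h1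
    linear_combination -h1
  obtain ⟨-, hD2⟩ := D_lemma _ hFK hΦ hprop ((hSiff χ₀).mp h₀)
  exact ⟨_, fun k hk hk1 => hD2 k hk hk1⟩

theorem star_diff_const (K : Subgroup G)
    (hC : ∀ k ∈ K, k ≠ 1 → Subgroup.centralizer ({k} : Set G) ≤ K)
    [Fintype ↥(Subgroup.normalizer (K : Set G))]
    (S : Set (↥(Subgroup.normalizer (K : Set G)) → ℂ))
    (hS : S = {χ : ↥(Subgroup.normalizer (K : Set G)) → ℂ |
      IsIrrCharacter ↥(Subgroup.normalizer (K : Set G)) χ ∧
        ∃ k : ↥(Subgroup.normalizer (K : Set G)), (k : G) ∈ K ∧ χ k ≠ χ 1})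
    (star : (↥(Subgroup.normalizer (K : Set G)) → ℂ) → (G → ℂ))
    (hstar : IsLinearIsometryOn (zspan S) star)
    (hext : ∀ α ∈ zspanOn S ({1}ᶜ : Set ↥(Subgroup.normalizer (K : Set G))),
      star α = indFun (Subgroup.normalizer (K : Set G)) α)
    {χl : ↥(Subgroup.normalizer (K : Set G)) → ℂ} (hl : χl ∈ S) :
    ∃ (zA : ℤ) (b : ℂ),
      (∀ k : ↥(Subgroup.normalizer (K : Set G)), (k : G) ∈ K → k ≠ 1 →
        star χl k - χl k = (zA : ℂ) - conj b) ∧
      ∀ τ : IrrCharacter ↥(K.subgroupOf (Subgroup.normalizer (K : Set G))),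
        τ ≠ trivIrr _ → ∃ z : ℤ, b * τ.1 1 = z := by
  classical
  have : (K.subgroupOf (Subgroup.normalizer (K : Set G))).Normal :=
    Subgroup.normal_in_normalizer
  haveI : Fintype ↥(K.subgroupOf (Subgroup.normalizer (K : Set G))) := Fintype.ofFinite _
  have hFK := kn_fk K hC
  have hSiff := mem_S_iff K S hS
  have hlz : χl ∈ zspan S := Submodule.subset_span hl
  obtain ⟨c₁, c₂, hc₁, hc₂, hc⟩ := hstar.2.2.2 χl hlz
  have hΨ : IsClassFunction G (star χl) := by
    rw [hc]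
    exact isClassFunction_sub (isCharacter_conj_class hc₁) (isCharacter_conj_class hc₂)
  have hl' := (hSiff χl).mp hl
  have hχlc := isCharacter_of_isIrrCharacter hl'.1
  have hΦ : IsClassFunction ↥(Subgroup.normalizer (K : Set G))
      ((fun n : ↥(Subgroup.normalizer (K : Set G)) => star χl n) - χl) := by
    apply isClassFunction_sub _ (isCharacter_conj_class hχlc)
    intro a b
    exact hΨ a b
  have hprop : ∀ χ ξ, InS (K.subgroupOf (Subgroup.normalizer (K : Set G))) χ →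
      InS (K.subgroupOf (Subgroup.normalizer (K : Set G))) ξ →
      ξ 1 * classInner χ ((fun n : ↥(Subgroup.normalizer (K : Set G)) => star χl n) - χl)
        = χ 1 * classInner ξ
          ((fun n : ↥(Subgroup.normalizer (K : Set G)) => star χl n) - χl) := by
    intro χ ξ hχ' hξ'
    have hχ := (hSiff χ).mpr hχ'
    have hξ := (hSiff ξ).mpr hξ'
    have h1 := star_inner K S star hstar hext hχ hξ (charDegree ξ) (charDegree χ)
      (by rw [deg_cast hχ'.1, deg_cast hξ'.1]; ring) hΨ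
    rw [hstar.2.2.1 χ (Submodule.subset_span hχ) χl hlz,
      hstar.2.2.1 ξ (Submodule.subset_span hξ) χl hlz, deg_cast hχ'.1, deg_cast hξ'.1] at h1
    rw [classInner_sub_right, classInner_sub_right]
    linear_combination -h1
  obtain ⟨hD1, hD2⟩ := D_lemma _ hFK hΦ hprop hl'
  have hres : ∀ {c : G → ℂ}, IsCharacter G c →
      IsCharacter ↥(K.subgroupOf (Subgroup.normalizer (K : Set G)))
        (fun h : ↥(K.subgroupOf (Subgroup.normalizer (K : Set G))) =>
          c ((h : ↥(Subgroup.normalizer (K : Set G))) : G)) :=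
    fun hc => isCharacter_restrict (K.subgroupOf (Subgroup.normalizer (K : Set G)))
      (isCharacter_restrict (Subgroup.normalizer (K : Set G)) hc)
  have hΦK : (fun h : ↥(K.subgroupOf (Subgroup.normalizer (K : Set G))) =>
        ((fun n : ↥(Subgroup.normalizer (K : Set G)) => star χl n) - χl) h)
      = (fun h : ↥(K.subgroupOf (Subgroup.normalizer (K : Set G))) =>
          c₁ ((h : ↥(Subgroup.normalizer (K : Set G))) : G))
        - (fun h : ↥(K.subgroupOf (Subgroup.normalizer (K : Set G))) =>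
          c₂ ((h : ↥(Subgroup.normalizer (K : Set G))) : G))
        - (fun h : ↥(K.subgroupOf (Subgroup.normalizer (K : Set G))) => χl h) := by
    funext h
    simp [hc]
  have hint := fun τ => inner_int_of_three (hres hc₁) (hres hc₂)
    (isCharacter_restrict (K.subgroupOf (Subgroup.normalizer (K : Set G))) hχlc) τ
  obtain ⟨zA, hzA⟩ := (hint (trivIrr _)).1
  refine ⟨zA, classInner χl ((fun n : ↥(Subgroup.normalizer (K : Set G)) => star χl n) - χl)
    / χl 1 * ((K.subgroupOf (Subgroup.normalizer (K : Set G))).index : ℂ), ?_, ?_⟩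
  · intro k hk hk1
    have h2 := hD2 k hk hk1
    rw [hΦK, hzA] at h2
    exact h2
  · intro τ hτ
    obtain ⟨z, hz⟩ := (hint τ).2
    refine ⟨z, ?_⟩
    rw [← hD1 τ hτ, hΦK, hz]

end Concrete

end Cfsg.Agent.Lib.helper2.Tifn
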